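import Mathlib
import Cfsg.Prelude.Def_LieClassical
import Cfsg.Prelude.Def_LieTypeDatum
import Cfsg.Agent.Lib.Helper53.FieldCent

/-!
# Centralizers of graph-field involutions of `PSL_n(F)` in `Inndiag` (helper53)

* `frob_eq`: an involution `σ` of the field with `p^f` elements is `a ↦ a^(p^(f/2))`, `f` even;
* `mem_GU_iff'`: `A ∈ GU_n(F, q) ↔ Aᵀ σ(A) = 1` for `σ a = a^q`;
* `Ctil_PhiGam`: the matrices commuting with `Phi σ * Gam` modulo scalars are `Z · GU_n`;
* `graphfield_main`: the statement S2704 relative to `Decomp`.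
-/

set_option autoImplicit false

namespace Cfsg.Agent.Lib.Helper53.AutPSL

open Matrix

variable {n : ℕ} {F : Type*} [Field F]

theorem charP_of_card' [Fintype F] {p f : ℕ} [Fact p.Prime] (hF : Fintype.card F = p ^ f) :
    CharP F p := by
  have hp : p.Prime := Fact.out
  obtain ⟨p', hchar, k, hp', hk⟩ := FiniteField.card' F
  have hpp : p' = p := by
    have hd : p' ∣ p ^ f := by
      rw [← hF, hk]
      exact dvd_pow_self _ k.ne_zero
    exact (Nat.prime_dvd_prime_iff_eq hp' hp).1 (hp'.dvd_of_dvd_pow hd)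
  subst hpp
  exact hchar

/-- an involution of a finite field is the Frobenius of the subfield of index two -/
theorem frob_eq [Fintype F] {p f : ℕ} [Fact p.Prime] (hF : Fintype.card F = p ^ f)
    (σ : F ≃+* F) (hσ1 : σ ≠ 1) (hσ2 : σ * σ = 1) :
    Even f ∧ ∀ a : F, σ a = a ^ (p ^ (f / 2)) := by
  classical
  have hp : p.Prime := Fact.out
  haveI := charP_of_card' hF
  have hσ2' : ∀ x, σ (σ x) = x := fun x => by
    have := congrArg (fun τ : F ≃+* F => τ x) hσ2
    exact this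
  have hord : orderOf σ = 2 := by
    apply orderOf_eq_prime
    · rw [pow_two]
      exact hσ2
    · exact hσ1
  obtain ⟨hdvd, hcard⟩ := Fix.fixed_card hF σ hord
  have hfin : Finite (F ≃+* F) := Fix.finite_ringAut
  let _ : Fintype (FixedPoints.subfield (Subgroup.zpowers σ) F) := Fintype.ofFinite _
  have hcK : Fintype.card (FixedPoints.subfield (Subgroup.zpowers σ) F) = p ^ (f / 2) := by
    rw [← Nat.card_eq_fintype_card]
    exact hcard
  obtain ⟨j, hj⟩ := Fix.exists_embedding hF σ hord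
    (FixedPoints.subfield (Subgroup.zpowers σ) F) hcK
  refine ⟨even_iff_two_dvd.2 hdvd, ?_⟩
  have hK : ∀ a ∈ Set.range j, a ^ (p ^ (f / 2)) = a := by
    rintro _ ⟨b, rfl⟩
    rw [← map_pow]
    congr 1
    have := FiniteField.pow_card b
    rwa [hcK] at this
  intro a
  have hs : σ (a + σ a) = a + σ a := by
    rw [map_add, hσ2', add_comm]
  have ht : σ (a * σ a) = a * σ a := by
    rw [map_mul, hσ2', mul_comm]
  have hs' := hK _ ((hj _).1 hs)
  have ht' := hK _ ((hj _).1 ht)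
  have e1 : a ^ 2 - (a + σ a) * a + a * σ a = 0 := by ring
  have e2 : (a ^ 2 - (a + σ a) * a + a * σ a) ^ (p ^ (f / 2)) =
      (a ^ (p ^ (f / 2))) ^ 2 - (a + σ a) ^ (p ^ (f / 2)) * a ^ (p ^ (f / 2)) +
        (a * σ a) ^ (p ^ (f / 2)) := by
    rw [add_pow_char_pow, sub_pow_char_pow, mul_pow, ← pow_mul, ← pow_mul, mul_comm 2]
  rw [e1, hs', ht', zero_pow (pow_ne_zero _ hp.ne_zero)] at e2
  have e3 : (a ^ (p ^ (f / 2)) - a) * (a ^ (p ^ (f / 2)) - σ a) = 0 := by
    rw [e2]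
    ring
  rcases mul_eq_zero.1 e3 with h | h
  · have hb : a ^ (p ^ (f / 2)) = a := sub_eq_zero.1 h
    rw [hb]
    by_cases ha : a = 0
    · rw [ha, map_zero]
    · apply (hj a).2
      have hpow : a ^ (p ^ (f / 2) - 1) = 1 := by
        have hq : p ^ (f / 2) = (p ^ (f / 2) - 1) + 1 := by
          have := Nat.one_le_pow (f / 2) p hp.pos
          omega
        rw [hq, pow_succ] at hb
        exact mul_right_cancel₀ ha (by rw [hb, one_mul])
      have hmem : Units.mk0 a ha ∈ (powMonoidHom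
          (Fintype.card (FixedPoints.subfield (Subgroup.zpowers σ) F) - 1) : Fˣ →* Fˣ).ker := by
        rw [MonoidHom.mem_ker, hcK]
        apply Units.ext
        exact hpow
      rw [← range_units_map j] at hmem
      obtain ⟨v, hv⟩ := hmem
      refine ⟨(v : FixedPoints.subfield (Subgroup.zpowers σ) F), ?_⟩
      have := congrArg (fun w : Fˣ => (w : F)) hv
      exact this
  · exact (sub_eq_zero.1 h).symm

/-- membership in the general unitary group as a matrix identity -/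
theorem mem_GU_iff' (σ : F ≃+* F) (q : ℕ) (hσ : ∀ a, σ a = a ^ q) (A : GL (Fin n) F) :
    A ∈ Cfsg.GU n F q ↔
      (A : Matrix (Fin n) (Fin n) F).transpose * (A : Matrix (Fin n) (Fin n) F).map σ = 1 := by
  have hform : ∀ u v : Fin n → F, Cfsg.hermForm n F q u v = u ⬝ᵥ (σ ∘ v) := by
    intro u v
    unfold Cfsg.hermForm
    simp [dotProduct, hσ]
  have key : ∀ u v : Fin n → F, Cfsg.hermForm n F q ((A : Matrix (Fin n) (Fin n) F) *ᵥ u)
      ((A : Matrix (Fin n) (Fin n) F) *ᵥ v) =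
      u ⬝ᵥ (((A : Matrix (Fin n) (Fin n) F).transpose * (A : Matrix (Fin n) (Fin n) F).map σ) *ᵥ
        (σ ∘ v)) := by
    intro u v
    rw [hform, map_mulVec', ← Matrix.mulVec_mulVec, dotProduct_comm, Matrix.dotProduct_mulVec,
      ← Matrix.mulVec_transpose, dotProduct_comm]
  constructor
  · intro h
    have h' : ∀ u v : Fin n → F, Cfsg.hermForm n F q ((A : Matrix (Fin n) (Fin n) F) *ᵥ u)
        ((A : Matrix (Fin n) (Fin n) F) *ᵥ v) = Cfsg.hermForm n F q u v := h
    ext a b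
    have := h' (Pi.single a 1) (Pi.single b 1)
    rw [key, hform] at this
    have e : (σ ∘ (Pi.single b (1 : F) : Fin n → F)) = Pi.single b 1 := by
      funext i
      by_cases hi : i = b
      · subst hi
        simp
      · simp [Pi.single_eq_of_ne hi]
    rw [e] at this
    simpa [Matrix.one_apply, Pi.single_apply, eq_comm] using this
  · intro h u v
    show Cfsg.hermForm n F q ((A : Matrix (Fin n) (Fin n) F) *ᵥ u)
        ((A : Matrix (Fin n) (Fin n) F) *ᵥ v) = Cfsg.hermForm n F q u v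
    rw [key, h, Matrix.one_mulVec, hform]

theorem PhiGam_mul_iota (σ : F ≃+* F) (X : GL (Fin n) F) : Phi σ * Gam * iota X =
    iota (GeneralLinearGroup.map (σ : F →+* F) (gti X)) * (Phi σ * Gam) := by
  rw [mul_assoc, Gam_mul_iota, ← mul_assoc, Phi_mul_iota, mul_assoc]

theorem map_map_self (σ : F ≃+* F) (hσ2 : ∀ x, σ (σ x) = x) (M : Matrix (Fin n) (Fin n) F) :
    (M.map σ).map σ = M := by
  ext a b
  simp [hσ2]

theorem GU_le_Ctil (σ : F ≃+* F) (q : ℕ) (hσ : ∀ a, σ a = a ^ q) (hσ2 : ∀ x, σ (σ x) = x) :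
    Cfsg.GU n F q ≤ Ctil (Phi σ * Gam : MulAut (ProjectiveSpecialLinearGroup (Fin n) F)) := by
  intro A hA
  rw [mem_GU_iff' σ q hσ] at hA
  rw [mem_Ctil, PhiGam_mul_iota]
  congr 2
  apply Units.ext
  show (((A⁻¹ : GL (Fin n) F) : Matrix (Fin n) (Fin n) F).transpose).map σ =
    (A : Matrix (Fin n) (Fin n) F)
  have h1 : (A : Matrix (Fin n) (Fin n) F).map σ =
      ((A⁻¹ : GL (Fin n) F) : Matrix (Fin n) (Fin n) F).transpose := by
    have e : ((A⁻¹ : GL (Fin n) F) : Matrix (Fin n) (Fin n) F).transpose *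
        (A : Matrix (Fin n) (Fin n) F).transpose = 1 := by
      rw [← Matrix.transpose_mul, gl_mul_inv, Matrix.transpose_one]
    calc (A : Matrix (Fin n) (Fin n) F).map σ
        = (((A⁻¹ : GL (Fin n) F) : Matrix (Fin n) (Fin n) F).transpose *
            (A : Matrix (Fin n) (Fin n) F).transpose) * (A : Matrix (Fin n) (Fin n) F).map σ := by
          rw [e, Matrix.one_mul]
      _ = _ := by rw [Matrix.mul_assoc, hA, Matrix.mul_one]
  rw [← h1, map_map_self σ hσ2]

/-- the matrices commuting with `Phi σ * Gam` modulo scalars -/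
theorem Ctil_PhiGam [Finite F] (hn : 2 ≤ n) (σ : F ≃+* F) (hσ1 : σ ≠ 1) (q : ℕ)
    (hσ : ∀ a, σ a = a ^ q) (hσ2 : ∀ x, σ (σ x) = x) :
    Ctil (Phi σ * Gam : MulAut (ProjectiveSpecialLinearGroup (Fin n) F)) =
      Subgroup.center (GL (Fin n) F) ⊔ Cfsg.GU n F q := by
  apply le_antisymm
  swap
  · rw [sup_le_iff]
    exact ⟨center_le_Ctil _, GU_le_Ctil σ q hσ hσ2⟩
  intro A hA
  rw [mem_Ctil, PhiGam_mul_iota] at hA
  have h1 : iota (A⁻¹ * GeneralLinearGroup.map (σ : F →+* F) (gti A)) = 1 := by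
    rw [map_mul, map_inv, inv_mul_eq_one]
    exact (mul_right_cancel hA).symm
  have hcen := center_of_iota_eq_one hn _ h1
  rw [GeneralLinearGroup.center_eq_range_scalar] at hcen
  obtain ⟨c, hc⟩ := hcen
  -- `σ((A⁻¹)ᵀ) = c • A`
  have h2 : (((A⁻¹ : GL (Fin n) F) : Matrix (Fin n) (Fin n) F).transpose).map σ =
      (c : F) • (A : Matrix (Fin n) (Fin n) F) := by
    have e1 : GeneralLinearGroup.map (σ : F →+* F) (gti A) =
        A * GeneralLinearGroup.scalar (Fin n) c := by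
      rw [hc, mul_inv_cancel_left]
    have e2 := congrArg (fun u : GL (Fin n) F => (u : Matrix (Fin n) (Fin n) F)) e1
    have e3 : ((GeneralLinearGroup.scalar (Fin n) c : GL (Fin n) F) : Matrix (Fin n) (Fin n) F) =
        (c : F) • (1 : Matrix (Fin n) (Fin n) F) := by
      ext i j
      simp [Matrix.one_apply, Matrix.diagonal_apply]
    simp only [Units.val_mul] at e2
    rw [e3, Matrix.mul_smul, Matrix.mul_one] at e2
    exact e2
  -- `(A⁻¹)ᵀ = σ c • σ(A)`
  have h3 : ((A⁻¹ : GL (Fin n) F) : Matrix (Fin n) (Fin n) F).transpose =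
      σ (c : F) • (A : Matrix (Fin n) (Fin n) F).map σ := by
    have := congrArg (fun M : Matrix (Fin n) (Fin n) F => M.map σ) h2
    simp only [map_map_self σ hσ2] at this
    rw [this]
    ext a b
    simp
  have hσc : σ (c : F) ≠ 0 := (map_ne_zero σ).2 c.ne_zero
  -- `Aᵀ σ(A) = (σ c)⁻¹ • 1`
  have h4 : (A : Matrix (Fin n) (Fin n) F).transpose * (A : Matrix (Fin n) (Fin n) F).map σ =
      (σ (c : F))⁻¹ • (1 : Matrix (Fin n) (Fin n) F) := by
    have e : (A : Matrix (Fin n) (Fin n) F).transpose *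
        ((A⁻¹ : GL (Fin n) F) : Matrix (Fin n) (Fin n) F).transpose = 1 := by
      rw [← Matrix.transpose_mul, gl_inv_mul, Matrix.transpose_one]
    rw [h3, Matrix.mul_smul] at e
    rw [← e, smul_smul, inv_mul_cancel₀ hσc, one_smul]
  -- the multiplier is fixed by `σ`
  have hfix : σ (σ (c : F))⁻¹ = (σ (c : F))⁻¹ := by
    have hne : Nonempty (Fin n) := ⟨⟨0, by omega⟩⟩
    obtain ⟨a⟩ := hne
    have e1 := congrFun (congrFun h4 a) a
    simp only [Matrix.mul_apply, Matrix.transpose_apply, Matrix.map_apply, Matrix.smul_apply,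
      Matrix.one_apply_eq, smul_eq_mul, mul_one] at e1
    rw [← e1, map_sum]
    refine Finset.sum_congr rfl (fun i _ => ?_)
    rw [map_mul, hσ2, mul_comm]
  have hord : orderOf σ = 2 := by
    apply orderOf_eq_prime
    · ext x
      exact hσ2 x
    · exact hσ1
  obtain ⟨μ, hμ⟩ := H90.norm_surj σ 2 (by norm_num) hord (σ (c : F)) hσc (by
    have := congrArg (fun t : F => t⁻¹) hfix
    simpa [map_inv₀] using this)
  rw [Herm.nrm_two] at hμ
  have hμ0 : μ ≠ 0 := by
    rintro rfl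
    rw [zero_mul] at hμ
    exact hσc hμ.symm
  -- `μ • A` is unitary
  let A' : GL (Fin n) F := GeneralLinearGroup.scalar (Fin n) (Units.mk0 μ hμ0) * A
  have hA'coe : (A' : Matrix (Fin n) (Fin n) F) = μ • (A : Matrix (Fin n) (Fin n) F) := by
    show ((GeneralLinearGroup.scalar (Fin n) (Units.mk0 μ hμ0) : GL (Fin n) F) :
      Matrix (Fin n) (Fin n) F) * (A : Matrix (Fin n) (Fin n) F) = _
    have e3 : ((GeneralLinearGroup.scalar (Fin n) (Units.mk0 μ hμ0) : GL (Fin n) F) :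
        Matrix (Fin n) (Fin n) F) = μ • (1 : Matrix (Fin n) (Fin n) F) := by
      ext i j
      simp [Matrix.one_apply, Matrix.diagonal_apply]
    rw [e3, Matrix.smul_mul, Matrix.one_mul]
  have hA'U : A' ∈ Cfsg.GU n F q := by
    rw [mem_GU_iff' σ q hσ, hA'coe]
    have e5 : (μ • (A : Matrix (Fin n) (Fin n) F)).map σ =
        σ μ • (A : Matrix (Fin n) (Fin n) F).map σ := by
      ext a b
      simp
    rw [e5, Matrix.transpose_smul, Matrix.smul_mul, Matrix.mul_smul, h4, smul_smul, smul_smul,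
      hμ, mul_inv_cancel₀ hσc, one_smul]
  have hA : A = GeneralLinearGroup.scalar (Fin n) (Units.mk0 μ hμ0)⁻¹ * A' := by
    simp only [A']
    rw [map_inv, inv_mul_cancel_left]
  rw [hA]
  apply Subgroup.mul_mem_sup
  · rw [GeneralLinearGroup.center_eq_range_scalar]
    exact ⟨_, rfl⟩
  · exact hA'U

theorem det_GU (hn : 0 < n) (σ : F ≃+* F) (q : ℕ) (hσ : ∀ a, σ a = a ^ q) :
    (Cfsg.GU n F q).map (GeneralLinearGroup.det : GL (Fin n) F →* Fˣ) =
      (powMonoidHom (q + 1) : Fˣ →* Fˣ).ker := by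
  ext u
  constructor
  · rintro ⟨A, hA, rfl⟩
    have hA' := (mem_GU_iff' σ q hσ A).1 hA
    rw [MonoidHom.mem_ker]
    apply Units.ext
    show ((GeneralLinearGroup.det A : Fˣ) : F) ^ (q + 1) = 1
    rw [GeneralLinearGroup.val_det_apply]
    have := congrArg Matrix.det hA'
    rw [Matrix.det_mul, Matrix.det_transpose, Matrix.det_one] at this
    have e : ((A : Matrix (Fin n) (Fin n) F).map σ).det = (A : Matrix (Fin n) (Fin n) F).det ^ q := by
      rw [← hσ]
      exact (RingHom.map_det (σ : F →+* F) _).symm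
    rw [e, ← pow_succ'] at this
    exact this
  · intro hu
    rw [MonoidHom.mem_ker] at hu
    have hu' : (u : F) ^ (q + 1) = 1 := by
      have := congrArg (fun w : Fˣ => (w : F)) hu
      exact this
    refine ⟨dgU ⟨0, hn⟩ u, ?_, det_dgU _ u⟩
    show dgU ⟨0, hn⟩ u ∈ Cfsg.GU n F q
    rw [mem_GU_iff' σ q hσ, dgU_coe, Matrix.diagonal_transpose]
    have e : (Matrix.diagonal (Function.update (fun _ => (1 : F)) (⟨0, hn⟩ : Fin n) (u : F))).map σ =
        Matrix.diagonal (fun i => σ (Function.update (fun _ => (1 : F)) (⟨0, hn⟩ : Fin n) (u : F) i)) := by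
      ext a b
      by_cases hab : a = b
      · subst hab
        simp
      · simp [Matrix.diagonal_apply_ne _ hab]
    rw [e, Matrix.diagonal_mul_diagonal, ← Matrix.diagonal_one]
    congr 1
    funext i
    by_cases hi : i = ⟨0, hn⟩
    · subst hi
      simp only [Function.update_self]
      rw [hσ, ← pow_succ']
      exact hu'
    · simp [Function.update_of_ne hi]

/-- the map `GU_n → Aut(PSL_n F)`, `B ↦ iota (g * B * g⁻¹)` -/
noncomputable def ThetaU (g : GL (Fin n) F) (q : ℕ) :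
    ↥(Cfsg.GU n F q) →* MulAut (ProjectiveSpecialLinearGroup (Fin n) F) :=
  iota.comp (MonoidHom.mk' (fun B : ↥(Cfsg.GU n F q) => g * (B : GL (Fin n) F) * g⁻¹) (by
    intro a b
    rw [Subgroup.coe_mul]
    group))

theorem ThetaU_apply (g : GL (Fin n) F) (q : ℕ) (B : ↥(Cfsg.GU n F q)) :
    ThetaU g q B = iota (g * (B : GL (Fin n) F) * g⁻¹) := rfl

theorem ThetaU_range [Finite F] (hn : 2 ≤ n) (σ : F ≃+* F) (hσ1 : σ ≠ 1) (q : ℕ)
    (hσ : ∀ a, σ a = a ^ q) (hσ2 : ∀ x, σ (σ x) = x) (g : GL (Fin n) F) :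
    (ThetaU g q).range =
      Cfsg.inndiagPSL n F ⊓ Subgroup.centralizer {iota g * (Phi σ * Gam) * (iota g)⁻¹} := by
  apply le_antisymm
  · rintro _ ⟨B, rfl⟩
    refine ⟨(mem_inndiag _).2 ⟨_, rfl⟩, ?_⟩
    show g * (B : GL (Fin n) F) * g⁻¹ ∈ Ctil (iota g * (Phi σ * Gam) * (iota g)⁻¹)
    rw [mem_Ctil_iota_conj]
    have : g⁻¹ * (g * (B : GL (Fin n) F) * g⁻¹) * g = (B : GL (Fin n) F) := by
      group
    rw [this]
    exact GU_le_Ctil σ q hσ hσ2 B.2
  · rintro β ⟨hβD, hβC⟩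
    obtain ⟨A, rfl⟩ := (mem_inndiag β).1 hβD
    have hA : A ∈ Ctil (iota g * (Phi σ * Gam) * (iota g)⁻¹) := hβC
    rw [mem_Ctil_iota_conj, Ctil_PhiGam hn σ hσ1 q hσ hσ2] at hA
    have hA2 : g⁻¹ * A * g ∈ ((Subgroup.center (GL (Fin n) F) ⊔ Cfsg.GU n F q :
        Subgroup (GL (Fin n) F)) : Set (GL (Fin n) F)) := hA
    rw [Subgroup.normal_mul] at hA2
    obtain ⟨z, hz, w, hw, e⟩ := Set.mem_mul.1 hA2
    refine ⟨⟨w, hw⟩, ?_⟩
    rw [ThetaU_apply]
    have hA' : A = g * (z * w) * g⁻¹ := by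
      rw [e]
      group
    rw [hA']
    simp only [map_mul]
    rw [iota_eq_one_of_center z hz, one_mul]

theorem scalars_eq_center : Cfsg.Geo.scalars (Fin n) F = Subgroup.center (GL (Fin n) F) := by
  rw [GeneralLinearGroup.center_eq_range_scalar]
  rfl

theorem ThetaU_ker (hn : 2 ≤ n) (g : GL (Fin n) F) (q : ℕ) :
    (ThetaU g q).ker = (Cfsg.Geo.scalars (Fin n) F).subgroupOf (Cfsg.GU n F q) := by
  ext B
  rw [MonoidHom.mem_ker, ThetaU_apply, iota_eq_one_iff hn, Subgroup.mem_subgroupOf,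
    scalars_eq_center]
  constructor
  · intro h
    have h2 := (inferInstance : (Subgroup.center (GL (Fin n) F)).Normal).conj_mem _ h g⁻¹
    have e : g⁻¹ * (g * (B : GL (Fin n) F) * g⁻¹) * g⁻¹⁻¹ = (B : GL (Fin n) F) := by group
    rwa [e] at h2
  · intro h
    exact (inferInstance : (Subgroup.center (GL (Fin n) F)).Normal).conj_mem _ h g

theorem nonempty_centEquivU [Finite F] (hn : 2 ≤ n) (σ : F ≃+* F) (hσ1 : σ ≠ 1) (q : ℕ)
    (hσ : ∀ a, σ a = a ^ q) (hσ2 : ∀ x, σ (σ x) = x) (g : GL (Fin n) F) :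
    Nonempty (↥(Cfsg.inndiagPSL n F ⊓
      Subgroup.centralizer {iota g * (Phi σ * Gam) * (iota g)⁻¹}) ≃* Cfsg.PGU n F q) := by
  have e1 := MulEquiv.subgroupCongr (ThetaU_range hn σ hσ1 q hσ hσ2 g).symm
  have e2 := QuotientGroup.quotientKerEquivRange (ThetaU g q)
  have e3 : ↥(Cfsg.GU n F q) ⧸ (ThetaU g q).ker ≃*
      ↥(Cfsg.GU n F q) ⧸ (Cfsg.Geo.scalars (Fin n) F).subgroupOf (Cfsg.GU n F q) :=
    QuotientGroup.quotientMulEquivOfEq (ThetaU_ker hn g q)
  exact ⟨e1.trans (e2.symm.trans e3)⟩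

theorem sq_sub_one_eq (m : ℕ) (hm : 0 < m) : m * m - 1 = (m + 1) * (m - 1) := by
  obtain ⟨k, rfl⟩ := Nat.exists_eq_add_of_le' hm
  have : (k + 1) * (k + 1) = (k + 1 + 1) * k + 1 := by ring
  rw [this, Nat.add_sub_cancel, Nat.add_sub_cancel]

/-- S2704 relative to the factorisation of automorphisms -/
theorem graphfield_main [Fintype F] {p f : ℕ} [Fact p.Prime] (hF : Fintype.card F = p ^ f)
    (hdec : Decomp n F) (hn : 2 ≤ n) (x : MulAut (ProjectiveSpecialLinearGroup (Fin n) F))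
    (hx : Cfsg.IsGraphFieldAutClassPSL x) (hx2 : orderOf x = 2) :
    Even f ∧
      (∀ y : MulAut (ProjectiveSpecialLinearGroup (Fin n) F), Cfsg.IsGraphFieldAutClassPSL y →
        orderOf y = 2 → Cfsg.IsConjUnder (Cfsg.inndiagPSL n F) x y) ∧
      Nonempty (↥(Cfsg.inndiagPSL n F ⊓ Subgroup.centralizer {x}) ≃*
        Cfsg.PGU n F (p ^ (f / 2))) ∧
      Cfsg.splitClassCount (Cfsg.inndiagPSL n F)
          (Cfsg.Inn (ProjectiveSpecialLinearGroup (Fin n) F)) x =
        Nat.gcd n (p ^ (f / 2) - 1) := by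
  have hp : p.Prime := Fact.out
  obtain ⟨g, σ, hσ, rfl⟩ := graphFieldClass_std hdec x hx
  have hord' : orderOf (Phi σ * (Gam : MulAut (ProjectiveSpecialLinearGroup (Fin n) F))) = 2 := by
    rw [← hx2, orderOf_conj']
  obtain ⟨-, hσ2⟩ := graphField_order hn σ Nat.prime_two hord'
  obtain ⟨heven, hfrob⟩ := frob_eq hF σ hσ hσ2
  have hσ2' : ∀ x, σ (σ x) = x := fun x => by
    have := congrArg (fun τ : F ≃+* F => τ x) hσ2
    exact this
  have hq0 : 0 < p ^ (f / 2) := Nat.pow_pos hp.pos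
  have hpf : p ^ f = p ^ (f / 2) * p ^ (f / 2) := by
    rw [← pow_add]
    congr 1
    obtain ⟨k, hk⟩ := heven
    omega
  refine ⟨heven, ?_, nonempty_centEquivU hn σ hσ _ hfrob hσ2' g, ?_⟩
  · intro y hy hy2
    obtain ⟨g', σ', hσ', rfl⟩ := graphFieldClass_std hdec y hy
    have hord'' : orderOf (Phi σ' * (Gam : MulAut (ProjectiveSpecialLinearGroup (Fin n) F))) = 2 := by
      rw [← hy2, orderOf_conj']
    obtain ⟨-, hσ'2⟩ := graphField_order hn σ' Nat.prime_two hord''
    obtain ⟨-, hfrob'⟩ := frob_eq hF σ' hσ' hσ'2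
    have hσσ' : σ' = σ := by
      ext a
      rw [hfrob, hfrob']
    subst hσσ'
    refine ⟨iota (g' * g⁻¹), (mem_inndiag _).2 ⟨_, rfl⟩, ?_⟩
    rw [map_mul, map_inv]
    group
  · have hcardU : Nat.card Fˣ = (p ^ (f / 2) + 1) * (p ^ (f / 2) - 1) := by
      rw [Nat.card_units, Nat.card_eq_fintype_card, hF, hpf, sq_sub_one_eq _ hq0]
    rw [splitClassCount_eq (by omega), det_Ctil_conj, Ctil_PhiGam hn σ hσ _ hfrob hσ2',
      Subgroup.map_sup, det_center, det_GU (by omega) σ _ hfrob,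
      Cyc.index_range_sup_ker n _ (by rw [hcardU]; exact dvd_mul_right _ _) (by omega), hcardU,
      Nat.mul_div_cancel_left _ (by omega)]

end Cfsg.Agent.Lib.Helper53.AutPSL
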