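import Mathlib
import Cfsg.Agent.Lib.Helper53.GraphCent

/-!
# The centraliser of the inverse-transpose automorphism of `PSL_n(F)` in `Inndiag`

In characteristic different from two it is the image of the similarity group of the dot form
`v ↦ v ⬝ᵥ v`, hence isomorphic to `PGO` of the dot form.
-/

set_option autoImplicit false

namespace Cfsg.Agent.Lib.Helper53.GT

open Matrix Cfsg.Agent.Lib.Helper53.AutPSL

/-- the dot form `v ↦ Σ vᵢ²` -/
def dotQ (κ : Type) [Fintype κ] (F : Type*) [Field F] (v : κ → F) : F := v ⬝ᵥ v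

variable {n : ℕ} {F : Type*} [Field F]

theorem dot_mulVec (A : Matrix (Fin n) (Fin n) F) (u v : Fin n → F) :
    (A *ᵥ u) ⬝ᵥ (A *ᵥ v) = u ⬝ᵥ ((A.transpose * A) *ᵥ v) := by
  conv_rhs => rw [← Matrix.mulVec_mulVec, Matrix.dotProduct_mulVec, Matrix.vecMul_transpose]

theorem mem_sim_dot (h2 : (2 : F) ≠ 0) (A : GL (Fin n) F) :
    A ∈ Cfsg.Geo.quadSimilarityGroup (F := F) (dotQ (Fin n) F) ↔
      ∃ c : Fˣ, (A : Matrix (Fin n) (Fin n) F).transpose * (A : Matrix (Fin n) (Fin n) F) =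
        (c : F) • (1 : Matrix (Fin n) (Fin n) F) := by
  constructor
  · rintro ⟨c, hc⟩
    refine ⟨c, ?_⟩
    have hpol : ∀ u v : Fin n → F, ((A : Matrix (Fin n) (Fin n) F) *ᵥ u) ⬝ᵥ
        ((A : Matrix (Fin n) (Fin n) F) *ᵥ v) = (c : F) * (u ⬝ᵥ v) := by
      intro u v
      have h1 := hc (u + v)
      have h2' := hc u
      have h3 := hc v
      simp only [dotQ, Matrix.mulVec_add, add_dotProduct, dotProduct_add] at h1 h2' h3
      have e1 : ((A : Matrix (Fin n) (Fin n) F) *ᵥ v) ⬝ᵥ ((A : Matrix (Fin n) (Fin n) F) *ᵥ u) =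
          ((A : Matrix (Fin n) (Fin n) F) *ᵥ u) ⬝ᵥ ((A : Matrix (Fin n) (Fin n) F) *ᵥ v) :=
        dotProduct_comm _ _
      have e2 : v ⬝ᵥ u = u ⬝ᵥ v := dotProduct_comm _ _
      rw [e1, e2] at h1
      have : (2 : F) * (((A : Matrix (Fin n) (Fin n) F) *ᵥ u) ⬝ᵥ
          ((A : Matrix (Fin n) (Fin n) F) *ᵥ v)) = 2 * ((c : F) * (u ⬝ᵥ v)) := by
        linear_combination h1 - h2' - h3
      exact mul_left_cancel₀ h2 this
    ext a b
    have := hpol (Pi.single a 1) (Pi.single b 1)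
    rw [dot_mulVec] at this
    simpa [Matrix.one_apply, Pi.single_apply, eq_comm] using this
  · rintro ⟨c, hc⟩
    refine ⟨c, fun v => ?_⟩
    show ((A : Matrix (Fin n) (Fin n) F) *ᵥ v) ⬝ᵥ ((A : Matrix (Fin n) (Fin n) F) *ᵥ v) =
      (c : F) * (v ⬝ᵥ v)
    rw [dot_mulVec, hc, Matrix.smul_mulVec, Matrix.one_mulVec, dotProduct_smul, smul_eq_mul]

/-- the matrices commuting with `Gam` modulo scalars -/
theorem mem_Ctil_Gam (hn : 2 ≤ n) (A : GL (Fin n) F) :
    A ∈ Ctil (Gam : MulAut (ProjectiveSpecialLinearGroup (Fin n) F)) ↔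
      ∃ c : Fˣ, (A : Matrix (Fin n) (Fin n) F).transpose * (A : Matrix (Fin n) (Fin n) F) =
        (c : F) • (1 : Matrix (Fin n) (Fin n) F) := by
  have e3 : ∀ c : Fˣ, ((GeneralLinearGroup.scalar (Fin n) c : GL (Fin n) F) :
      Matrix (Fin n) (Fin n) F) = (c : F) • (1 : Matrix (Fin n) (Fin n) F) := by
    intro c
    ext i j
    simp [Matrix.one_apply, Matrix.diagonal_apply]
  have eT : (A : Matrix (Fin n) (Fin n) F).transpose *
      ((A⁻¹ : GL (Fin n) F) : Matrix (Fin n) (Fin n) F).transpose = 1 := by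
    rw [← Matrix.transpose_mul, gl_inv_mul, Matrix.transpose_one]
  rw [mem_Ctil, Gam_mul_iota]
  constructor
  · intro hA
    have h1 : iota (A⁻¹ * gti A) = 1 := by
      rw [map_mul, map_inv, inv_mul_eq_one]
      exact (mul_right_cancel hA).symm
    have hcen := center_of_iota_eq_one hn _ h1
    rw [GeneralLinearGroup.center_eq_range_scalar] at hcen
    obtain ⟨c, hc⟩ := hcen
    have e1 : gti A = A * GeneralLinearGroup.scalar (Fin n) c := by
      rw [hc, mul_inv_cancel_left]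
    have e2 := congrArg (fun u : GL (Fin n) F => (u : Matrix (Fin n) (Fin n) F)) e1
    simp only [Units.val_mul] at e2
    rw [e3, Matrix.mul_smul, Matrix.mul_one, gti_coe] at e2
    refine ⟨c⁻¹, ?_⟩
    rw [e2, Matrix.mul_smul] at eT
    rw [← eT, smul_smul, Units.val_inv_eq_inv_val, inv_mul_cancel₀ c.ne_zero, one_smul]
  · rintro ⟨c, hc⟩
    have e1 : gti A = A * GeneralLinearGroup.scalar (Fin n) c⁻¹ := by
      apply Units.ext
      rw [Units.val_mul, e3, Matrix.mul_smul, Matrix.mul_one, gti_coe]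
      have eT' : ((A⁻¹ : GL (Fin n) F) : Matrix (Fin n) (Fin n) F).transpose *
          (A : Matrix (Fin n) (Fin n) F).transpose = 1 := by
        rw [← Matrix.transpose_mul, gl_mul_inv, Matrix.transpose_one]
      calc ((A⁻¹ : GL (Fin n) F) : Matrix (Fin n) (Fin n) F).transpose
          = ((c⁻¹ : Fˣ) : F) • (((A⁻¹ : GL (Fin n) F) : Matrix (Fin n) (Fin n) F).transpose *
              ((A : Matrix (Fin n) (Fin n) F).transpose * (A : Matrix (Fin n) (Fin n) F))) := by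
            rw [hc, Matrix.mul_smul, Matrix.mul_one, smul_smul, Units.val_inv_eq_inv_val,
              inv_mul_cancel₀ c.ne_zero, one_smul]
        _ = ((c⁻¹ : Fˣ) : F) • (A : Matrix (Fin n) (Fin n) F) := by
            rw [← Matrix.mul_assoc, eT', Matrix.one_mul]
    rw [e1, map_mul]
    have hz : GeneralLinearGroup.scalar (Fin n) c⁻¹ ∈ Subgroup.center (GL (Fin n) F) := by
      rw [GeneralLinearGroup.center_eq_range_scalar]
      exact ⟨_, rfl⟩
    rw [iota_eq_one_of_center _ hz, mul_one]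

/-- the map `GO(dot) → Aut(PSL_n F)` -/
noncomputable def ThetaO (n : ℕ) (F : Type*) [Field F] :
    ↥(Cfsg.Geo.quadSimilarityGroup (F := F) (dotQ (Fin n) F)) →*
      MulAut (ProjectiveSpecialLinearGroup (Fin n) F) :=
  iota.comp (Subgroup.subtype _)

theorem ThetaO_range (h2 : (2 : F) ≠ 0) (hn : 2 ≤ n) :
    (ThetaO n F).range = Cfsg.inndiagPSL n F ⊓
      Subgroup.centralizer {(Gam : MulAut (ProjectiveSpecialLinearGroup (Fin n) F))} := by
  apply le_antisymm
  · rintro _ ⟨B, rfl⟩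
    refine ⟨(mem_inndiag _).2 ⟨_, rfl⟩, ?_⟩
    show (B : GL (Fin n) F) ∈ Ctil Gam
    rw [mem_Ctil_Gam hn]
    exact (mem_sim_dot h2 _).1 B.2
  · rintro β ⟨hβD, hβC⟩
    obtain ⟨A, rfl⟩ := (mem_inndiag β).1 hβD
    have hA : A ∈ Ctil Gam := hβC
    rw [mem_Ctil_Gam hn] at hA
    exact ⟨⟨A, (mem_sim_dot h2 A).2 hA⟩, rfl⟩

theorem ThetaO_ker (hn : 2 ≤ n) :
    (ThetaO n F).ker = (Cfsg.Geo.scalars (Fin n) F).subgroupOf
      (Cfsg.Geo.quadSimilarityGroup (F := F) (dotQ (Fin n) F)) := by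
  ext B
  rw [MonoidHom.mem_ker, Subgroup.mem_subgroupOf, scalars_eq_center]
  show iota (B : GL (Fin n) F) = 1 ↔ _
  rw [iota_eq_one_iff hn]

/-- the centraliser of the inverse-transpose automorphism in `Inndiag(PSL_n)` is `PGO` of the
dot form (odd characteristic) -/
theorem nonempty_centEquivO (h2 : (2 : F) ≠ 0) (hn : 2 ≤ n) :
    Nonempty (↥(Cfsg.inndiagPSL n F ⊓
      Subgroup.centralizer {(Gam : MulAut (ProjectiveSpecialLinearGroup (Fin n) F))}) ≃*
        Cfsg.PGO F (dotQ (Fin n) F)) := by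
  have e1 := MulEquiv.subgroupCongr (ThetaO_range (F := F) h2 hn).symm
  have e2 := QuotientGroup.quotientKerEquivRange (ThetaO n F)
  have e3 : ↥(Cfsg.Geo.quadSimilarityGroup (F := F) (dotQ (Fin n) F)) ⧸ (ThetaO n F).ker ≃*
      ↥(Cfsg.Geo.quadSimilarityGroup (F := F) (dotQ (Fin n) F)) ⧸
        (Cfsg.Geo.scalars (Fin n) F).subgroupOf
          (Cfsg.Geo.quadSimilarityGroup (F := F) (dotQ (Fin n) F)) :=
    QuotientGroup.quotientMulEquivOfEq (ThetaO_ker hn)
  exact ⟨e1.trans (e2.symm.trans e3)⟩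

end Cfsg.Agent.Lib.Helper53.GT
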