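import Mathlib
import Cfsg.Agent.Lib.Helper87.SURoot

/-!
# Unitary geometry for the automorphisms of `PSU_n(q)` (helper53)

Hyperbolic pairs, the Heisenberg elements `hU e w a` as elements of `SU`, the unipotent radical
`QU e` of the stabiliser of an isotropic vector, its normal form, its fixed vectors and its
centraliser.
-/

set_option autoImplicit false
set_option linter.unusedSectionVars false
set_option linter.unusedVariables false

namespace Cfsg.Agent.Lib.Helper53.AutPSU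

open Matrix Cfsg.Agent.Lib.Helper7 Cfsg.Agent.Lib.Helper18 Cfsg.Agent.Lib.Helper87

variable {F : Type*} [Field F] [Fintype F] {q n : ℕ}

local notation "⟪" x ", " y "⟫" => Cfsg.hermForm n F q x y

/-- every fixed element is a trace -/
theorem exists_tr (hF : Fintype.card F = q ^ 2) (r : F) (hr : r ^ q = r) :
    ∃ μ : F, μ + μ ^ q = r := by
  obtain ⟨l, hl⟩ := exists_trace_one hF
  refine ⟨r * l, ?_⟩
  rw [mul_pow, hr]
  linear_combination r * hl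

/-- a valid second coordinate for a Heisenberg element -/
theorem exists_val (hF : Fintype.card F = q ^ 2) (w : Fin n → F) :
    ∃ a : F, a + a ^ q + ⟪w, w⟫ = 0 := by
  obtain ⟨a, ha⟩ := exists_tr hF (-⟪w, w⟫) (by rw [herm_neg_pow hF, hf_self_pow hF])
  exact ⟨a, by linear_combination ha⟩

theorem suM_pow (g : ↥(Cfsg.SU n F q)) (k : ℕ) : suM (g ^ k) = suM g ^ k := by
  induction k with
  | zero => rfl
  | succ k ih => rw [pow_succ, pow_succ, suM_mul, ih]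

theorem su_ne_zero (g : ↥(Cfsg.SU n F q)) {v : Fin n → F} (hv : v ≠ 0) : suM g *ᵥ v ≠ 0 := by
  intro h0
  apply hv
  have h1 := su_inv_mulVec g v
  rw [h0, Matrix.mulVec_zero] at h1
  exact h1.symm

/-- central elements of `SU` are scalar -/
theorem su_scalar (hF : Fintype.card F = q ^ 2) (hn : 1 ≤ n) (z : ↥(Cfsg.SU n F q))
    (hz : z ∈ Subgroup.center ↥(Cfsg.SU n F q)) :
    ∃ c : F, suM z = c • (1 : Matrix (Fin n) (Fin n) F) := by
  obtain ⟨c, hc⟩ : ∃ c : F, c = suM z ⟨0, by omega⟩ ⟨0, by omega⟩ := ⟨_, rfl⟩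
  refine ⟨c, ?_⟩
  apply Matrix.ext
  intro i j
  rw [Matrix.smul_apply, Matrix.one_apply, smul_eq_mul]
  by_cases hij : i = j
  · subst hij
    rw [if_pos rfl, mul_one, hc]
    by_cases hi0 : i = ⟨0, by omega⟩
    · rw [hi0]
    · exact su_center_diag_eq hF z hz i ⟨0, by omega⟩ hi0
  · rw [if_neg hij, mul_zero]
    exact su_center_offdiag hF z hz i j hij

/-- elements of `SU` with the same image in `PSU` differ by a scalar -/
theorem pe_of_mk_eq (hF : Fintype.card F = q ^ 2) (hn : 1 ≤ n) {x y : ↥(Cfsg.SU n F q)}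
    (h : (QuotientGroup.mk x : Cfsg.PSU n F q) = QuotientGroup.mk y) :
    ∃ c : F, ∀ v : Fin n → F, suM x *ᵥ v = c • (suM y *ᵥ v) := by
  have h1 : y⁻¹ * x ∈ Subgroup.center ↥(Cfsg.SU n F q) := QuotientGroup.eq.1 h.symm
  obtain ⟨c, hc⟩ := su_scalar hF hn _ h1
  refine ⟨c, fun v => ?_⟩
  have h2 : suM x *ᵥ v = suM y *ᵥ (suM (y⁻¹ * x) *ᵥ v) := by
    rw [← su_mul_mulVec, mul_inv_cancel_left]
  rw [h2, hc, Matrix.smul_mulVec, Matrix.one_mulVec, Matrix.mulVec_smul]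

/-- elements of `SU` with the same image in `PSU` agreeing on a non-zero vector are equal -/
theorem eq_of_mk_eq (hF : Fintype.card F = q ^ 2) (hn : 1 ≤ n) {x y : ↥(Cfsg.SU n F q)}
    (h : (QuotientGroup.mk x : Cfsg.PSU n F q) = QuotientGroup.mk y) {v : Fin n → F} (hv : v ≠ 0)
    (hxy : suM x *ᵥ v = suM y *ᵥ v) : x = y := by
  obtain ⟨c, hc⟩ := pe_of_mk_eq hF hn h
  have h1 : suM y *ᵥ v ≠ 0 := su_ne_zero y hv
  have h2 : c = 1 := by
    have h3 := hc v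
    rw [hxy] at h3
    by_contra hne
    have h4 : (1 - c) • (suM y *ᵥ v) = 0 := by
      rw [sub_smul, one_smul, ← h3, sub_self]
    rcases smul_eq_zero.1 h4 with h5 | h5
    · exact hne (by linear_combination -h5)
    · exact h1 h5
  apply su_ext
  intro u
  rw [hc u, h2, one_smul]

/-! ### Hyperbolic pairs -/

/-- a hyperbolic pair -/
structure HypPair (q : ℕ) (e f : Fin n → F) : Prop where
  ee : Cfsg.hermForm n F q e e = 0
  ff : Cfsg.hermForm n F q f f = 0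
  ef : Cfsg.hermForm n F q e f = 1

theorem HypPair.fe (hF : Fintype.card F = q ^ 2) {e f : Fin n → F} (hp : HypPair q e f) :
    ⟪f, e⟫ = 1 := by
  rw [hf_conj hF n e f, hp.ef, one_pow]

theorem HypPair.symm (hF : Fintype.card F = q ^ 2) {e f : Fin n → F} (hp : HypPair q e f) :
    HypPair q f e := ⟨hp.ff, hp.ee, hp.fe hF⟩

theorem HypPair.ne {e f : Fin n → F} (hp : HypPair q e f) : e ≠ 0 := by
  rintro rfl
  have h := hp.ef
  rw [hf_zero_left] at h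
  exact zero_ne_one h

theorem HypPair.ne' (hF : Fintype.card F = q ^ 2) {e f : Fin n → F} (hp : HypPair q e f) :
    f ≠ 0 := (hp.symm hF).ne

theorem exists_hypPair (hF : Fintype.card F = q ^ 2) {e : Fin n → F} (he : e ≠ 0)
    (hee : ⟪e, e⟫ = 0) : ∃ f : Fin n → F, HypPair q e f := by
  obtain ⟨f, hff, hef⟩ := exists_hyp_partner hF he hee
  exact ⟨f, hee, hff, hef⟩

/-- the projection to the orthogonal complement of a hyperbolic pair -/
def pj (q : ℕ) (e f x : Fin n → F) : Fin n → F :=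
  x - Cfsg.hermForm n F q x f • e - Cfsg.hermForm n F q x e • f

theorem pj_e (hF : Fintype.card F = q ^ 2) {e f : Fin n → F} (hp : HypPair q e f)
    (x : Fin n → F) : ⟪pj q e f x, e⟫ = 0 := by
  unfold pj
  rw [hf_sub_left, hf_sub_left, hf_smul_left, hf_smul_left, hp.ee, hp.fe hF]
  ring

theorem pj_f (hF : Fintype.card F = q ^ 2) {e f : Fin n → F} (hp : HypPair q e f)
    (x : Fin n → F) : ⟪pj q e f x, f⟫ = 0 := by
  unfold pj
  rw [hf_sub_left, hf_sub_left, hf_smul_left, hf_smul_left, hp.ef, hp.ff]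
  ring

theorem pj_e' (hF : Fintype.card F = q ^ 2) {e f : Fin n → F} (hp : HypPair q e f)
    (x : Fin n → F) : ⟪e, pj q e f x⟫ = 0 := hf_eq_zero_symm hF n _ _ (pj_e hF hp x)

theorem pj_f' (hF : Fintype.card F = q ^ 2) {e f : Fin n → F} (hp : HypPair q e f)
    (x : Fin n → F) : ⟪f, pj q e f x⟫ = 0 := hf_eq_zero_symm hF n _ _ (pj_f hF hp x)

theorem pj_decomp (e f x : Fin n → F) :
    x = ⟪x, f⟫ • e + ⟪x, e⟫ • f + pj q e f x := by
  unfold pj
  module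

theorem pj_of_perp {e f x : Fin n → F} (hxe : ⟪x, e⟫ = 0) (hxf : ⟪x, f⟫ = 0) :
    pj q e f x = x := by
  unfold pj
  rw [hxe, hxf, zero_smul, zero_smul, sub_zero, sub_zero]

theorem pj_add (e f x y : Fin n → F) : pj q e f (x + y) = pj q e f x + pj q e f y := by
  unfold pj
  rw [hf_add_left, hf_add_left]
  module

theorem pj_smul (e f : Fin n → F) (c : F) (x : Fin n → F) :
    pj q e f (c • x) = c • pj q e f x := by
  unfold pj
  rw [hf_smul_left, hf_smul_left]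
  module

theorem form_decomp (hF : Fintype.card F = q ^ 2) {e f : Fin n → F} (hp : HypPair q e f)
    (x y : Fin n → F) :
    ⟪x, y⟫ = ⟪x, f⟫ * ⟪y, e⟫ ^ q + ⟪x, e⟫ * ⟪y, f⟫ ^ q + ⟪pj q e f x, pj q e f y⟫ := by
  have hx := pj_decomp (q := q) e f x
  have hy := pj_decomp (q := q) e f y
  have h1 := pj_e hF hp x
  have h2 := pj_f hF hp x
  have h3 := pj_e' hF hp y
  have h4 := pj_f' hF hp y
  calc ⟪x, y⟫ = ⟪⟪x, f⟫ • e + ⟪x, e⟫ • f + pj q e f x,
        ⟪y, f⟫ • e + ⟪y, e⟫ • f + pj q e f y⟫ := by rw [← hx, ← hy]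
    _ = _ := by
      simp only [hf_add_left, hf_add_right hF, hf_smul_left, hf_smul_right, hp.ee, hp.ff, hp.ef,
        hp.fe hF, h1, h2, h3, h4]
      ring

/-- an element fixing a hyperbolic pair and its orthogonal complement is trivial -/
theorem eq_one_of_fix (hF : Fintype.card F = q ^ 2) {e f : Fin n → F} (hp : HypPair q e f)
    {g : ↥(Cfsg.SU n F q)} (he : suM g *ᵥ e = e) (hf : suM g *ᵥ f = f)
    (hW : ∀ w : Fin n → F, ⟪w, e⟫ = 0 → ⟪w, f⟫ = 0 → suM g *ᵥ w = w) : g = 1 := by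
  apply su_ext
  intro x
  rw [suM_one, Matrix.one_mulVec]
  have hx := pj_decomp (q := q) e f x
  calc suM g *ᵥ x = suM g *ᵥ (⟪x, f⟫ • e + ⟪x, e⟫ • f + pj q e f x) := by rw [← hx]
    _ = ⟪x, f⟫ • e + ⟪x, e⟫ • f + pj q e f x := by
      rw [Matrix.mulVec_add, Matrix.mulVec_add, Matrix.mulVec_smul, Matrix.mulVec_smul, he, hf,
        hW _ (pj_e hF hp x) (pj_f hF hp x)]
    _ = x := hx.symm

/-! ### Heisenberg elements -/

/-- the Heisenberg element `x ↦ x + h(x,e) w + (a h(x,e) - h(x,w)) e` of `SU` -/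
noncomputable def hU (hF : Fintype.card F = q ^ 2) (e w : Fin n → F) (a : F) :
    ↥(Cfsg.SU n F q) :=
  @dite _ (Cfsg.hermForm n F q e e = 0 ∧ Cfsg.hermForm n F q w e = 0 ∧
      a + a ^ q + Cfsg.hermForm n F q w w = 0) (Classical.propDecidable _)
    (fun h => suMk hF (heis q n e w a) (heis_det hF n e w a h.1 h.2.1)
      (isFr_of_preserves hF _ (heis_preserves hF n e w a h.1 h.2.1 h.2.2)))
    (fun _ => 1)

theorem suM_hU (hF : Fintype.card F = q ^ 2) {e w : Fin n → F} {a : F}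
    (hee : ⟪e, e⟫ = 0) (hwe : ⟪w, e⟫ = 0) (ha : a + a ^ q + ⟪w, w⟫ = 0) :
    suM (hU hF e w a) = heis q n e w a := by
  rw [hU, dif_pos ⟨hee, hwe, ha⟩]
  rfl

theorem hU_mulVec (hF : Fintype.card F = q ^ 2) {e w : Fin n → F} {a : F}
    (hee : ⟪e, e⟫ = 0) (hwe : ⟪w, e⟫ = 0) (ha : a + a ^ q + ⟪w, w⟫ = 0) (x : Fin n → F) :
    suM (hU hF e w a) *ᵥ x = x + ⟪x, e⟫ • w + (a * ⟪x, e⟫ - ⟪x, w⟫) • e := by
  rw [suM_hU hF hee hwe ha]
  exact heis_mulVec n e w a x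

theorem val_mul (hF : Fintype.card F = q ^ 2) {w w' : Fin n → F} {a a' : F}
    (ha : a + a ^ q + ⟪w, w⟫ = 0) (ha' : a' + a' ^ q + ⟪w', w'⟫ = 0) :
    (a + a' - ⟪w', w⟫) + (a + a' - ⟪w', w⟫) ^ q + ⟪w + w', w + w'⟫ = 0 := by
  rw [herm_sub_pow hF, herm_add_pow hF, hf_add_left, hf_add_right hF, hf_add_right hF,
    ← hf_conj hF n w' w]
  linear_combination ha + ha'

theorem hU_mul (hF : Fintype.card F = q ^ 2) {e w w' : Fin n → F} {a a' : F}
    (hee : ⟪e, e⟫ = 0) (hwe : ⟪w, e⟫ = 0) (hwe' : ⟪w', e⟫ = 0)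
    (ha : a + a ^ q + ⟪w, w⟫ = 0) (ha' : a' + a' ^ q + ⟪w', w'⟫ = 0) :
    hU hF e w a * hU hF e w' a' = hU hF e (w + w') (a + a' - ⟪w', w⟫) := by
  apply Subtype.ext
  apply Subtype.ext
  show suM (hU hF e w a) * suM (hU hF e w' a') = suM (hU hF e (w + w') (a + a' - ⟪w', w⟫))
  rw [suM_hU hF hee hwe ha, suM_hU hF hee hwe' ha',
    suM_hU hF hee (by rw [hf_add_left, hwe, hwe', add_zero]) (val_mul hF ha ha'),
    heis_mul hF n e w w' a a' hee hwe hwe']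

theorem hU_conj (hF : Fintype.card F = q ^ 2) {e w : Fin n → F} {a : F}
    (hee : ⟪e, e⟫ = 0) (hwe : ⟪w, e⟫ = 0) (ha : a + a ^ q + ⟪w, w⟫ = 0)
    (g : ↥(Cfsg.SU n F q)) :
    g * hU hF e w a * g⁻¹ = hU hF (suM g *ᵥ e) (suM g *ᵥ w) a := by
  apply su_ext
  intro x
  have h1 : ∀ u : Fin n → F, ⟪suM g⁻¹ *ᵥ x, u⟫ = ⟪x, suM g *ᵥ u⟫ := fun u => by
    rw [← su_pres g, su_mulVec_inv]
  rw [su_mul_mulVec, su_mul_mulVec, hU_mulVec hF hee hwe ha,
    hU_mulVec hF (by rw [su_pres]; exact hee) (by rw [su_pres]; exact hwe)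
      (by rw [su_pres]; exact ha), h1, h1, Matrix.mulVec_add, Matrix.mulVec_add, su_mulVec_inv,
    Matrix.mulVec_smul, Matrix.mulVec_smul]

theorem hU_smul (hF : Fintype.card F = q ^ 2) {e w : Fin n → F} {a : F}
    (hee : ⟪e, e⟫ = 0) (hwe : ⟪w, e⟫ = 0) (ha : a + a ^ q + ⟪w, w⟫ = 0) (l : F) :
    hU hF (l • e) w a = hU hF e (l ^ q • w) (l ^ (q + 1) * a) := by
  have h1 : ⟪l • e, l • e⟫ = 0 := herm_smul_self hee l
  have h2 : ⟪w, l • e⟫ = 0 := by rw [hf_smul_right, hwe, mul_zero]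
  have h3 : ⟪l ^ q • w, e⟫ = 0 := by rw [hf_smul_left, hwe, mul_zero]
  have h4 : l ^ (q + 1) * a + (l ^ (q + 1) * a) ^ q + ⟪l ^ q • w, l ^ q • w⟫ = 0 := by
    rw [mul_pow, herm_norm_fixed hF, hf_smul_left, hf_smul_right, herm_pow_pow hF]
    linear_combination l ^ (q + 1) * ha
  apply su_ext
  intro x
  rw [hU_mulVec hF h1 h2 ha, hU_mulVec hF hee h3 h4, hf_smul_right, hf_smul_right,
    herm_pow_pow hF]
  module

theorem tU_eq_hU (hF : Fintype.card F = q ^ 2) {e : Fin n → F} {c : F}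
    (hee : ⟪e, e⟫ = 0) (hc : c + c ^ q = 0) : tU hF e c = hU hF e 0 c := by
  apply su_ext
  intro x
  rw [tU_mulVec hF hee hc, hU_mulVec hF hee (hf_zero_left n e)
    (by rw [hf_zero_left, add_zero]; exact hc), hf_zero_right hF]
  module

/-! ### The unipotent radical -/

/-- the elements fixing `e` and acting trivially on `e^⊥ / e` -/
def QU (q : ℕ) (e : Fin n → F) : Subgroup ↥(Cfsg.SU n F q) where
  carrier := {g | suM g *ᵥ e = e ∧
    ∀ x : Fin n → F, Cfsg.hermForm n F q x e = 0 → ∃ c : F, suM g *ᵥ x = x + c • e}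
  one_mem' := ⟨by rw [suM_one, Matrix.one_mulVec],
    fun x _ => ⟨0, by rw [suM_one, Matrix.one_mulVec, zero_smul, add_zero]⟩⟩
  mul_mem' := by
    rintro a b ⟨ha, ha'⟩ ⟨hb, hb'⟩
    refine ⟨by rw [su_mul_mulVec, hb, ha], fun x hx => ?_⟩
    obtain ⟨c, hc⟩ := hb' x hx
    obtain ⟨d, hd⟩ := ha' x hx
    exact ⟨d + c, by
      rw [su_mul_mulVec, hc, Matrix.mulVec_add, Matrix.mulVec_smul, ha, hd]; module⟩
  inv_mem' := by
    rintro a ⟨ha, ha'⟩
    have h1 : suM a⁻¹ *ᵥ e = e := by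
      nth_rewrite 1 [← ha]
      exact su_inv_mulVec a e
    refine ⟨h1, fun x hx => ?_⟩
    obtain ⟨c, hc⟩ := ha' x hx
    refine ⟨-c, ?_⟩
    have h2 : suM a⁻¹ *ᵥ (suM a *ᵥ x) = suM a⁻¹ *ᵥ (x + c • e) := by rw [hc]
    rw [su_inv_mulVec, Matrix.mulVec_add, Matrix.mulVec_smul, h1] at h2
    have h3 : suM a⁻¹ *ᵥ x = x - c • e := eq_sub_of_add_eq h2.symm
    rw [h3]
    module

theorem mem_QU {e : Fin n → F} {g : ↥(Cfsg.SU n F q)} :
    g ∈ QU q e ↔ suM g *ᵥ e = e ∧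
      ∀ x : Fin n → F, ⟪x, e⟫ = 0 → ∃ c : F, suM g *ᵥ x = x + c • e := Iff.rfl

theorem hU_mem_QU (hF : Fintype.card F = q ^ 2) {e w : Fin n → F} {a : F}
    (hee : ⟪e, e⟫ = 0) (hwe : ⟪w, e⟫ = 0) (ha : a + a ^ q + ⟪w, w⟫ = 0) :
    hU hF e w a ∈ QU q e := by
  have hew := hf_eq_zero_symm hF n w e hwe
  refine ⟨?_, fun x hx => ⟨-⟪x, w⟫, ?_⟩⟩
  · rw [hU_mulVec hF hee hwe ha, hee, hew, zero_smul, add_zero, mul_zero, sub_zero, zero_smul,
      add_zero]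
  · rw [hU_mulVec hF hee hwe ha, hx, zero_smul, add_zero, mul_zero, zero_sub]

theorem tU_mem_QU (hF : Fintype.card F = q ^ 2) {e : Fin n → F} {c : F}
    (hee : ⟪e, e⟫ = 0) (hc : c + c ^ q = 0) : tU hF e c ∈ QU q e := by
  rw [tU_eq_hU hF hee hc]
  exact hU_mem_QU hF hee (hf_zero_left n e) (by rw [hf_zero_left, add_zero]; exact hc)

theorem inv_of_smul {e : Fin n → F} {g : ↥(Cfsg.SU n F q)} {l : F} (hl : l ≠ 0)
    (hg : suM g *ᵥ e = l • e) : suM g⁻¹ *ᵥ e = l⁻¹ • e := by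
  have h1 := su_inv_mulVec g e
  rw [hg, Matrix.mulVec_smul] at h1
  calc suM g⁻¹ *ᵥ e = l⁻¹ • (l • (suM g⁻¹ *ᵥ e)) := by
        rw [smul_smul, inv_mul_cancel₀ hl, one_smul]
    _ = l⁻¹ • e := by rw [h1]

theorem conj_mem_QU {e : Fin n → F} {g x : ↥(Cfsg.SU n F q)} {l : F} (hl : l ≠ 0)
    (hg : suM g *ᵥ e = l • e) (hx : x ∈ QU q e) : g * x * g⁻¹ ∈ QU q e := by
  have hg' := inv_of_smul hl hg
  refine ⟨?_, fun y hy => ?_⟩
  · rw [su_mul_mulVec, su_mul_mulVec, hg', Matrix.mulVec_smul, hx.1, Matrix.mulVec_smul, hg,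
      smul_smul, inv_mul_cancel₀ hl, one_smul]
  · have h1 : ⟪suM g⁻¹ *ᵥ y, e⟫ = 0 := by
      have h2 := su_pres g (suM g⁻¹ *ᵥ y) e
      rw [su_mulVec_inv, hg, hf_smul_right, hy, mul_zero] at h2
      exact h2.symm
    obtain ⟨c, hc⟩ := hx.2 _ h1
    refine ⟨c * l, ?_⟩
    rw [su_mul_mulVec, su_mul_mulVec, hc, Matrix.mulVec_add, su_mulVec_inv, Matrix.mulVec_smul,
      hg, smul_smul]

theorem conj_mem_QU_iff {e : Fin n → F} {g x : ↥(Cfsg.SU n F q)} {l : F} (hl : l ≠ 0)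
    (hg : suM g *ᵥ e = l • e) : x ∈ QU q e ↔ g * x * g⁻¹ ∈ QU q e := by
  refine ⟨conj_mem_QU hl hg, fun h => ?_⟩
  have h1 := conj_mem_QU (inv_ne_zero hl) (inv_of_smul hl hg) h
  have e1 : g⁻¹ * (g * x * g⁻¹) * g⁻¹⁻¹ = x := by group
  rw [e1] at h1
  exact h1

/-- `QU e` is a `p`-group -/
theorem QU_isPGroup (hn : 1 ≤ n) {p : ℕ} [Fact p.Prime] [CharP F p] (e : Fin n → F) :
    IsPGroup p (QU q e) := by
  haveI : Nonempty (Fin n) := ⟨⟨0, by omega⟩⟩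
  rintro ⟨g, hg⟩
  refine ⟨2, ?_⟩
  apply Subtype.ext
  apply Subtype.ext
  apply Subtype.ext
  show suM (g ^ p ^ 2) = 1
  rw [suM_pow]
  set N : Matrix (Fin n) (Fin n) F := suM g - 1 with hN
  have hNx : ∀ x, N *ᵥ x = suM g *ᵥ x - x := by
    intro x
    rw [hN, Matrix.sub_mulVec, Matrix.one_mulVec]
  have hN3 : N ^ 3 = 0 := by
    apply Matrix.toLin'.injective
    apply LinearMap.ext
    intro x
    rw [Matrix.toLin'_apply, map_zero, LinearMap.zero_apply, pow_succ, pow_two,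
      ← Matrix.mulVec_mulVec, ← Matrix.mulVec_mulVec, hNx x]
    have h1 : ⟪suM g *ᵥ x - x, e⟫ = 0 := by
      rw [hf_sub_left]
      have h2 := su_pres g x e
      rw [hg.1] at h2
      rw [h2, sub_self]
    obtain ⟨c, hc⟩ := hg.2 _ h1
    rw [hNx (suM g *ᵥ x - x), hc, add_sub_cancel_left, hNx, Matrix.mulVec_smul, hg.1, sub_self]
  have hN' : N ^ p ^ 2 = 0 := by
    apply pow_eq_zero_of_le _ hN3
    have := (Fact.out : p.Prime).two_le
    nlinarith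
  have e1 : suM g = N + 1 := by rw [hN]; abel
  rw [e1, add_pow_char_pow_of_commute _ _ (Commute.one_right N), hN', one_pow, zero_add]

/-- the normal form of the elements of `QU e` -/
theorem QU_normal_form (hF : Fintype.card F = q ^ 2) {e f : Fin n → F} (hp : HypPair q e f)
    {x : ↥(Cfsg.SU n F q)} (hx : x ∈ QU q e) :
    ∃ (w : Fin n → F) (a : F), ⟪w, e⟫ = 0 ∧ ⟪w, f⟫ = 0 ∧ a + a ^ q + ⟪w, w⟫ = 0 ∧
      x = hU hF e w a := by
  obtain ⟨y, hy⟩ : ∃ y : Fin n → F, y = suM x *ᵥ f := ⟨_, rfl⟩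
  have hye : ⟪y, e⟫ = 1 := by
    have h1 := su_pres x f e
    rw [hx.1, ← hy, hp.fe hF] at h1
    exact h1
  have hyy : ⟪y, y⟫ = 0 := by rw [hy, su_pres, hp.ff]
  have hwe := pj_e hF hp y
  have hwf := pj_f hF hp y
  have ha : ⟪y, f⟫ + ⟪y, f⟫ ^ q + ⟪pj q e f y, pj q e f y⟫ = 0 := by
    have h1 := form_decomp hF hp y y
    rw [hyy, hye, one_pow] at h1
    linear_combination -h1
  refine ⟨pj q e f y, ⟪y, f⟫, hwe, hwf, ha, ?_⟩
  have hUf : suM (hU hF e (pj q e f y) ⟪y, f⟫) *ᵥ f = y := by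
    rw [hU_mulVec hF hp.ee hwe ha, hp.fe hF, pj_f' hF hp]
    have h1 := pj_decomp (q := q) e f y
    rw [hye] at h1
    conv_rhs => rw [h1]
    module
  have hl : (hU hF e (pj q e f y) ⟪y, f⟫)⁻¹ * x ∈ QU q e :=
    (QU q e).mul_mem ((QU q e).inv_mem (hU_mem_QU hF hp.ee hwe ha)) hx
  have hlf : suM ((hU hF e (pj q e f y) ⟪y, f⟫)⁻¹ * x) *ᵥ f = f := by
    rw [su_mul_mulVec, ← hy]
    calc suM (hU hF e (pj q e f y) ⟪y, f⟫)⁻¹ *ᵥ y
        = suM (hU hF e (pj q e f y) ⟪y, f⟫)⁻¹ *ᵥ (suM (hU hF e (pj q e f y) ⟪y, f⟫) *ᵥ f) := by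
          rw [hUf]
      _ = f := su_inv_mulVec _ f
  have h1 : (hU hF e (pj q e f y) ⟪y, f⟫)⁻¹ * x = 1 := by
    apply eq_one_of_fix hF hp hl.1 hlf
    intro u hue huf
    obtain ⟨c, hc⟩ := hl.2 u hue
    have h2 := su_pres ((hU hF e (pj q e f y) ⟪y, f⟫)⁻¹ * x) u f
    rw [hlf, hc, hf_add_left, hf_smul_left, huf, hp.ef, zero_add, mul_one] at h2
    rw [hc, h2, zero_smul, add_zero]
  exact (inv_mul_eq_one.1 h1).symm

/-- the vectors fixed by `QU e` are the multiples of `e` -/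
theorem fix_QU (hF : Fintype.card F = q ^ 2) {e f : Fin n → F} (hp : HypPair q e f)
    {v : Fin n → F} (hv : ∀ g ∈ QU q e, suM g *ᵥ v = v) : ∃ l : F, v = l • e := by
  obtain ⟨c, hc0, hc⟩ := exists_tz_ne_zero hF
  have h1 : ⟪v, e⟫ = 0 := by
    have h2 := hv _ (tU_mem_QU hF hp.ee hc)
    rw [tU_mulVec hF hp.ee hc] at h2
    have h3 : (c * ⟪v, e⟫) • e = 0 := by
      have h4 : v + (c * ⟪v, e⟫) • e = v + 0 := by rw [h2, add_zero]
      exact add_left_cancel h4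
    rcases smul_eq_zero.1 h3 with h4 | h4
    · rcases mul_eq_zero.1 h4 with h5 | h5
      · exact absurd h5 hc0
      · exact h5
    · exact absurd h4 hp.ne
  have h2 : ∀ w : Fin n → F, ⟪w, e⟫ = 0 → ⟪v, w⟫ = 0 := by
    intro w hw
    obtain ⟨a, ha⟩ := exists_val hF w
    have h3 := hv _ (hU_mem_QU hF hp.ee hw ha)
    rw [hU_mulVec hF hp.ee hw ha, h1, zero_smul, add_zero, mul_zero, zero_sub] at h3
    have h4 : (-⟪v, w⟫) • e = 0 := by
      have h5 : v + (-⟪v, w⟫) • e = v + 0 := by rw [h3, add_zero]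
      exact add_left_cancel h5
    rcases smul_eq_zero.1 h4 with h5 | h5
    · exact neg_eq_zero.1 h5
    · exact absurd h5 hp.ne
  have h3 : pj q e f v = 0 := by
    apply herm_nondeg hF
    intro x
    apply hf_eq_zero_symm hF n
    rw [form_decomp hF hp (pj q e f v) x, pj_e hF hp, pj_f hF hp, zero_mul, zero_mul, zero_add,
      zero_add, pj_of_perp (pj_e hF hp v) (pj_f hF hp v)]
    show ⟪v - ⟪v, f⟫ • e - ⟪v, e⟫ • f, pj q e f x⟫ = 0
    rw [hf_sub_left, hf_sub_left, hf_smul_left, hf_smul_left, h2 _ (pj_e hF hp x), pj_e' hF hp,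
      pj_f' hF hp]
    ring
  refine ⟨⟪v, f⟫, ?_⟩
  have h4 := pj_decomp (q := q) e f v
  rw [h3, h1, zero_smul, add_zero, add_zero] at h4
  exact h4

/-- an element fixing `e` and commuting with `QU e` is a transvection with centre `e` -/
theorem eq_tU_of_comm (hF : Fintype.card F = q ^ 2) {e f : Fin n → F} (hp : HypPair q e f)
    {z : ↥(Cfsg.SU n F q)} (hz : suM z *ᵥ e = e) (hc : ∀ g ∈ QU q e, z * g = g * z) :
    ∃ c : F, c + c ^ q = 0 ∧ z = tU hF e c := by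
  obtain ⟨θ, hθ⟩ := exists_not_fixed' hF
  have step1 : ∀ w : Fin n → F, ⟪w, e⟫ = 0 → ∃ μ : F, μ ^ q = μ ∧ suM z *ᵥ w = w + μ • e := by
    intro w hw
    obtain ⟨a, ha⟩ := exists_val hF w
    have h1 := hc _ (hU_mem_QU hF hp.ee hw ha)
    have h2 : hU hF e (suM z *ᵥ w) a = hU hF e w a := by
      have h3 := hU_conj hF hp.ee hw ha z
      rw [hz] at h3
      rw [← h3, h1, mul_inv_cancel_right]
    have hzw : ⟪suM z *ᵥ w, e⟫ = 0 := by
      have h3 := su_pres z w e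
      rw [hz] at h3
      rw [h3, hw]
    have ha' : a + a ^ q + ⟪suM z *ᵥ w, suM z *ᵥ w⟫ = 0 := by rw [su_pres]; exact ha
    have h3 : suM (hU hF e (suM z *ᵥ w) a) *ᵥ f = suM (hU hF e w a) *ᵥ f := by rw [h2]
    rw [hU_mulVec hF hp.ee hzw ha', hU_mulVec hF hp.ee hw ha, hp.fe hF] at h3
    have h4 : suM z *ᵥ w - w = (⟪f, suM z *ᵥ w⟫ - ⟪f, w⟫) • e := by
      linear_combination (norm := module) h3
    have h5 : ⟪f, suM z *ᵥ w - w⟫ = ⟪f, suM z *ᵥ w⟫ - ⟪f, w⟫ := hf_sub_right hF n f _ _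
    refine ⟨⟪f, suM z *ᵥ w⟫ - ⟪f, w⟫, ?_, ?_⟩
    · nth_rewrite 2 [← h5]
      rw [h4, hf_smul_right, hp.fe hF, mul_one]
    · rw [← h4]
      abel
  have step2 : ∀ w : Fin n → F, ⟪w, e⟫ = 0 → suM z *ᵥ w = w := by
    intro w hw
    obtain ⟨μ, hμ, h1⟩ := step1 w hw
    obtain ⟨μ', hμ', h2⟩ := step1 (θ • w) (by rw [hf_smul_left, hw, mul_zero])
    rw [Matrix.mulVec_smul, h1, smul_add, smul_smul] at h2
    have h3 : (θ * μ) • e = μ' • e := add_left_cancel h2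
    have h4 : θ * μ = μ' := smul_left_injective F hp.ne h3
    have h5 : (θ ^ q - θ) * μ = 0 := by
      have h6 : (θ * μ) ^ q = θ * μ := by rw [h4]; exact hμ'
      rw [mul_pow, hμ] at h6
      linear_combination h6
    rcases mul_eq_zero.1 h5 with h6 | h6
    · exact absurd (sub_eq_zero.1 h6) hθ
    · rw [h1, h6, zero_smul, add_zero]
  obtain ⟨d, hd⟩ : ∃ d : Fin n → F, d = suM z *ᵥ f - f := ⟨_, rfl⟩
  have hperp : ∀ x : Fin n → F, ⟪x, e⟫ = 0 → ⟪d, x⟫ = 0 := by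
    intro x hx
    rw [hd, hf_sub_left]
    have h1 := su_pres z f x
    rw [step2 x hx] at h1
    rw [h1, sub_self]
  have hd' : d - ⟪d, f⟫ • e = 0 := by
    apply herm_nondeg hF
    intro x
    apply hf_eq_zero_symm hF n
    have hx' : ⟪x - ⟪x, e⟫ • f, e⟫ = 0 := by
      rw [hf_sub_left, hf_smul_left, hp.fe hF, mul_one, sub_self]
    have h1 : x = (x - ⟪x, e⟫ • f) + ⟪x, e⟫ • f := by abel
    have h2 : ⟪e, x - ⟪x, e⟫ • f⟫ = 0 := hf_eq_zero_symm hF n _ _ hx'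
    rw [h1, hf_add_right hF, hf_smul_right, hf_sub_left, hf_sub_left, hf_smul_left, hf_smul_left,
      hperp _ hx', h2, hp.ef]
    ring
  have hzf : suM z *ᵥ f = f + ⟪d, f⟫ • e := by
    have h1 : d = ⟪d, f⟫ • e := sub_eq_zero.1 hd'
    rw [← h1, hd]
    abel
  have hcc : ⟪d, f⟫ + ⟪d, f⟫ ^ q = 0 := by
    have h1 := su_pres z f f
    rw [hzf, hp.ff] at h1
    simp only [hf_add_left, hf_add_right hF, hf_smul_left, hf_smul_right, hp.ee, hp.ff, hp.ef,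
      hp.fe hF] at h1
    linear_combination h1
  refine ⟨⟪d, f⟫, hcc, ?_⟩
  apply su_ext
  intro x
  have hx' : ⟪x - ⟪x, e⟫ • f, e⟫ = 0 := by
    rw [hf_sub_left, hf_smul_left, hp.fe hF, mul_one, sub_self]
  have h1 : x = (x - ⟪x, e⟫ • f) + ⟪x, e⟫ • f := by abel
  rw [tU_mulVec hF hp.ee hcc]
  calc suM z *ᵥ x = suM z *ᵥ ((x - ⟪x, e⟫ • f) + ⟪x, e⟫ • f) := by rw [← h1]
    _ = (x - ⟪x, e⟫ • f) + ⟪x, e⟫ • (f + ⟪d, f⟫ • e) := by
      rw [Matrix.mulVec_add, Matrix.mulVec_smul, step2 _ hx', hzf]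
    _ = x + (⟪d, f⟫ * ⟪x, e⟫) • e := by module

end Cfsg.Agent.Lib.Helper53.AutPSU
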