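import Mathlib
import Cfsg.Prelude.Def_LieTypeDatum
import Cfsg.Prelude.Def_StandardType
import Cfsg.Agent.Lib.Helper53.SUBasic

/-!
# The standard automorphisms of `PSU_n(q)` (helper53)

* `descU : MulAut SU →* MulAut PSU` (descent to the quotient by the centre);
* `faU σ` (entrywise field automorphism), `cjFunU g hg` (conjugation by a unitary matrix);
* `induced_of_forall`: the Prelude predicate `IsInducedBySemilinearPSU`.
-/

set_option autoImplicit false
set_option linter.unusedSectionVars false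
set_option linter.unusedVariables false

namespace Cfsg.Agent.Lib.Helper53.AutPSU

open Matrix Cfsg.Agent.Lib.Helper7 Cfsg.Agent.Lib.Helper18 Cfsg.Agent.Lib.Helper87

variable {F : Type*} [Field F] [Fintype F] {q n : ℕ}

local notation "⟪" x ", " y "⟫" => Cfsg.hermForm n F q x y

/-- descent of automorphisms of `SU` to `PSU` -/
noncomputable def descU : MulAut ↥(Cfsg.SU n F q) →* MulAut (Cfsg.PSU n F q) where
  toFun e := QuotientGroup.congr (Subgroup.center _) (Subgroup.center _) e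
    (Subgroup.characteristic_iff_map_eq.mp inferInstance e)
  map_one' := by
    ext x
    induction x using QuotientGroup.induction_on with
    | H s => rfl
  map_mul' e e' := by
    ext x
    induction x using QuotientGroup.induction_on with
    | H s => rfl

theorem descU_mk (e : MulAut ↥(Cfsg.SU n F q)) (s : ↥(Cfsg.SU n F q)) :
    descU e (QuotientGroup.mk s) = QuotientGroup.mk (e s) := rfl

theorem hf_map (τ : F →+* F) (u v : Fin n → F) :
    ⟪fun i => τ (u i), fun i => τ (v i)⟫ = τ ⟪u, v⟫ := by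
  unfold Cfsg.hermForm
  rw [map_sum]
  apply Finset.sum_congr rfl
  intro i _
  rw [map_mul, map_pow]

theorem map_mulVec' (τ : F →+* F) (M : Matrix (Fin n) (Fin n) F) (x : Fin n → F) :
    (M.map τ) *ᵥ (fun i => τ (x i)) = fun i => τ ((M *ᵥ x) i) := by
  funext i
  exact (RingHom.map_mulVec τ M x i).symm

theorem map_pres (σ : F ≃+* F) (M : Matrix (Fin n) (Fin n) F)
    (hM : ∀ u v : Fin n → F, ⟪M *ᵥ u, M *ᵥ v⟫ = ⟪u, v⟫) (u v : Fin n → F) :
    ⟪(M.map (σ : F →+* F)) *ᵥ u, (M.map (σ : F →+* F)) *ᵥ v⟫ = ⟪u, v⟫ := by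
  obtain ⟨x, rfl⟩ : ∃ x : Fin n → F, u = fun i => (σ : F →+* F) (x i) :=
    ⟨fun i => σ.symm (u i), by funext i; simp⟩
  obtain ⟨y, rfl⟩ : ∃ y : Fin n → F, v = fun i => (σ : F →+* F) (y i) :=
    ⟨fun i => σ.symm (v i), by funext i; simp⟩
  rw [map_mulVec', map_mulVec', hf_map, hf_map, hM]

/-- entrywise field automorphism on `SU` -/
def faFunU (σ : F ≃+* F) (s : ↥(Cfsg.SU n F q)) : ↥(Cfsg.SU n F q) :=
  ⟨⟨(suM s).map (σ : F →+* F), by
      have h := RingHom.map_det (σ : F →+* F) (suM s)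
      rw [RingHom.mapMatrix_apply] at h
      rw [← h, s.1.2]
      exact map_one _⟩,
    (mem_SU_iff _).2 (map_pres σ (suM s) (su_pres s))⟩

theorem faFunU_coe (σ : F ≃+* F) (s : ↥(Cfsg.SU n F q)) :
    suM (faFunU σ s) = (suM s).map (σ : F →+* F) := rfl

/-- entrywise field automorphism of `SU` -/
def faU (σ : F ≃+* F) : MulAut ↥(Cfsg.SU n F q) where
  toFun := faFunU σ
  invFun := faFunU σ.symm
  left_inv := fun s => by
    apply Subtype.ext
    apply Subtype.ext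
    show ((suM s).map (σ : F →+* F)).map (σ.symm : F →+* F) = suM s
    ext i j
    simp
  right_inv := fun s => by
    apply Subtype.ext
    apply Subtype.ext
    show ((suM s).map (σ.symm : F →+* F)).map (σ : F →+* F) = suM s
    ext i j
    simp
  map_mul' := fun s t => by
    apply Subtype.ext
    apply Subtype.ext
    show ((suM s * suM t).map (σ : F →+* F)) =
      (suM s).map (σ : F →+* F) * (suM t).map (σ : F →+* F)
    exact Matrix.map_mul

theorem faU_coe (σ : F ≃+* F) (s : ↥(Cfsg.SU n F q)) :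
    suM (faU σ s) = (suM s).map (σ : F →+* F) := rfl

theorem faU_symm_coe (σ : F ≃+* F) (s : ↥(Cfsg.SU n F q)) :
    suM ((faU σ)⁻¹ s) = (suM s).map (σ.symm : F →+* F) := rfl

theorem glU_inv_mul (g : GL (Fin n) F) :
    ((g⁻¹ : GL (Fin n) F) : Matrix (Fin n) (Fin n) F) * (g : Matrix (Fin n) (Fin n) F) = 1 := by
  rw [← Units.val_mul, inv_mul_cancel, Units.val_one]

theorem glU_mul_inv (g : GL (Fin n) F) :
    (g : Matrix (Fin n) (Fin n) F) * ((g⁻¹ : GL (Fin n) F) : Matrix (Fin n) (Fin n) F) = 1 := by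
  rw [← Units.val_mul, mul_inv_cancel, Units.val_one]

theorem glU_inv_mulVec (g : GL (Fin n) F) (y : Fin n → F) :
    ((g⁻¹ : GL (Fin n) F) : Matrix (Fin n) (Fin n) F) *ᵥ
      ((g : Matrix (Fin n) (Fin n) F) *ᵥ y) = y := by
  rw [Matrix.mulVec_mulVec, glU_inv_mul, Matrix.one_mulVec]

/-- conjugation by a unitary matrix on `SU` -/
def cjFunU (g : GL (Fin n) F) (hg : g ∈ Cfsg.GU n F q) (s : ↥(Cfsg.SU n F q)) :
    ↥(Cfsg.SU n F q) :=
  ⟨⟨(g : Matrix (Fin n) (Fin n) F) * suM s *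
      ((g⁻¹ : GL (Fin n) F) : Matrix (Fin n) (Fin n) F), by
      rw [Matrix.det_units_conj]
      exact s.1.2⟩,
    (mem_SU_iff _).2 (fun u v => by
      show ⟪((g : Matrix (Fin n) (Fin n) F) * suM s *
          ((g⁻¹ : GL (Fin n) F) : Matrix (Fin n) (Fin n) F)) *ᵥ u,
        ((g : Matrix (Fin n) (Fin n) F) * suM s *
          ((g⁻¹ : GL (Fin n) F) : Matrix (Fin n) (Fin n) F)) *ᵥ v⟫ = ⟪u, v⟫
      simp only [← Matrix.mulVec_mulVec]
      rw [(mem_GU_iff g).1 hg, su_pres, (mem_GU_iff g⁻¹).1 (inv_mem hg)])⟩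

theorem cjFunU_coe (g : GL (Fin n) F) (hg : g ∈ Cfsg.GU n F q) (s : ↥(Cfsg.SU n F q)) :
    suM (cjFunU g hg s) = (g : Matrix (Fin n) (Fin n) F) * suM s *
      ((g⁻¹ : GL (Fin n) F) : Matrix (Fin n) (Fin n) F) := rfl

theorem cjFunU_mul (g : GL (Fin n) F) (hg : g ∈ Cfsg.GU n F q) (s t : ↥(Cfsg.SU n F q)) :
    cjFunU g hg (s * t) = cjFunU g hg s * cjFunU g hg t := by
  apply Subtype.ext
  apply Subtype.ext
  show (g : Matrix (Fin n) (Fin n) F) * (suM s * suM t) *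
      ((g⁻¹ : GL (Fin n) F) : Matrix (Fin n) (Fin n) F) =
    ((g : Matrix (Fin n) (Fin n) F) * suM s *
      ((g⁻¹ : GL (Fin n) F) : Matrix (Fin n) (Fin n) F)) *
    ((g : Matrix (Fin n) (Fin n) F) * suM t *
      ((g⁻¹ : GL (Fin n) F) : Matrix (Fin n) (Fin n) F))
  simp only [Matrix.mul_assoc]
  congr 2
  rw [← Matrix.mul_assoc, glU_inv_mul, Matrix.one_mul]

theorem cjFunU_one (g : GL (Fin n) F) (hg : g ∈ Cfsg.GU n F q) :
    cjFunU g hg (1 : ↥(Cfsg.SU n F q)) = 1 := by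
  apply Subtype.ext
  apply Subtype.ext
  show (g : Matrix (Fin n) (Fin n) F) * (1 : Matrix (Fin n) (Fin n) F) *
      ((g⁻¹ : GL (Fin n) F) : Matrix (Fin n) (Fin n) F) = 1
  rw [Matrix.mul_one, glU_mul_inv]

/-- the endomorphism `s ↦ g σ(s) g⁻¹` of `SU` -/
def gammaHom (g : GL (Fin n) F) (hg : g ∈ Cfsg.GU n F q) (σ : F ≃+* F) :
    ↥(Cfsg.SU n F q) →* ↥(Cfsg.SU n F q) where
  toFun s := cjFunU g hg (faU σ s)
  map_one' := by rw [map_one, cjFunU_one]
  map_mul' s t := by rw [map_mul, cjFunU_mul]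

theorem gammaHom_coe (g : GL (Fin n) F) (hg : g ∈ Cfsg.GU n F q) (σ : F ≃+* F)
    (s : ↥(Cfsg.SU n F q)) :
    suM (gammaHom g hg σ s) = (g : Matrix (Fin n) (Fin n) F) * (suM s).map (σ : F →+* F) *
      ((g⁻¹ : GL (Fin n) F) : Matrix (Fin n) (Fin n) F) := rfl

/-- the Prelude predicate -/
theorem induced_of_forall (g : GL (Fin n) F) (hg : g ∈ Cfsg.GU n F q) (σ : F ≃+* F)
    (α : MulAut (Cfsg.PSU n F q))
    (h : ∀ s : ↥(Cfsg.SU n F q), α (QuotientGroup.mk s) = QuotientGroup.mk (gammaHom g hg σ s)) :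
    Cfsg.IsInducedBySemilinearPSU g σ α := by
  intro s s' hs'
  rw [h s]
  congr 1
  apply Subtype.ext
  apply Subtype.ext
  rw [hs']
  rfl

/-- the field automorphism of `PSU` satisfies the Prelude predicate -/
theorem fieldAut_of (σ : F ≃+* F) :
    Cfsg.IsFieldAutPSUOf σ (descU (faU σ) : MulAut (Cfsg.PSU n F q)) := by
  intro s s' hs'
  rw [descU_mk]
  congr 1
  apply Subtype.ext
  apply Subtype.ext
  rw [hs']
  rfl

/-- compatibility of `gammaHom` with the semilinear map -/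
theorem gamma_compat (g : GL (Fin n) F) (hg : g ∈ Cfsg.GU n F q) (σ : F ≃+* F)
    (gm : (Fin n → F) → (Fin n → F)) {μ : F} (hμ : μ ≠ 0)
    (hgm : ∀ x : Fin n → F,
      (g : Matrix (Fin n) (Fin n) F) *ᵥ (fun i => (σ : F →+* F) (x i)) = μ • gm x)
    (s : ↥(Cfsg.SU n F q)) (x : Fin n → F) :
    suM (gammaHom g hg σ s) *ᵥ gm x = gm (suM s *ᵥ x) := by
  have h1 : suM (gammaHom g hg σ s) *ᵥ (μ • gm x) = μ • gm (suM s *ᵥ x) := by
    rw [← hgm x, ← hgm (suM s *ᵥ x), gammaHom_coe, ← map_mulVec']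
    simp only [← Matrix.mulVec_mulVec]
    rw [glU_inv_mulVec]
  rw [Matrix.mulVec_smul] at h1
  exact smul_right_injective _ hμ h1

end Cfsg.Agent.Lib.Helper53.AutPSU
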