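import Mathlib
import Cfsg.Agent.Lib.Helper53.SUBasic

/-!
# Centres of Sylow `p`-subgroups of `PSU_n(q)` and transvections (helper53)

A `p`-subgroup of `SU_n(q)` fixes a non-zero isotropic vector `v`; a Sylow `p`-subgroup fixing `v`
contains `QU v`, so the centre of its image in `PSU` consists of images of transvections with
centre `v`. Hence every automorphism of `PSU_n(q)` maps each transvection group to a
transvection group.
-/

set_option autoImplicit false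
set_option linter.unusedSectionVars false
set_option linter.unusedVariables false

namespace Cfsg.Agent.Lib.Helper53.AutPSU

open Matrix Cfsg.Agent.Lib.Helper7 Cfsg.Agent.Lib.Helper18 Cfsg.Agent.Lib.Helper87

open scoped Pointwise

variable {F : Type*} [Field F] [Fintype F] {q n : ℕ}

local notation "⟪" x ", " y "⟫" => Cfsg.hermForm n F q x y

/-- a Sylow subgroup contains the `p`-subgroups it normalises -/
theorem sylow_contains' {G : Type*} [Group G] {p : ℕ} [Fact p.Prime] (P : Sylow p G)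
    (K : Subgroup G) (hK : IsPGroup p K) (hN : (P : Subgroup G) ≤ Subgroup.normalizer (K : Set G)) :
    K ≤ (P : Subgroup G) := by
  have h1 : IsPGroup p ((P : Subgroup G) ⊔ K : Subgroup G) := P.2.to_sup_of_normal_right' hK hN
  have h2 := P.is_maximal' h1 le_sup_left
  rw [← h2]
  exact le_sup_right

/-- the action on isotropic vectors -/
@[reducible] def isoAct (q n : ℕ) (F : Type*) [Field F] [Fintype F] :
    MulAction ↥(Cfsg.SU n F q) {v : Fin n → F // Cfsg.hermForm n F q v v = 0} where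
  smul g v := ⟨suM g *ᵥ v.1, by rw [su_pres]; exact v.2⟩
  one_smul v := Subtype.ext (by
    show suM (1 : ↥(Cfsg.SU n F q)) *ᵥ v.1 = v.1
    rw [suM_one, Matrix.one_mulVec])
  mul_smul g h v := Subtype.ext (su_mul_mulVec g h v.1)

theorem char_dvd_q (hF : Fintype.card F = q ^ 2) {p : ℕ} [Fact p.Prime] [CharP F p] : p ∣ q := by
  obtain ⟨j, hj⟩ := herm_exists_pow hF
  have hq2 := herm_two_le hF
  rw [ringChar.eq F p] at hj
  have hj0 : j ≠ 0 := by
    rintro rfl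
    rw [pow_zero] at hj
    omega
  rw [hj]
  exact dvd_pow_self p hj0

theorem dvd_hcnt (hF : Fintype.card F = q ^ 2) {p : ℕ} [Fact p.Prime] [CharP F p] (hn : 2 ≤ n) :
    p ∣ hcnt F q n 0 := by
  obtain ⟨m, rfl⟩ : ∃ m, n = m + 2 := ⟨n - 2, by omega⟩
  obtain ⟨h1, h2⟩ := herm_counts hF (m + 2)
  have hq2 := herm_two_le hF
  have hq0 : (q : ℤ) ≠ 0 := by exact_mod_cast (by omega : q ≠ 0)
  have h3 : (q : ℤ) * hcnt F q (m + 2) 0 =
      (q : ℤ) * ((q : ℤ) * ((q : ℤ) ^ (2 * m + 2) + ((q : ℤ) - 1) * (-(q : ℤ)) ^ m)) := by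
    linear_combination h2 + ((q : ℤ) - 1) * h1
  have h4 : (hcnt F q (m + 2) 0 : ℤ) =
      (q : ℤ) * ((q : ℤ) ^ (2 * m + 2) + ((q : ℤ) - 1) * (-(q : ℤ)) ^ m) :=
    mul_left_cancel₀ hq0 h3
  have h5 : (q : ℤ) ∣ (hcnt F q (m + 2) 0 : ℤ) := ⟨_, h4⟩
  exact dvd_trans (char_dvd_q hF) (Int.natCast_dvd_natCast.1 h5)

/-- a `p`-subgroup of `SU` fixes a non-zero isotropic vector -/
theorem exists_fixed_iso (hF : Fintype.card F = q ^ 2) {p : ℕ} [Fact p.Prime] [CharP F p]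
    (hn : 2 ≤ n) (P : Subgroup ↥(Cfsg.SU n F q)) (hP : IsPGroup p P) :
    ∃ v : Fin n → F, v ≠ 0 ∧ ⟪v, v⟫ = 0 ∧ ∀ g ∈ P, suM g *ᵥ v = v := by
  letI := isoAct q n F
  have hcard : p ∣ Nat.card {v : Fin n → F // Cfsg.hermForm n F q v v = 0} := by
    rw [hcnt_eq_hermForm]
    exact dvd_hcnt hF hn
  have h0 : (⟨0, hf_zero_left n 0⟩ : {v : Fin n → F // Cfsg.hermForm n F q v v = 0}) ∈
      MulAction.fixedPoints P {v : Fin n → F // Cfsg.hermForm n F q v v = 0} := by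
    intro g
    apply Subtype.ext
    show suM (g : ↥(Cfsg.SU n F q)) *ᵥ (0 : Fin n → F) = 0
    exact Matrix.mulVec_zero _
  obtain ⟨b, hb, hb0⟩ := hP.exists_fixed_point_of_prime_dvd_card_of_fixed_point
    {v : Fin n → F // Cfsg.hermForm n F q v v = 0} hcard h0
  exact ⟨b.1, fun h => hb0 (Subtype.ext h.symm), b.2,
    fun g hg => congrArg Subtype.val (hb ⟨g, hg⟩)⟩

theorem QU_le_sylow (hn : 1 ≤ n) {p : ℕ} [Fact p.Prime] [CharP F p]
    (P : Sylow p ↥(Cfsg.SU n F q)) {v : Fin n → F} (hfix : ∀ g ∈ P, suM g *ᵥ v = v) :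
    QU q v ≤ (P : Subgroup ↥(Cfsg.SU n F q)) := by
  apply sylow_contains' P (QU q v) (QU_isPGroup hn v)
  intro g hg
  rw [Subgroup.mem_normalizer_iff]
  intro x
  exact conj_mem_QU_iff one_ne_zero (by rw [hfix g hg, one_smul])

/-- the centre of a Sylow `p`-subgroup of `PSU` consists of images of transvections with a common
centre -/
theorem sylow_center (hF : Fintype.card F = q ^ 2) (hn : 2 ≤ n) {p : ℕ} [Fact p.Prime]
    [CharP F p] (P : Sylow p (Cfsg.PSU n F q)) :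
    ∃ v : Fin n → F, v ≠ 0 ∧ ⟪v, v⟫ = 0 ∧ ∀ z ∈ P, (∀ y ∈ P, y * z = z * y) →
      ∃ c : F, c + c ^ q = 0 ∧ z = QuotientGroup.mk (tU hF v c) := by
  obtain ⟨P₀, rfl⟩ := Sylow.mapSurjective_surjective
    (QuotientGroup.mk'_surjective (Subgroup.center ↥(Cfsg.SU n F q))) p P
  obtain ⟨v, hv, hvv, hfix⟩ := exists_fixed_iso hF hn (P₀ : Subgroup ↥(Cfsg.SU n F q)) P₀.2
  obtain ⟨f, hp⟩ := exists_hypPair hF hv hvv
  refine ⟨v, hv, hvv, fun z hz hcomm => ?_⟩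
  have hz' : z ∈ (P₀ : Subgroup ↥(Cfsg.SU n F q)).map
      (QuotientGroup.mk' (Subgroup.center ↥(Cfsg.SU n F q))) := hz
  obtain ⟨z₀, hz₀, rfl⟩ := Subgroup.mem_map.1 hz'
  have hQ := QU_le_sylow (by omega) P₀ hfix
  have hc : ∀ g ∈ QU q v, z₀ * g = g * z₀ := by
    intro g hg
    have h5 := hcomm (QuotientGroup.mk g) (Subgroup.mem_map_of_mem _ (hQ hg))
    have h6 : (QuotientGroup.mk (z₀ * g) : Cfsg.PSU n F q) = QuotientGroup.mk (g * z₀) := h5.symm
    exact eq_of_mk_eq hF (by omega) h6 hv (by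
      rw [su_mul_mulVec, su_mul_mulVec, hfix g (hQ hg), hfix z₀ hz₀, hfix g (hQ hg)])
  obtain ⟨c, hcc, hzc⟩ := eq_tU_of_comm hF hp (hfix z₀ hz₀) hc
  exact ⟨c, hcc, by rw [hzc]; rfl⟩

/-- every transvection group lies in the centre of a Sylow `p`-subgroup of `PSU` -/
theorem exists_sylow_tU (hF : Fintype.card F = q ^ 2) (hn : 2 ≤ n) {p : ℕ} [Fact p.Prime]
    [CharP F p] {v : Fin n → F} (hv : v ≠ 0) (hvv : ⟪v, v⟫ = 0) :
    ∃ P : Sylow p (Cfsg.PSU n F q), ∀ c : F, c + c ^ q = 0 →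
      (QuotientGroup.mk (tU hF v c) : Cfsg.PSU n F q) ∈ P ∧
        ∀ y ∈ P, y * QuotientGroup.mk (tU hF v c) = QuotientGroup.mk (tU hF v c) * y := by
  obtain ⟨f, hp⟩ := exists_hypPair hF hv hvv
  obtain ⟨S, hS⟩ := (QU_isPGroup (by omega) v : IsPGroup p (QU q v)).exists_le_sylow
  obtain ⟨v', hv', hvv', hfix'⟩ := exists_fixed_iso hF hn (S : Subgroup ↥(Cfsg.SU n F q)) S.2
  obtain ⟨l, hl⟩ := fix_QU hF hp (fun g hg => hfix' g (hS hg))
  have hl0 : l ≠ 0 := by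
    rintro rfl
    rw [zero_smul] at hl
    exact hv' hl
  have hfix : ∀ g ∈ S, suM g *ᵥ v = v := by
    intro g hg
    have h1 := hfix' g hg
    rw [hl, Matrix.mulVec_smul] at h1
    exact smul_right_injective _ hl0 h1
  refine ⟨S.mapSurjective (QuotientGroup.mk'_surjective _), fun c hc =>
    ⟨Subgroup.mem_map_of_mem _ (hS (tU_mem_QU hF hvv hc)), ?_⟩⟩
  intro y hy
  have hy' : y ∈ (S : Subgroup ↥(Cfsg.SU n F q)).map
      (QuotientGroup.mk' (Subgroup.center ↥(Cfsg.SU n F q))) := hy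
  obtain ⟨y₀, hy₀, rfl⟩ := Subgroup.mem_map.1 hy'
  have h1 := tU_conj hF hvv hc y₀
  rw [hfix y₀ hy₀] at h1
  have h2 : y₀ * tU hF v c = tU hF v c * y₀ := eq_mul_of_mul_inv_eq h1
  show (QuotientGroup.mk (y₀ * tU hF v c) : Cfsg.PSU n F q) = QuotientGroup.mk (tU hF v c * y₀)
  rw [h2]

/-- automorphisms of `PSU_n(q)` map transvection groups into transvection groups -/
theorem aut_tU (hF : Fintype.card F = q ^ 2) (hn : 2 ≤ n) {p : ℕ} [Fact p.Prime] [CharP F p]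
    (α : MulAut (Cfsg.PSU n F q)) {v : Fin n → F} (hv : v ≠ 0) (hvv : ⟪v, v⟫ = 0) :
    ∃ v' : Fin n → F, v' ≠ 0 ∧ ⟪v', v'⟫ = 0 ∧ ∀ c : F, c + c ^ q = 0 →
      ∃ c' : F, c' + c' ^ q = 0 ∧
        α (QuotientGroup.mk (tU hF v c)) = QuotientGroup.mk (tU hF v' c') := by
  obtain ⟨P, hP⟩ := exists_sylow_tU (p := p) hF hn hv hvv
  obtain ⟨v', hv', hvv', hcen⟩ := sylow_center hF hn (α • P)
  refine ⟨v', hv', hvv', fun c hc => ?_⟩
  obtain ⟨h1, h2⟩ := hP c hc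
  apply hcen
  · show α _ ∈ ((α • P : Sylow p (Cfsg.PSU n F q)) : Subgroup (Cfsg.PSU n F q))
    rw [Sylow.pointwise_smul_def]
    have h1' : (QuotientGroup.mk (tU hF v c) : Cfsg.PSU n F q) ∈
        (P : Subgroup (Cfsg.PSU n F q)) := h1
    exact Subgroup.smul_mem_pointwise_smul _ α _ h1'
  · intro y hy
    have hy' : y ∈ ((α • P : Sylow p (Cfsg.PSU n F q)) : Subgroup (Cfsg.PSU n F q)) := hy
    rw [Sylow.pointwise_smul_def] at hy'
    obtain ⟨y₀, hy₀, rfl⟩ := (Subgroup.mem_smul_pointwise_iff_exists _ _ _).1 hy'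
    show α y₀ * α _ = α _ * α y₀
    rw [← map_mul, ← map_mul, h2 y₀ hy₀]

/-! ### Transvections modulo the centre -/

theorem mk_tU_ne_one (hF : Fintype.card F = q ^ 2) (hn : 1 ≤ n) {v : Fin n → F} {c : F}
    (hv : v ≠ 0) (hvv : ⟪v, v⟫ = 0) (hc : c + c ^ q = 0) (hc0 : c ≠ 0) :
    (QuotientGroup.mk (tU hF v c) : Cfsg.PSU n F q) ≠ 1 := by
  intro h
  have h1 : (QuotientGroup.mk (tU hF v c) : Cfsg.PSU n F q) =
      QuotientGroup.mk (1 : ↥(Cfsg.SU n F q)) := h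
  exact tU_ne_one hF hvv hv hc hc0 (eq_of_mk_eq hF hn h1 hv (by
    rw [tU_mulVec hF hvv hc, hvv, mul_zero, zero_smul, add_zero, suM_one, Matrix.one_mulVec]))

/-- transvections with the same image in `PSU` have proportional centres -/
theorem center_of_mk_eq (hF : Fintype.card F = q ^ 2) (hn : 1 ≤ n) {u w : Fin n → F} {a b : F}
    (hu : u ≠ 0) (huu : ⟪u, u⟫ = 0) (hww : ⟪w, w⟫ = 0) (ha : a + a ^ q = 0) (hb : b + b ^ q = 0)
    (ha0 : a ≠ 0)
    (h : (QuotientGroup.mk (tU hF u a) : Cfsg.PSU n F q) = QuotientGroup.mk (tU hF w b)) :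
    ∃ l : F, l ≠ 0 ∧ u = l • w := by
  obtain ⟨ζ, hζ⟩ := pe_of_mk_eq hF hn h
  have key : ∀ x : Fin n → F, x + (a * ⟪x, u⟫) • u = ζ • (x + (b * ⟪x, w⟫) • w) := by
    intro x
    have h1 := hζ x
    rw [tU_mulVec hF huu ha, tU_mulVec hF hww hb] at h1
    exact h1
  by_cases h1 : ζ = 1
  · have key' : ∀ x : Fin n → F, (a * ⟪x, u⟫) • u = (b * ⟪x, w⟫) • w := by
      intro x
      have h2 := key x
      rw [h1, one_smul] at h2
      exact add_left_cancel h2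
    obtain ⟨x₀, hx₀⟩ := exists_herm_ne_zero hF u hu
    have h3 : a * ⟪x₀, u⟫ ≠ 0 := mul_ne_zero ha0 hx₀
    have h4 : u = ((a * ⟪x₀, u⟫)⁻¹ * (b * ⟪x₀, w⟫)) • w := by
      rw [← smul_smul, ← key' x₀, smul_smul, inv_mul_cancel₀ h3, one_smul]
    refine ⟨_, ?_, h4⟩
    intro h0
    rw [h0, zero_smul] at h4
    exact hu h4
  · have h2 := key u
    rw [huu, mul_zero, zero_smul, add_zero] at h2
    have h3 : (1 - ζ) • u = (ζ * (b * ⟪u, w⟫)) • w := by
      linear_combination (norm := module) h2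
    have h4 : (1 - ζ) ≠ 0 := sub_ne_zero.2 (Ne.symm h1)
    have h5 : u = ((1 - ζ)⁻¹ * (ζ * (b * ⟪u, w⟫))) • w := by
      rw [← smul_smul, ← h3, smul_smul, inv_mul_cancel₀ h4, one_smul]
    refine ⟨_, ?_, h5⟩
    intro h0
    rw [h0, zero_smul] at h5
    exact hu h5

/-- transvections commuting modulo the centre have orthogonal centres -/
theorem perp_of_comm (hF : Fintype.card F = q ^ 2) (hn : 1 ≤ n) {u w : Fin n → F} {a b : F}
    (huu : ⟪u, u⟫ = 0) (hww : ⟪w, w⟫ = 0) (ha : a + a ^ q = 0) (hb : b + b ^ q = 0)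
    (ha0 : a ≠ 0) (hb0 : b ≠ 0)
    (h : (QuotientGroup.mk (tU hF u a) : Cfsg.PSU n F q) * QuotientGroup.mk (tU hF w b) =
      QuotientGroup.mk (tU hF w b) * QuotientGroup.mk (tU hF u a)) : ⟪u, w⟫ = 0 := by
  by_contra hne
  have hne' : ⟪w, u⟫ ≠ 0 := fun h0 => hne (hf_eq_zero_symm hF n w u h0)
  have h1 : (QuotientGroup.mk (tU hF u a * tU hF w b) : Cfsg.PSU n F q) =
      QuotientGroup.mk (tU hF w b * tU hF u a) := h
  obtain ⟨ζ, hζ⟩ := pe_of_mk_eq hF hn h1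
  have h2 := hζ u
  have e1 : suM (tU hF u a) *ᵥ u = u := by
    rw [tU_mulVec hF huu ha, huu, mul_zero, zero_smul, add_zero]
  have e2 : suM (tU hF w b) *ᵥ u = u + (b * ⟪u, w⟫) • w := tU_mulVec hF hww hb u
  have e3 : suM (tU hF u a) *ᵥ (u + (b * ⟪u, w⟫) • w) =
      u + (b * ⟪u, w⟫) • w + (a * (b * ⟪u, w⟫ * ⟪w, u⟫)) • u := by
    rw [tU_mulVec hF huu ha, hf_add_left, hf_smul_left, huu, zero_add]
  rw [su_mul_mulVec, su_mul_mulVec, e1, e2, e3] at h2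
  have h3 := congrArg (fun y => ⟪y, u⟫) h2
  simp only [hf_add_left, hf_smul_left, huu] at h3
  have h4 := congrArg (fun y => ⟪y, w⟫) h2
  simp only [hf_add_left, hf_smul_left, hww] at h4
  have h5 : (b * ⟪u, w⟫ * ⟪w, u⟫) * (1 - ζ) = 0 := by linear_combination h3
  have hζ1 : ζ = 1 := by
    rcases mul_eq_zero.1 h5 with h6 | h6
    · exact absurd h6 (mul_ne_zero (mul_ne_zero hb0 hne) hne')
    · linear_combination -h6
  rw [hζ1] at h4
  have h6 : a * (b * ⟪u, w⟫ * ⟪w, u⟫) * ⟪u, w⟫ = 0 := by linear_combination h4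
  exact mul_ne_zero (mul_ne_zero ha0 (mul_ne_zero (mul_ne_zero hb0 hne) hne')) hne h6

end Cfsg.Agent.Lib.Helper53.AutPSU
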