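import Mathlib
import Cfsg.Agent.Lib.Helper53.SUSylow

/-!
# Automorphisms of `PSU_n(q)` and unipotent radicals (helper53)

A `p`-subgroup of `PSU` containing the image of `QU e` and normalised by the stabiliser of `e`
is the image of `QU e`. Hence an automorphism mapping the transvection group of `e` to that of
`e'` maps the image of `QU e` onto the image of `QU e'`.
-/

set_option autoImplicit false
set_option linter.unusedSectionVars false
set_option linter.unusedVariables false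

namespace Cfsg.Agent.Lib.Helper53.AutPSU

open Matrix Cfsg.Agent.Lib.Helper7 Cfsg.Agent.Lib.Helper18 Cfsg.Agent.Lib.Helper87

variable {F : Type*} [Field F] [Fintype F] {q n : ℕ}

local notation "⟪" x ", " y "⟫" => Cfsg.hermForm n F q x y

theorem exists_hU_map (hF : Fintype.card F = q ^ 2) {e f : Fin n → F} (hp : HypPair q e f)
    {y : Fin n → F} (hye : ⟪y, e⟫ = 1) (hyy : ⟪y, y⟫ = 0) :
    ∃ (w : Fin n → F) (a : F), ⟪w, e⟫ = 0 ∧ ⟪w, f⟫ = 0 ∧ a + a ^ q + ⟪w, w⟫ = 0 ∧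
      suM (hU hF e w a) *ᵥ f = y := by
  have hwe := pj_e hF hp y
  have hwf := pj_f hF hp y
  have ha : ⟪y, f⟫ + ⟪y, f⟫ ^ q + ⟪pj q e f y, pj q e f y⟫ = 0 := by
    have h1 := form_decomp hF hp y y
    rw [hyy, hye, one_pow] at h1
    linear_combination -h1
  refine ⟨pj q e f y, ⟪y, f⟫, hwe, hwf, ha, ?_⟩
  rw [hU_mulVec hF hp.ee hwe ha, hp.fe hF, pj_f' hF hp]
  have h1 := pj_decomp (q := q) e f y
  rw [hye] at h1
  conv_rhs => rw [h1]
  module

/-- a vector outside a subspace is not orthogonal to some vector orthogonal to the subspace -/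
theorem exists_perp_not (hF : Fintype.card F = q ^ 2) (W : Submodule F (Fin n → F))
    (x : Fin n → F) (hx : x ∉ W) :
    ∃ a : Fin n → F, (∀ w ∈ W, ⟪w, a⟫ = 0) ∧ ⟪x, a⟫ ≠ 0 := by
  classical
  obtain ⟨φ, hφx, hφW⟩ := Submodule.exists_le_ker_of_notMem hx
  have key : ∀ v : Fin n → F,
      ⟪v, fun i => φ (fun k => if i = k then 1 else 0) ^ q⟫ = φ v := by
    intro v
    rw [LinearMap.pi_apply_eq_sum_univ φ v]
    unfold Cfsg.hermForm
    apply Finset.sum_congr rfl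
    intro i _
    rw [herm_pow_pow hF, smul_eq_mul]
  refine ⟨fun i => φ (fun k => if i = k then 1 else 0) ^ q, fun w hw => ?_, ?_⟩
  · rw [key]
    exact LinearMap.mem_ker.mp (hφW hw)
  · rw [key]
    exact hφx

/-- the vectors fixed by a subgroup -/
def fixSub (P : Subgroup ↥(Cfsg.SU n F q)) : Submodule F (Fin n → F) where
  carrier := {x | ∀ r ∈ P, suM r *ᵥ x = x}
  add_mem' := fun {a b} ha hb r hr => by rw [Matrix.mulVec_add, ha r hr, hb r hr]
  zero_mem' := fun r _ => Matrix.mulVec_zero _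
  smul_mem' := fun c x hx r hr => by rw [Matrix.mulVec_smul, hx r hr]

/-- the orthogonal complement of a subspace -/
def perpSub (hF : Fintype.card F = q ^ 2) (S : Submodule F (Fin n → F)) :
    Submodule F (Fin n → F) where
  carrier := {y | ∀ w ∈ S, Cfsg.hermForm n F q w y = 0}
  add_mem' := fun {a b} ha hb w hw => by rw [hf_add_right hF, ha w hw, hb w hw, add_zero]
  zero_mem' := fun w _ => hf_zero_right hF n w
  smul_mem' := fun c x hx w hw => by rw [hf_smul_right, hx w hw, mul_zero]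

/-- a `p`-group fixes a non-zero vector in every non-zero invariant subspace -/
theorem exists_fixed_in {p : ℕ} [Fact p.Prime] [CharP F p] (P : Subgroup ↥(Cfsg.SU n F q))
    (hP : IsPGroup p P) (S : Submodule F (Fin n → F))
    (hS : ∀ g ∈ P, ∀ y ∈ S, suM g *ᵥ y ∈ S) {a : Fin n → F} (ha : a ∈ S) (ha0 : a ≠ 0) :
    ∃ u ∈ S, u ≠ 0 ∧ ∀ g ∈ P, suM g *ᵥ u = u := by
  letI : MulAction ↥P ↥S :=
    { smul := fun g y => ⟨suM g.1 *ᵥ y.1, hS g.1 g.2 y.1 y.2⟩
      one_smul := fun y => Subtype.ext (by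
        show suM (1 : ↥(Cfsg.SU n F q)) *ᵥ y.1 = y.1
        rw [suM_one, Matrix.one_mulVec])
      mul_smul := fun g h y => Subtype.ext (su_mul_mulVec g.1 h.1 y.1) }
  have hcard : p ∣ Nat.card ↥S := by
    have h1 : addOrderOf (⟨a, ha⟩ : ↥S) = p := by
      apply addOrderOf_eq_prime
      · apply Subtype.ext
        show p • a = 0
        rw [← Nat.cast_smul_eq_nsmul F, CharP.cast_eq_zero, zero_smul]
      · intro h0
        exact ha0 (congrArg Subtype.val h0)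
    rw [← h1]
    exact addOrderOf_dvd_natCard _
  have h0 : (0 : ↥S) ∈ MulAction.fixedPoints ↥P ↥S := by
    intro g
    apply Subtype.ext
    show suM g.1 *ᵥ (0 : Fin n → F) = 0
    exact Matrix.mulVec_zero _
  obtain ⟨b, hb, hb0⟩ := hP.exists_fixed_point_of_prime_dvd_card_of_fixed_point ↥S hcard h0
  exact ⟨b.1, b.2, fun h => hb0 (Subtype.ext h.symm),
    fun g hg => congrArg Subtype.val (hb ⟨g, hg⟩)⟩

/-- an isotropic vector of the complement of a hyperbolic pair has a partner there -/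
theorem exists_partner_W (hF : Fintype.card F = q ^ 2) {e f : Fin n → F} (hp : HypPair q e f)
    {u : Fin n → F} (hu : u ≠ 0) (huu : ⟪u, u⟫ = 0) (hue : ⟪u, e⟫ = 0) (huf : ⟪u, f⟫ = 0) :
    ∃ v : Fin n → F, ⟪v, v⟫ = 0 ∧ ⟪v, e⟫ = 0 ∧ ⟪v, f⟫ = 0 ∧ ⟪u, v⟫ = 1 := by
  obtain ⟨v₀, hv₀, huv₀⟩ := exists_hyp_partner hF hu huu
  have h1 : ⟪u, pj q e f v₀⟫ = 1 := by
    unfold pj
    rw [hf_sub_right hF, hf_sub_right hF, hf_smul_right, hf_smul_right, hue, huf, huv₀]
    ring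
  have h1' : ⟪pj q e f v₀, u⟫ = 1 := by rw [hf_conj hF n u (pj q e f v₀), h1, one_pow]
  obtain ⟨l, hl⟩ := exists_tr hF (-⟪pj q e f v₀, pj q e f v₀⟫)
    (by rw [herm_neg_pow hF, hf_self_pow hF])
  refine ⟨pj q e f v₀ + l • u, ?_, ?_, ?_, ?_⟩
  · simp only [hf_add_left, hf_add_right hF, hf_smul_left, hf_smul_right, huu, h1, h1']
    linear_combination hl
  · rw [hf_add_left, hf_smul_left, pj_e hF hp, hue, mul_zero, add_zero]
  · rw [hf_add_left, hf_smul_left, pj_f hF hp, huf, mul_zero, add_zero]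
  · rw [hf_add_right hF, hf_smul_right, h1, huu, mul_zero, add_zero]

theorem su_pow_fix {g : ↥(Cfsg.SU n F q)} {e : Fin n → F} (h : suM g *ᵥ e = e) (k : ℕ) :
    suM (g ^ k) *ᵥ e = e := by
  induction k with
  | zero => rw [pow_zero, suM_one, Matrix.one_mulVec]
  | succ k ih => rw [pow_succ, su_mul_mulVec, h, ih]

/-- an eigenvalue of an element of `QU e` is `1` -/
theorem QU_eigen (hn : 1 ≤ n) {p : ℕ} [Fact p.Prime] [CharP F p] {e v : Fin n → F}
    {x : ↥(Cfsg.SU n F q)} (hx : x ∈ QU q e) (hv : v ≠ 0) {c : F} (h : suM x *ᵥ v = c • v) :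
    c = 1 := by
  obtain ⟨k, hk⟩ := (QU_isPGroup (p := p) hn e) ⟨x, hx⟩
  have hk' : x ^ p ^ k = 1 := by
    have h0 := congrArg Subtype.val hk
    simpa using h0
  have h1 : ∀ m : ℕ, suM (x ^ m) *ᵥ v = c ^ m • v := by
    intro m
    induction m with
    | zero => rw [pow_zero, pow_zero, suM_one, Matrix.one_mulVec, one_smul]
    | succ m ih =>
      rw [pow_succ, su_mul_mulVec, h, Matrix.mulVec_smul, ih, smul_smul, pow_succ']
  have h2 := h1 (p ^ k)
  rw [hk', suM_one, Matrix.one_mulVec] at h2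
  have h3 : c ^ p ^ k = 1 := by
    by_contra hne
    have h4 : (1 - c ^ p ^ k) • v = 0 := by rw [sub_smul, one_smul, ← h2, sub_self]
    rcases smul_eq_zero.1 h4 with h5 | h5
    · exact hne (by linear_combination -h5)
    · exact hv h5
  have h4 : (c - 1) ^ p ^ k = 0 := by rw [sub_pow_char_pow, h3, one_pow, sub_self]
  exact sub_eq_zero.1
    ((pow_eq_zero_iff (pow_ne_zero k (Fact.out : p.Prime).ne_zero)).1 h4)

/-- the elements of `SU` fixing `e` whose image lies in `R` -/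
def liftFix (q : ℕ) (e : Fin n → F) (R : Subgroup (Cfsg.PSU n F q)) :
    Subgroup ↥(Cfsg.SU n F q) where
  carrier := {x | (QuotientGroup.mk x : Cfsg.PSU n F q) ∈ R ∧ suM x *ᵥ e = e}
  one_mem' := ⟨R.one_mem, by rw [suM_one, Matrix.one_mulVec]⟩
  mul_mem' := by
    rintro a b ⟨h1, h2⟩ ⟨h3, h4⟩
    exact ⟨R.mul_mem h1 h3, by rw [su_mul_mulVec, h4, h2]⟩
  inv_mem' := by
    rintro a ⟨h1, h2⟩
    refine ⟨R.inv_mem h1, ?_⟩
    nth_rewrite 1 [← h2]
    exact su_inv_mulVec a e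

theorem liftFix_isPGroup (hF : Fintype.card F = q ^ 2) (hn : 1 ≤ n) {p : ℕ} [Fact p.Prime]
    {e : Fin n → F} (he : e ≠ 0) (R : Subgroup (Cfsg.PSU n F q)) (hR : IsPGroup p R) :
    IsPGroup p (liftFix q e R) := by
  rintro ⟨x, hx1, hx2⟩
  obtain ⟨k, hk⟩ := hR ⟨QuotientGroup.mk x, hx1⟩
  refine ⟨k, ?_⟩
  apply Subtype.ext
  show x ^ p ^ k = 1
  have h1 : (QuotientGroup.mk (x ^ p ^ k) : Cfsg.PSU n F q) =
      QuotientGroup.mk (1 : ↥(Cfsg.SU n F q)) := by
    have h2 := congrArg Subtype.val hk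
    rw [QuotientGroup.mk_pow]
    simpa using h2
  exact eq_of_mk_eq hF hn h1 he (by rw [su_pow_fix hx2, suM_one, Matrix.one_mulVec])

/-- a `p`-subgroup of `PSU` containing the image of `QU e` and normalised by the stabiliser of
`e` is the image of `QU e` -/
theorem pgroup_le_QU (hF : Fintype.card F = q ^ 2) (hn : 2 ≤ n) {p : ℕ} [Fact p.Prime]
    [CharP F p] {e f : Fin n → F} (hp : HypPair q e f)
    (R : Subgroup (Cfsg.PSU n F q)) (hR : IsPGroup p R)
    (hQ : ∀ x ∈ QU q e, (QuotientGroup.mk x : Cfsg.PSU n F q) ∈ R)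
    (hN : ∀ g x : ↥(Cfsg.SU n F q), suM g *ᵥ e = e → (QuotientGroup.mk x : Cfsg.PSU n F q) ∈ R →
      (QuotientGroup.mk (g * x * g⁻¹) : Cfsg.PSU n F q) ∈ R) :
    ∀ r ∈ R, ∃ x ∈ QU q e, r = QuotientGroup.mk x := by
  -- lifts fixing `e`
  have lift : ∀ r ∈ R, ∃ x ∈ liftFix q e R, r = QuotientGroup.mk x := by
    obtain ⟨P, hRP⟩ := hR.exists_le_sylow
    obtain ⟨P₀, rfl⟩ := Sylow.mapSurjective_surjective
      (QuotientGroup.mk'_surjective (Subgroup.center ↥(Cfsg.SU n F q))) p P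
    obtain ⟨v, hv, hvv, hfix⟩ := exists_fixed_iso hF hn (P₀ : Subgroup ↥(Cfsg.SU n F q)) P₀.2
    have hlift : ∀ r ∈ R, ∃ x ∈ P₀, r = QuotientGroup.mk x := by
      intro r hr
      have hr' : r ∈ (P₀ : Subgroup ↥(Cfsg.SU n F q)).map
          (QuotientGroup.mk' (Subgroup.center ↥(Cfsg.SU n F q))) := hRP hr
      obtain ⟨x, hx, rfl⟩ := Subgroup.mem_map.1 hr'
      exact ⟨x, hx, rfl⟩
    have hQv : ∀ x ∈ QU q e, suM x *ᵥ v = v := by
      intro x hx
      obtain ⟨x₀, hx₀, hxx⟩ := hlift _ (hQ x hx)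
      obtain ⟨c, hc⟩ := pe_of_mk_eq hF (by omega) hxx
      have h1 := hc v
      rw [hfix x₀ hx₀] at h1
      rw [h1, QU_eigen (p := p) (by omega) hx hv h1, one_smul]
    obtain ⟨l, hl⟩ := fix_QU hF hp hQv
    have hl0 : l ≠ 0 := by
      rintro rfl
      rw [zero_smul] at hl
      exact hv hl
    have hfixe : ∀ g ∈ P₀, suM g *ᵥ e = e := by
      intro g hg
      have h1 := hfix g hg
      rw [hl, Matrix.mulVec_smul] at h1
      exact smul_right_injective _ hl0 h1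
    intro r hr
    obtain ⟨x, hx, rfl⟩ := hlift r hr
    exact ⟨x, ⟨hr, hfixe x hx⟩, rfl⟩
  -- the elements fixing `e` and `f` are trivial
  have hR0 : ∀ r ∈ liftFix q e R ⊓ liftFix q f R, r = 1 := by
    obtain ⟨R₀, hR₀⟩ : ∃ R₀ : Subgroup ↥(Cfsg.SU n F q), R₀ = liftFix q e R ⊓ liftFix q f R :=
      ⟨_, rfl⟩
    rw [← hR₀]
    have hR₀p : IsPGroup p R₀ := by
      rw [hR₀]
      exact (liftFix_isPGroup hF (by omega) hp.ne R hR).to_le inf_le_left
    have hmemR : ∀ r ∈ R₀, (QuotientGroup.mk r : Cfsg.PSU n F q) ∈ R := by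
      intro r hr
      rw [hR₀] at hr
      exact (Subgroup.mem_inf.1 hr).1.1
    have hfe : ∀ r ∈ R₀, suM r *ᵥ e = e := by
      intro r hr
      rw [hR₀] at hr
      exact (Subgroup.mem_inf.1 hr).1.2
    have hff : ∀ r ∈ R₀, suM r *ᵥ f = f := by
      intro r hr
      rw [hR₀] at hr
      exact (Subgroup.mem_inf.1 hr).2.2
    have htop : fixSub R₀ = ⊤ := by
      by_contra hne
      obtain ⟨x, hx⟩ : ∃ x, x ∉ fixSub R₀ := by
        by_contra hcon
        push Not at hcon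
        exact hne (eq_top_iff.2 fun y _ => hcon y)
      obtain ⟨a, ha1, ha2⟩ := exists_perp_not hF (fixSub R₀) x hx
      have ha0 : a ≠ 0 := by
        rintro rfl
        exact ha2 (hf_zero_right hF n x)
      have hinv : ∀ g ∈ R₀, ∀ y ∈ perpSub hF (fixSub R₀),
          suM g *ᵥ y ∈ perpSub hF (fixSub R₀) := by
        intro g hg y hy w hw
        have h1 := su_pres g w y
        rw [hw g hg] at h1
        rw [h1]
        exact hy w hw
      obtain ⟨u, hu, hu0, hufix⟩ := exists_fixed_in R₀ hR₀p (perpSub hF (fixSub R₀)) hinv ha1 ha0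
      have huF : u ∈ fixSub R₀ := hufix
      have huu : ⟪u, u⟫ = 0 := hu u huF
      have hue : ⟪u, e⟫ = 0 := hf_eq_zero_symm hF n _ _ (hu e hfe)
      have huf : ⟪u, f⟫ = 0 := hf_eq_zero_symm hF n _ _ (hu f hff)
      obtain ⟨v, hvv, hve, hvf, huv⟩ := exists_partner_W hF hp hu0 huu hue huf
      obtain ⟨c, hc0, hc⟩ := exists_tz_ne_zero hF
      have hte : suM (tU hF v c) *ᵥ e = e := by
        rw [tU_mulVec hF hvv hc, hf_eq_zero_symm hF n _ _ hve, mul_zero, zero_smul, add_zero]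
      have htf : suM (tU hF v c) *ᵥ f = f := by
        rw [tU_mulVec hF hvv hc, hf_eq_zero_symm hF n _ _ hvf, mul_zero, zero_smul, add_zero]
      have hte' : suM (tU hF v c)⁻¹ *ᵥ e = e := by
        nth_rewrite 1 [← hte]
        exact su_inv_mulVec _ e
      have htf' : suM (tU hF v c)⁻¹ *ᵥ f = f := by
        nth_rewrite 1 [← htf]
        exact su_inv_mulVec _ f
      have hnorm : ∀ r ∈ R₀, (tU hF v c)⁻¹ * r * tU hF v c ∈ R₀ := by
        intro r hr
        have h1 := hN (tU hF v c)⁻¹ r hte' (hmemR r hr)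
        rw [inv_inv] at h1
        rw [hR₀]
        refine Subgroup.mem_inf.2 ⟨⟨h1, ?_⟩, ⟨h1, ?_⟩⟩
        · rw [su_mul_mulVec, su_mul_mulVec, hte, hfe r hr, hte']
        · rw [su_mul_mulVec, su_mul_mulVec, htf, hff r hr, htf']
      have htu : suM (tU hF v c) *ᵥ u ∈ fixSub R₀ := by
        intro r hr
        have h1 := huF _ (hnorm r hr)
        rw [su_mul_mulVec, su_mul_mulVec] at h1
        have h2 : suM (tU hF v c) *ᵥ (suM (tU hF v c)⁻¹ *ᵥ (suM r *ᵥ (suM (tU hF v c) *ᵥ u))) =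
            suM (tU hF v c) *ᵥ u := by rw [h1]
        rw [su_mulVec_inv] at h2
        exact h2
      rw [tU_mulVec hF hvv hc, huv, mul_one] at htu
      have hcv : c • v ∈ fixSub R₀ := by
        have h1 := (fixSub R₀).sub_mem htu huF
        rwa [add_sub_cancel_left] at h1
      have hvF : v ∈ fixSub R₀ := by
        have h1 := (fixSub R₀).smul_mem c⁻¹ hcv
        rwa [smul_smul, inv_mul_cancel₀ hc0, one_smul] at h1
      have h0 := hu v hvF
      have h1 := hf_eq_zero_symm hF n _ _ h0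
      rw [huv] at h1
      exact one_ne_zero h1
    intro r hr
    apply su_ext
    intro x
    have hx : x ∈ fixSub R₀ := by
      rw [htop]
      trivial
    rw [hx r hr, suM_one, Matrix.one_mulVec]
  -- the lifts lie in `QU e`
  have hmem : ∀ x ∈ liftFix q e R, x ∈ QU q e := by
    intro x hx
    have hye : ⟪suM x *ᵥ f, e⟫ = 1 := by
      have h1 := su_pres x f e
      rw [hx.2, hp.fe hF] at h1
      exact h1
    have hyy : ⟪suM x *ᵥ f, suM x *ᵥ f⟫ = 0 := by rw [su_pres, hp.ff]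
    obtain ⟨w, a, hwe, hwf, ha, hy⟩ := exists_hU_map hF hp hye hyy
    have hE := hU_mem_QU hF hp.ee hwe ha
    have hl : (hU hF e w a)⁻¹ * x ∈ liftFix q e R ⊓ liftFix q f R := by
      have h1 : (hU hF e w a)⁻¹ * x ∈ liftFix q e R :=
        (liftFix q e R).mul_mem ((liftFix q e R).inv_mem ⟨hQ _ hE, hE.1⟩) hx
      refine Subgroup.mem_inf.2 ⟨h1, h1.1, ?_⟩
      rw [su_mul_mulVec, ← hy]
      exact su_inv_mulVec _ f
    have h1 := hR0 _ hl
    rw [← (inv_mul_eq_one.1 h1)]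
    exact hE
  intro r hr
  obtain ⟨x, hx, rfl⟩ := lift r hr
  exact ⟨x, hmem x hx, rfl⟩

/-- the image of a transvection group under an automorphism is a whole transvection group -/
theorem aut_tU_surj (hF : Fintype.card F = q ^ 2) (hn : 2 ≤ n) {p : ℕ} [Fact p.Prime]
    [CharP F p] (α : MulAut (Cfsg.PSU n F q)) {e e' : Fin n → F} (he : e ≠ 0) (hee : ⟪e, e⟫ = 0)
    (he' : e' ≠ 0) (hee' : ⟪e', e'⟫ = 0)
    (h : ∀ c : F, c + c ^ q = 0 → ∃ c' : F, c' + c' ^ q = 0 ∧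
      α (QuotientGroup.mk (tU hF e c)) = QuotientGroup.mk (tU hF e' c')) :
    ∀ d : F, d + d ^ q = 0 → ∃ c : F, c + c ^ q = 0 ∧
      α (QuotientGroup.mk (tU hF e c)) = QuotientGroup.mk (tU hF e' d) := by
  obtain ⟨e'', he'', hee'', h''⟩ := aut_tU (p := p) hF hn α⁻¹ he' hee'
  obtain ⟨c₀, hc₀0, hc₀⟩ := exists_tz_ne_zero hF
  obtain ⟨c₀', hc₀', h1⟩ := h c₀ hc₀
  have hc₀'0 : c₀' ≠ 0 := by
    rintro rfl
    rw [tU_zero hF hee'] at h1
    have h2 : (QuotientGroup.mk (tU hF e c₀) : Cfsg.PSU n F q) = 1 := by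
      have h3 : α (QuotientGroup.mk (tU hF e c₀)) = α 1 := by
        rw [h1, map_one]
        rfl
      exact α.injective h3
    exact mk_tU_ne_one hF (by omega) he hee hc₀ hc₀0 h2
  obtain ⟨d₀, hd₀, h2⟩ := h'' c₀' hc₀'
  have h3 : (QuotientGroup.mk (tU hF e c₀) : Cfsg.PSU n F q) =
      QuotientGroup.mk (tU hF e'' d₀) := by
    rw [← h2, ← h1]
    exact (MulAut.inv_apply_self _ α _).symm
  obtain ⟨l, hl0, hl⟩ := center_of_mk_eq hF (by omega) he hee hee'' hc₀ hd₀ hc₀0 h3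
  intro d hd
  obtain ⟨d'', hd'', h4⟩ := h'' d hd
  have h5 : e'' = l⁻¹ • e := by rw [hl, smul_smul, inv_mul_cancel₀ hl0, one_smul]
  refine ⟨(l⁻¹) ^ (q + 1) * d'', tz_norm_mul hF hd'' _, ?_⟩
  rw [← tU_smul hF hee hd'' l⁻¹, ← h5, ← h4]
  exact MulAut.apply_inv_self _ α _

/-- an automorphism mapping the transvection group of `e` to that of `e'` maps the image of
`QU e` into the image of `QU e'` -/
theorem aut_QU (hF : Fintype.card F = q ^ 2) (hn : 2 ≤ n) {p : ℕ} [Fact p.Prime] [CharP F p]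
    (α : MulAut (Cfsg.PSU n F q)) {e e' : Fin n → F} (he : e ≠ 0) (hee : ⟪e, e⟫ = 0)
    (he' : e' ≠ 0) (hee' : ⟪e', e'⟫ = 0)
    (h : ∀ c : F, c + c ^ q = 0 → ∃ c' : F, c' + c' ^ q = 0 ∧
      α (QuotientGroup.mk (tU hF e c)) = QuotientGroup.mk (tU hF e' c')) :
    ∀ x ∈ QU q e, ∃ x' ∈ QU q e', α (QuotientGroup.mk x) = QuotientGroup.mk x' := by
  obtain ⟨f', hp'⟩ := exists_hypPair hF he' hee'
  have hsurj := aut_tU_surj (p := p) hF hn α he hee he' hee' h
  obtain ⟨c₀, hc₀0, hc₀⟩ := exists_tz_ne_zero hF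
  have hstab : ∀ g : ↥(Cfsg.SU n F q), suM g *ᵥ e' = e' →
      ∃ (g₀ : ↥(Cfsg.SU n F q)) (l : F), l ≠ 0 ∧ suM g₀ *ᵥ e = l • e ∧
        α (QuotientGroup.mk g₀) = QuotientGroup.mk g := by
    intro g hg
    obtain ⟨g₀, hg₀⟩ := QuotientGroup.mk_surjective (α⁻¹ (QuotientGroup.mk g))
    have hg₀' : α (QuotientGroup.mk g₀) = QuotientGroup.mk g := by
      rw [hg₀]
      exact MulAut.apply_inv_self _ α _
    obtain ⟨c₁, hc₁, h1⟩ := h c₀ hc₀
    have h2 : α (QuotientGroup.mk (tU hF (suM g₀ *ᵥ e) c₀)) = QuotientGroup.mk (tU hF e' c₁) := by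
      rw [← tU_conj hF hee hc₀ g₀]
      have e1 : (QuotientGroup.mk (g₀ * tU hF e c₀ * g₀⁻¹) : Cfsg.PSU n F q) =
          QuotientGroup.mk g₀ * QuotientGroup.mk (tU hF e c₀) * (QuotientGroup.mk g₀)⁻¹ := rfl
      rw [e1, map_mul, map_mul, map_inv, hg₀', h1]
      have e2 : (QuotientGroup.mk g : Cfsg.PSU n F q) * QuotientGroup.mk (tU hF e' c₁) *
          (QuotientGroup.mk g)⁻¹ = QuotientGroup.mk (g * tU hF e' c₁ * g⁻¹) := rfl
      rw [e2, tU_conj hF hee' hc₁ g, hg]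
    obtain ⟨c₂, hc₂, h3⟩ := hsurj c₁ hc₁
    have h4 : (QuotientGroup.mk (tU hF (suM g₀ *ᵥ e) c₀) : Cfsg.PSU n F q) =
        QuotientGroup.mk (tU hF e c₂) := α.injective (by rw [h2, h3])
    obtain ⟨l, hl0, hl⟩ := center_of_mk_eq hF (by omega) (su_ne_zero g₀ he)
      (by rw [su_pres]; exact hee) hee hc₀ hc₂ hc₀0 h4
    exact ⟨g₀, l, hl0, hl, hg₀'⟩
  obtain ⟨A, hA⟩ : ∃ A : Subgroup (Cfsg.PSU n F q), A = ((QU q e).map
      (QuotientGroup.mk' (Subgroup.center ↥(Cfsg.SU n F q)))).map α.toMonoidHom := ⟨_, rfl⟩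
  obtain ⟨B, hB⟩ : ∃ B : Subgroup (Cfsg.PSU n F q), B = (QU q e').map
      (QuotientGroup.mk' (Subgroup.center ↥(Cfsg.SU n F q))) := ⟨_, rfl⟩
  have hAp : IsPGroup p A := by
    rw [hA]
    exact ((QU_isPGroup (by omega) e).map _).map _
  have hBp : IsPGroup p B := by
    rw [hB]
    exact (QU_isPGroup (by omega) e').map _
  have hAmem : ∀ x ∈ QU q e, α (QuotientGroup.mk x) ∈ A := by
    intro x hx
    rw [hA]
    exact Subgroup.mem_map_of_mem _ (Subgroup.mem_map_of_mem _ hx)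
  have hBmem : ∀ x ∈ QU q e', (QuotientGroup.mk x : Cfsg.PSU n F q) ∈ B := by
    intro x hx
    rw [hB]
    exact Subgroup.mem_map_of_mem _ hx
  have hAn : ∀ g : ↥(Cfsg.SU n F q), suM g *ᵥ e' = e' → ∀ a ∈ A,
      (QuotientGroup.mk g : Cfsg.PSU n F q) * a * (QuotientGroup.mk g)⁻¹ ∈ A := by
    intro g hg a ha
    rw [hA] at ha
    obtain ⟨a₁, ha₁, rfl⟩ := Subgroup.mem_map.1 ha
    obtain ⟨x, hx, rfl⟩ := Subgroup.mem_map.1 ha₁
    obtain ⟨g₀, l, hl0, hl, hg₀⟩ := hstab g hg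
    have e1 : (QuotientGroup.mk g : Cfsg.PSU n F q) * α (QuotientGroup.mk x) *
        (QuotientGroup.mk g)⁻¹ = α (QuotientGroup.mk (g₀ * x * g₀⁻¹)) := by
      rw [← hg₀, ← map_inv, ← map_mul, ← map_mul]
      rfl
    have h5 := hAmem _ (conj_mem_QU hl0 hl hx)
    rw [← e1] at h5
    exact h5
  have hBn : ∀ g : ↥(Cfsg.SU n F q), suM g *ᵥ e' = e' → ∀ b ∈ B,
      (QuotientGroup.mk g : Cfsg.PSU n F q) * b * (QuotientGroup.mk g)⁻¹ ∈ B := by
    intro g hg b hb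
    rw [hB] at hb
    obtain ⟨x, hx, rfl⟩ := Subgroup.mem_map.1 hb
    exact hBmem _ (conj_mem_QU one_ne_zero (by rw [hg, one_smul]) hx)
  have hBA : B ≤ Subgroup.normalizer (A : Set (Cfsg.PSU n F q)) := by
    intro b hb
    rw [hB] at hb
    obtain ⟨x, hx, rfl⟩ := Subgroup.mem_map.1 hb
    rw [Subgroup.mem_normalizer_iff]
    intro a
    constructor
    · intro ha
      exact hAn x hx.1 a ha
    · intro ha
      have h1 := hAn x⁻¹ ((QU q e').inv_mem hx).1 _ ha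
      have e3 : (QuotientGroup.mk x⁻¹ : Cfsg.PSU n F q) *
          ((QuotientGroup.mk' (Subgroup.center ↥(Cfsg.SU n F q))) x * a *
            ((QuotientGroup.mk' (Subgroup.center ↥(Cfsg.SU n F q))) x)⁻¹) *
          (QuotientGroup.mk x⁻¹)⁻¹ = a := by
        have e4 : (QuotientGroup.mk x⁻¹ : Cfsg.PSU n F q) =
            ((QuotientGroup.mk' (Subgroup.center ↥(Cfsg.SU n F q))) x)⁻¹ := rfl
        rw [e4]
        group
      rw [e3] at h1
      exact h1
  have hRp : IsPGroup p (B ⊔ A : Subgroup (Cfsg.PSU n F q)) :=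
    hBp.to_sup_of_normal_right' hAp hBA
  have hRn : ∀ g : ↥(Cfsg.SU n F q), suM g *ᵥ e' = e' → ∀ r ∈ B ⊔ A,
      (QuotientGroup.mk g : Cfsg.PSU n F q) * r * (QuotientGroup.mk g)⁻¹ ∈ B ⊔ A := by
    intro g hg
    have h1 : B ⊔ A ≤ (B ⊔ A).comap
        (MulAut.conj (QuotientGroup.mk g : Cfsg.PSU n F q)).toMonoidHom := by
      apply sup_le
      · intro b hb
        exact Subgroup.mem_comap.2 (Subgroup.mem_sup_left (hBn g hg b hb))
      · intro a ha
        exact Subgroup.mem_comap.2 (Subgroup.mem_sup_right (hAn g hg a ha))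
    intro r hr
    exact Subgroup.mem_comap.1 (h1 hr)
  have key := pgroup_le_QU hF hn hp' (B ⊔ A) hRp
    (fun x hx => Subgroup.mem_sup_left (hBmem x hx)) (fun g x hg hx => hRn g hg _ hx)
  intro x hx
  obtain ⟨x', hx', h1⟩ := key _ (Subgroup.mem_sup_right (hAmem x hx))
  exact ⟨x', hx', h1⟩

/-- every automorphism maps transvection groups onto transvection groups and the corresponding
unipotent radicals onto each other -/
theorem aut_good (hF : Fintype.card F = q ^ 2) (hn : 2 ≤ n) {p : ℕ} [Fact p.Prime] [CharP F p]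
    (α : MulAut (Cfsg.PSU n F q)) {v : Fin n → F} (hv : v ≠ 0) (hvv : ⟪v, v⟫ = 0) :
    ∃ v' : Fin n → F, v' ≠ 0 ∧ ⟪v', v'⟫ = 0 ∧
      (∀ c : F, c + c ^ q = 0 → ∃ c' : F, c' + c' ^ q = 0 ∧
        α (QuotientGroup.mk (tU hF v c)) = QuotientGroup.mk (tU hF v' c')) ∧
      (∀ d : F, d + d ^ q = 0 → ∃ c : F, c + c ^ q = 0 ∧
        α (QuotientGroup.mk (tU hF v c)) = QuotientGroup.mk (tU hF v' d)) ∧
      (∀ x ∈ QU q v, ∃ x' ∈ QU q v', α (QuotientGroup.mk x) = QuotientGroup.mk x') ∧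
      (∀ x' ∈ QU q v', ∃ x ∈ QU q v, α (QuotientGroup.mk x) = QuotientGroup.mk x') := by
  obtain ⟨v', hv', hvv', h⟩ := aut_tU (p := p) hF hn α hv hvv
  have hsurj := aut_tU_surj (p := p) hF hn α hv hvv hv' hvv' h
  refine ⟨v', hv', hvv', h, hsurj, aut_QU (p := p) hF hn α hv hvv hv' hvv' h, ?_⟩
  have hinv : ∀ d : F, d + d ^ q = 0 → ∃ c : F, c + c ^ q = 0 ∧
      α⁻¹ (QuotientGroup.mk (tU hF v' d)) = QuotientGroup.mk (tU hF v c) := by
    intro d hd
    obtain ⟨c, hc, h1⟩ := hsurj d hd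
    exact ⟨c, hc, by rw [← h1]; exact MulAut.inv_apply_self _ α _⟩
  intro x' hx'
  obtain ⟨x, hx, h1⟩ := aut_QU (p := p) hF hn α⁻¹ hv' hvv' hv hvv hinv x' hx'
  exact ⟨x, hx, by rw [← h1]; exact MulAut.apply_inv_self _ α _⟩

end Cfsg.Agent.Lib.Helper53.AutPSU
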