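import Mathlib
import Cfsg.Agent.Lib.Helper53.SUPar

/-!
# Heisenberg coordinates of an automorphism of `PSU_n(q)` (helper53)

`Coord hF α e f e' f' A B T`: the automorphism `α` maps the class of `hU e w a` to the class of
`hU e' (A w a) (B w a)` and the class of `tU f c` to the class of `tU f' (T c)`. We derive the
functional equations of `A`, `B`, `T`.
-/

set_option autoImplicit false
set_option linter.unusedSectionVars false
set_option linter.unusedVariables false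

namespace Cfsg.Agent.Lib.Helper53.AutPSU

open Matrix Cfsg.Agent.Lib.Helper7 Cfsg.Agent.Lib.Helper18 Cfsg.Agent.Lib.Helper87

variable {F : Type*} [Field F] [Fintype F] {q n : ℕ}

local notation "⟪" x ", " y "⟫" => Cfsg.hermForm n F q x y

/-- validity of Heisenberg coordinates relative to a hyperbolic pair -/
def Val (q : ℕ) (e f w : Fin n → F) (a : F) : Prop :=
  Cfsg.hermForm n F q w e = 0 ∧ Cfsg.hermForm n F q w f = 0 ∧
    a + a ^ q + Cfsg.hermForm n F q w w = 0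

theorem Val.add (hF : Fintype.card F = q ^ 2) {e f w w₂ : Fin n → F} {a a₂ : F}
    (h : Val q e f w a) (h₂ : Val q e f w₂ a₂) :
    Val q e f (w + w₂) (a + a₂ - ⟪w₂, w⟫) :=
  ⟨by rw [hf_add_left, h.1, h₂.1, add_zero], by rw [hf_add_left, h.2.1, h₂.2.1, add_zero],
    val_mul hF h.2.2 h₂.2.2⟩

theorem Val.zero (hF : Fintype.card F = q ^ 2) {e f : Fin n → F} {t : F} (ht : t + t ^ q = 0) :
    Val q e f 0 t :=
  ⟨hf_zero_left n e, hf_zero_left n f, by rw [hf_zero_left, add_zero]; exact ht⟩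

theorem Val.scale (hF : Fintype.card F = q ^ 2) {e f w : Fin n → F} {a c : F}
    (hv : Val q e f w a) (hc : c + c ^ q = 0) (hu : 1 + c * a ≠ 0) :
    Val q e f ((1 + c * a)⁻¹ • w) ((1 + c * a)⁻¹ * a) := by
  refine ⟨by rw [hf_smul_left, hv.1, mul_zero], by rw [hf_smul_left, hv.2.1, mul_zero], ?_⟩
  have hc' : c ^ q = -c := by linear_combination hc
  have hū : (1 + c * a) ^ q = 1 - c * a ^ q := by
    rw [herm_add_pow hF, one_pow, mul_pow, hc']
    ring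
  have hu' : (1 - c * a ^ q) ≠ 0 := by
    rw [← hū]
    exact pow_ne_zero q hu
  rw [mul_pow, inv_pow, hf_smul_left, hf_smul_right, inv_pow, hū]
  have key : (1 + c * a)⁻¹ * a + (1 - c * a ^ q)⁻¹ * a ^ q +
      (1 + c * a)⁻¹ * ((1 - c * a ^ q)⁻¹ * ⟪w, w⟫) =
      ((1 + c * a)⁻¹ * (1 - c * a ^ q)⁻¹) * (a + a ^ q + ⟪w, w⟫) := by
    field_simp
    ring
  rw [key, hv.2.2, mul_zero]

theorem hU_e (hF : Fintype.card F = q ^ 2) {e f : Fin n → F} (hp : HypPair q e f)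
    {w : Fin n → F} {a : F} (hv : Val q e f w a) : suM (hU hF e w a) *ᵥ e = e :=
  (hU_mem_QU hF hp.ee hv.1 hv.2.2).1

theorem hU_f (hF : Fintype.card F = q ^ 2) {e f : Fin n → F} (hp : HypPair q e f)
    {w : Fin n → F} {a : F} (hv : Val q e f w a) :
    suM (hU hF e w a) *ᵥ f = f + w + a • e := by
  rw [hU_mulVec hF hp.ee hv.1 hv.2.2, hp.fe hF, hf_eq_zero_symm hF n _ _ hv.2.1]
  module

theorem decomp_unique (hF : Fintype.card F = q ^ 2) {e f : Fin n → F} (hp : HypPair q e f)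
    {x₁ x₂ a₁ a₂ : F} {w₁ w₂ : Fin n → F} (h1e : ⟪w₁, e⟫ = 0) (h1f : ⟪w₁, f⟫ = 0)
    (h2e : ⟪w₂, e⟫ = 0) (h2f : ⟪w₂, f⟫ = 0)
    (h : x₁ • f + w₁ + a₁ • e = x₂ • f + w₂ + a₂ • e) : x₁ = x₂ ∧ w₁ = w₂ ∧ a₁ = a₂ := by
  have hx : x₁ = x₂ := by
    have h1 := congrArg (fun y => ⟪y, e⟫) h
    simp only [hf_add_left, hf_smul_left, hp.ee, hp.fe hF, h1e, h2e] at h1
    linear_combination h1
  have ha : a₁ = a₂ := by
    have h1 := congrArg (fun y => ⟪y, f⟫) h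
    simp only [hf_add_left, hf_smul_left, hp.ff, hp.ef, h1f, h2f] at h1
    linear_combination h1
  refine ⟨hx, ?_, ha⟩
  rw [hx, ha] at h
  exact add_left_cancel (add_right_cancel h)

theorem hU_inj (hF : Fintype.card F = q ^ 2) (hn : 1 ≤ n) {e f : Fin n → F}
    (hp : HypPair q e f) {w₁ w₂ : Fin n → F} {a₁ a₂ : F} (h₁ : Val q e f w₁ a₁)
    (h₂ : Val q e f w₂ a₂)
    (h : (QuotientGroup.mk (hU hF e w₁ a₁) : Cfsg.PSU n F q) = QuotientGroup.mk (hU hF e w₂ a₂)) :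
    w₁ = w₂ ∧ a₁ = a₂ := by
  have h1 := eq_of_mk_eq hF hn h hp.ne (by rw [hU_e hF hp h₁, hU_e hF hp h₂])
  have h2 : suM (hU hF e w₁ a₁) *ᵥ f = suM (hU hF e w₂ a₂) *ᵥ f := by rw [h1]
  rw [hU_f hF hp h₁, hU_f hF hp h₂] at h2
  have h3 : (1 : F) • f + w₁ + a₁ • e = (1 : F) • f + w₂ + a₂ • e := by
    rw [one_smul]
    exact h2
  obtain ⟨-, hw, ha⟩ := decomp_unique hF hp h₁.1 h₁.2.1 h₂.1 h₂.2.1 h3
  exact ⟨hw, ha⟩

theorem tU_inj (hF : Fintype.card F = q ^ 2) (hn : 1 ≤ n) {e f : Fin n → F}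
    (hp : HypPair q e f) {c d : F} (hc : c + c ^ q = 0) (hd : d + d ^ q = 0)
    (h : (QuotientGroup.mk (tU hF f c) : Cfsg.PSU n F q) = QuotientGroup.mk (tU hF f d)) :
    c = d := by
  have h1 := eq_of_mk_eq hF hn h (hp.ne' hF) (by
    rw [tU_mulVec hF hp.ff hc, tU_mulVec hF hp.ff hd, hp.ff, mul_zero, mul_zero])
  have h2 : suM (tU hF f c) *ᵥ e = suM (tU hF f d) *ᵥ e := by rw [h1]
  rw [tU_mulVec hF hp.ff hc, tU_mulVec hF hp.ff hd, hp.ef, mul_one, mul_one] at h2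
  exact smul_left_injective F (hp.ne' hF) (add_left_cancel h2)

theorem pair_f (hF : Fintype.card F = q ^ 2) {e f : Fin n → F} (hp : HypPair q e f)
    {w : Fin n → F} {a c : F} (hv : Val q e f w a) (hc : c + c ^ q = 0) :
    suM (tU hF f c * hU hF e w a) *ᵥ f = (1 + c * a) • f + w + a • e := by
  rw [su_mul_mulVec, hU_f hF hp hv, tU_mulVec hF hp.ff hc, hf_add_left, hf_add_left, hf_smul_left,
    hp.ff, hv.2.1, hp.ef]
  module

theorem conj_pair (hF : Fintype.card F = q ^ 2) {e f : Fin n → F} (hp : HypPair q e f)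
    {w : Fin n → F} {a c t : F} (hv : Val q e f w a) (hc : c + c ^ q = 0) (ht : t + t ^ q = 0) :
    (tU hF f c * hU hF e w a) * tU hF f t * (tU hF f c * hU hF e w a)⁻¹ =
      tU hF ((1 + c * a) • f + w + a • e) t := by
  rw [tU_conj hF hp.ff ht, pair_f hF hp hv hc]

theorem conj_single (hF : Fintype.card F = q ^ 2) {e f : Fin n → F} (hp : HypPair q e f)
    {w : Fin n → F} {a t : F} (hv : Val q e f w a) (ht : t + t ^ q = 0) :
    hU hF e w a * tU hF f t * (hU hF e w a)⁻¹ = tU hF (f + w + a • e) t := by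
  rw [tU_conj hF hp.ff ht, hU_f hF hp hv]

theorem pv_iso (hF : Fintype.card F = q ^ 2) {e f : Fin n → F} (hp : HypPair q e f)
    {w : Fin n → F} {a : F} (hv : Val q e f w a) : ⟪f + w + a • e, f + w + a • e⟫ = 0 := by
  rw [← hU_f hF hp hv, su_pres, hp.ff]

theorem map_conj (α : MulAut (Cfsg.PSU n F q)) (x y : ↥(Cfsg.SU n F q)) :
    α (QuotientGroup.mk (x * y * x⁻¹)) =
      α (QuotientGroup.mk x) * α (QuotientGroup.mk y) * (α (QuotientGroup.mk x))⁻¹ := by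
  rw [← map_inv, ← map_mul, ← map_mul]
  rfl

theorem amul (α : MulAut (Cfsg.PSU n F q)) (x y : ↥(Cfsg.SU n F q)) :
    α (QuotientGroup.mk (x * y)) = α (QuotientGroup.mk x) * α (QuotientGroup.mk y) := by
  rw [← map_mul]
  rfl

/-- Heisenberg coordinates of an automorphism -/
structure Coord (hF : Fintype.card F = q ^ 2) (α : MulAut (Cfsg.PSU n F q))
    (e f e' f' : Fin n → F) (A : (Fin n → F) → F → (Fin n → F)) (B : (Fin n → F) → F → F)
    (T : F → F) : Prop where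
  hp : HypPair q e f
  hp' : HypPair q e' f'
  val : ∀ w a, Val q e f w a → Val q e' f' (A w a) (B w a)
  map : ∀ w a, Val q e f w a →
    α (QuotientGroup.mk (hU hF e w a)) = QuotientGroup.mk (hU hF e' (A w a) (B w a))
  zero : ∀ t : F, t + t ^ q = 0 → A 0 t = 0
  tz : ∀ c : F, c + c ^ q = 0 → T c + T c ^ q = 0
  mapT : ∀ c : F, c + c ^ q = 0 →
    α (QuotientGroup.mk (tU hF f c)) = QuotientGroup.mk (tU hF f' (T c))

section coord

variable {hF : Fintype.card F = q ^ 2} {α : MulAut (Cfsg.PSU n F q)} {e f e' f' : Fin n → F}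
  {A : (Fin n → F) → F → (Fin n → F)} {B : (Fin n → F) → F → F} {T : F → F}

theorem Coord.T_add (C : Coord hF α e f e' f' A B T) (hn : 1 ≤ n) {c d : F}
    (hc : c + c ^ q = 0) (hd : d + d ^ q = 0) : T (c + d) = T c + T d := by
  have h1 := C.mapT (c + d) (tz_add hF hc hd)
  rw [← tU_mul hF C.hp.ff hc hd, amul, C.mapT c hc, C.mapT d hd] at h1
  have h2 : (QuotientGroup.mk (tU hF f' (T c)) : Cfsg.PSU n F q) * QuotientGroup.mk (tU hF f' (T d)) =
      QuotientGroup.mk (tU hF f' (T c + T d)) := by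
    rw [← tU_mul hF C.hp'.ff (C.tz c hc) (C.tz d hd)]
    rfl
  rw [h2] at h1
  exact (tU_inj hF hn C.hp' (tz_add hF (C.tz c hc) (C.tz d hd)) (C.tz _ (tz_add hF hc hd)) h1).symm

theorem Coord.T_ne (C : Coord hF α e f e' f' A B T) (hn : 1 ≤ n) {c : F}
    (hc : c + c ^ q = 0) (hc0 : c ≠ 0) : T c ≠ 0 := by
  intro h0
  have h1 := C.mapT c hc
  rw [h0, tU_zero hF C.hp'.ff] at h1
  have h2 : (QuotientGroup.mk (tU hF f c) : Cfsg.PSU n F q) = 1 := by
    have h3 : α (QuotientGroup.mk (tU hF f c)) = α 1 := by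
      rw [h1, map_one]
      rfl
    exact α.injective h3
  exact mk_tU_ne_one hF hn (C.hp.ne' hF) C.hp.ff hc hc0 h2

theorem Coord.mapE (C : Coord hF α e f e' f' A B T) {t : F} (ht : t + t ^ q = 0) :
    B 0 t + B 0 t ^ q = 0 ∧
      α (QuotientGroup.mk (tU hF e t)) = QuotientGroup.mk (tU hF e' (B 0 t)) := by
  have hv := C.val 0 t (Val.zero hF ht)
  rw [C.zero t ht] at hv
  have h1 : B 0 t + B 0 t ^ q = 0 := by
    have h2 := hv.2.2
    rw [hf_zero_left, add_zero] at h2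
    exact h2
  refine ⟨h1, ?_⟩
  rw [tU_eq_hU hF C.hp.ee ht, tU_eq_hU hF C.hp'.ee h1, C.map 0 t (Val.zero hF ht), C.zero t ht]

theorem Coord.cocycle (C : Coord hF α e f e' f' A B T) (hn : 1 ≤ n) {w w₂ : Fin n → F}
    {a a₂ : F} (hv : Val q e f w a) (hv₂ : Val q e f w₂ a₂) :
    A (w + w₂) (a + a₂ - ⟪w₂, w⟫) = A w a + A w₂ a₂ ∧
      B (w + w₂) (a + a₂ - ⟪w₂, w⟫) = B w a + B w₂ a₂ - ⟪A w₂ a₂, A w a⟫ := by
  have h1 := C.map _ _ (hv.add hF hv₂)
  rw [← hU_mul hF C.hp.ee hv.1 hv₂.1 hv.2.2 hv₂.2.2, amul, C.map w a hv, C.map w₂ a₂ hv₂] at h1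
  have hv' := C.val w a hv
  have hv₂' := C.val w₂ a₂ hv₂
  have h2 : (QuotientGroup.mk (hU hF e' (A w a) (B w a)) : Cfsg.PSU n F q) *
      QuotientGroup.mk (hU hF e' (A w₂ a₂) (B w₂ a₂)) =
      QuotientGroup.mk (hU hF e' (A w a + A w₂ a₂) (B w a + B w₂ a₂ - ⟪A w₂ a₂, A w a⟫)) := by
    rw [← hU_mul hF C.hp'.ee hv'.1 hv₂'.1 hv'.2.2 hv₂'.2.2]
    rfl
  rw [h2] at h1
  obtain ⟨h3, h4⟩ := hU_inj hF hn C.hp' (hv'.add hF hv₂') (C.val _ _ (hv.add hF hv₂)) h1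
  exact ⟨h3.symm, h4.symm⟩

theorem Coord.shift (C : Coord hF α e f e' f' A B T) (hn : 1 ≤ n) {w : Fin n → F}
    {a t : F} (hv : Val q e f w a) (ht : t + t ^ q = 0) :
    A w (a + t) = A w a ∧ B w (a + t) = B w a + B 0 t := by
  obtain ⟨h1, h2⟩ := C.cocycle hn hv (Val.zero hF ht)
  rw [add_zero, hf_zero_left, sub_zero, C.zero t ht] at h1
  rw [add_zero, hf_zero_left, sub_zero, C.zero t ht, hf_zero_left, sub_zero] at h2
  rw [add_zero] at h1
  exact ⟨h1, h2⟩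

theorem Coord.A_indep (C : Coord hF α e f e' f' A B T) (hn : 1 ≤ n) {w : Fin n → F}
    {a b : F} (hv : Val q e f w a) (hv' : Val q e f w b) : A w a = A w b := by
  have ht : (b - a) + (b - a) ^ q = 0 := by
    rw [herm_sub_pow hF]
    linear_combination hv'.2.2 - hv.2.2
  have h1 := (C.shift hn hv ht).1
  rw [add_sub_cancel] at h1
  exact h1.symm

/-- the main functional equation -/
theorem Coord.star (C : Coord hF α e f e' f' A B T) (hn : 1 ≤ n) {w : Fin n → F} {a c : F}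
    (hv : Val q e f w a) (hc : c + c ^ q = 0) (hu : 1 + c * a ≠ 0) :
    1 + T c * B w a ≠ 0 ∧
      A ((1 + c * a)⁻¹ • w) ((1 + c * a)⁻¹ * a) = (1 + T c * B w a)⁻¹ • A w a ∧
      B ((1 + c * a)⁻¹ • w) ((1 + c * a)⁻¹ * a) = (1 + T c * B w a)⁻¹ * B w a := by
  obtain ⟨t, ht0, ht⟩ := exists_tz_ne_zero hF
  have hv2 := hv.scale hF hc hu
  have hv' := C.val w a hv
  have hv2' := C.val _ _ hv2
  have hc' := C.tz c hc
  have ht' := C.tz t ht
  have hN : (1 + c * a) ^ (q + 1) * t + ((1 + c * a) ^ (q + 1) * t) ^ q = 0 :=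
    tz_norm_mul hF ht _
  have hN' := C.tz _ hN
  have e1 : (1 + c * a) • (f + (1 + c * a)⁻¹ • w + ((1 + c * a)⁻¹ * a) • e) =
      (1 + c * a) • f + w + a • e := by
    rw [smul_add, smul_add, smul_smul, smul_smul, ← mul_assoc, mul_inv_cancel₀ hu, one_smul,
      one_mul]
  have S1 : (tU hF f c * hU hF e w a) * tU hF f t * (tU hF f c * hU hF e w a)⁻¹ =
      hU hF e ((1 + c * a)⁻¹ • w) ((1 + c * a)⁻¹ * a) * tU hF f ((1 + c * a) ^ (q + 1) * t) *
        (hU hF e ((1 + c * a)⁻¹ • w) ((1 + c * a)⁻¹ * a))⁻¹ := by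
    rw [conj_pair hF C.hp hv hc ht, conj_single hF C.hp hv2 hN,
      ← tU_smul hF (pv_iso hF C.hp hv2) ht (1 + c * a), e1]
  have hL : α (QuotientGroup.mk ((tU hF f c * hU hF e w a) * tU hF f t *
      (tU hF f c * hU hF e w a)⁻¹)) =
      QuotientGroup.mk (tU hF ((1 + T c * B w a) • f' + A w a + B w a • e') (T t)) := by
    rw [← conj_pair hF C.hp' hv' hc' ht', map_conj, amul, C.mapT c hc, C.map w a hv, C.mapT t ht]
    rfl
  have hR : α (QuotientGroup.mk (hU hF e ((1 + c * a)⁻¹ • w) ((1 + c * a)⁻¹ * a) *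
      tU hF f ((1 + c * a) ^ (q + 1) * t) *
        (hU hF e ((1 + c * a)⁻¹ • w) ((1 + c * a)⁻¹ * a))⁻¹)) =
      QuotientGroup.mk (tU hF (f' + A ((1 + c * a)⁻¹ • w) ((1 + c * a)⁻¹ * a) +
        B ((1 + c * a)⁻¹ • w) ((1 + c * a)⁻¹ * a) • e') (T ((1 + c * a) ^ (q + 1) * t))) := by
    rw [← conj_single hF C.hp' hv2' hN', map_conj, C.map _ _ hv2, C.mapT _ hN]
    rfl
  rw [S1, hR] at hL
  have hvec : (1 + T c * B w a) • f' + A w a + B w a • e' =
      suM (tU hF f' (T c) * hU hF e' (A w a) (B w a)) *ᵥ f' := (pair_f hF C.hp' hv' hc').symm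
  obtain ⟨l, hl0, hl⟩ := center_of_mk_eq hF hn
    (by rw [hvec]; exact su_ne_zero _ (C.hp'.ne' hF))
    (by rw [hvec, su_pres]; exact C.hp'.ff) (pv_iso hF C.hp' hv2') ht' hN' (C.T_ne hn ht ht0)
    hL.symm
  have hl' : (1 + T c * B w a) • f' + A w a + B w a • e' =
      l • f' + l • A ((1 + c * a)⁻¹ • w) ((1 + c * a)⁻¹ * a) +
        (l * B ((1 + c * a)⁻¹ • w) ((1 + c * a)⁻¹ * a)) • e' := by
    rw [hl]
    module
  obtain ⟨h1, h2, h3⟩ := decomp_unique hF C.hp' hv'.1 hv'.2.1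
    (by rw [hf_smul_left, hv2'.1, mul_zero]) (by rw [hf_smul_left, hv2'.2.1, mul_zero]) hl'
  refine ⟨by rw [h1]; exact hl0, ?_, ?_⟩
  · rw [h1, h2, smul_smul, inv_mul_cancel₀ hl0, one_smul]
  · rw [h1, h3, ← mul_assoc, inv_mul_cancel₀ hl0, one_mul]

/-- coordinates of the inverse automorphism invert the coordinates -/
theorem Coord.inv {A' : (Fin n → F) → F → (Fin n → F)} {B' : (Fin n → F) → F → F} {T' : F → F}
    (C : Coord hF α e f e' f' A B T) (C' : Coord hF α⁻¹ e' f' e f A' B' T') (hn : 1 ≤ n)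
    {w : Fin n → F} {a : F} (hv : Val q e f w a) :
    A' (A w a) (B w a) = w ∧ B' (A w a) (B w a) = a := by
  have hv' := C.val w a hv
  have h1 := C'.map _ _ hv'
  rw [← C.map w a hv] at h1
  have h2 : α⁻¹ (α (QuotientGroup.mk (hU hF e w a))) = QuotientGroup.mk (hU hF e w a) :=
    MulAut.inv_apply_self _ α _
  rw [h2] at h1
  obtain ⟨h3, h4⟩ := hU_inj hF hn C.hp hv (C'.val _ _ hv') h1
  exact ⟨h3.symm, h4.symm⟩

end coord

end Cfsg.Agent.Lib.Helper53.AutPSU
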