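import Mathlib
import Cfsg.Agent.Lib.Helper53.SUCoord

/-!
# The first Heisenberg coordinate preserves lines (helper53)

`A0 hF A w` is the first coordinate as a function of the vector `w` of the complement of the
hyperbolic pair. It is additive, injective, and maps the multiples of `w` to multiples of
its value at `w`.
-/

set_option autoImplicit false
set_option linter.unusedSectionVars false
set_option linter.unusedVariables false

namespace Cfsg.Agent.Lib.Helper53.AutPSU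

open Matrix Cfsg.Agent.Lib.Helper7 Cfsg.Agent.Lib.Helper18 Cfsg.Agent.Lib.Helper87

variable {F : Type*} [Field F] [Fintype F] {q n : ℕ}

local notation "⟪" x ", " y "⟫" => Cfsg.hermForm n F q x y

/-- a valid second coordinate -/
noncomputable def av (hF : Fintype.card F = q ^ 2) (w : Fin n → F) : F :=
  Classical.choose (exists_val hF w)

theorem av_spec (hF : Fintype.card F = q ^ 2) (w : Fin n → F) :
    av hF w + av hF w ^ q + ⟪w, w⟫ = 0 := Classical.choose_spec (exists_val hF w)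

theorem val_av (hF : Fintype.card F = q ^ 2) {e f w : Fin n → F} (hwe : ⟪w, e⟫ = 0)
    (hwf : ⟪w, f⟫ = 0) : Val q e f w (av hF w) := ⟨hwe, hwf, av_spec hF w⟩

/-- the first coordinate as a function of the vector -/
noncomputable def A0 (hF : Fintype.card F = q ^ 2) (A : (Fin n → F) → F → (Fin n → F))
    (w : Fin n → F) : Fin n → F := A w (av hF w)

theorem pj_self_e {e f : Fin n → F} (hp : HypPair q e f) : pj q e f e = 0 := by
  unfold pj
  rw [hp.ef, hp.ee, one_smul, zero_smul, sub_self, sub_zero]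

theorem tU_image_ne (hF : Fintype.card F = q ^ 2) (hn : 1 ≤ n) (α : MulAut (Cfsg.PSU n F q))
    {v v' : Fin n → F} {c c' : F} (hv : v ≠ 0) (hvv : ⟪v, v⟫ = 0) (hc : c + c ^ q = 0)
    (hc0 : c ≠ 0) (hv'v' : ⟪v', v'⟫ = 0)
    (h : α (QuotientGroup.mk (tU hF v c)) = QuotientGroup.mk (tU hF v' c')) : c' ≠ 0 := by
  rintro rfl
  rw [tU_zero hF hv'v'] at h
  have h2 : (QuotientGroup.mk (tU hF v c) : Cfsg.PSU n F q) = 1 := by
    have h3 : α (QuotientGroup.mk (tU hF v c)) = α 1 := by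
      rw [h, map_one]
      rfl
    exact α.injective h3
  exact mk_tU_ne_one hF hn hv hvv hc hc0 h2

section coord

variable {hF : Fintype.card F = q ^ 2} {α : MulAut (Cfsg.PSU n F q)} {e f e' f' : Fin n → F}
  {A : (Fin n → F) → F → (Fin n → F)} {B : (Fin n → F) → F → F} {T : F → F}
  {A' : (Fin n → F) → F → (Fin n → F)} {B' : (Fin n → F) → F → F} {T' : F → F}

theorem Coord.A0_eq (C : Coord hF α e f e' f' A B T) (hn : 1 ≤ n) {w : Fin n → F} {a : F}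
    (hv : Val q e f w a) : A w a = A0 hF A w :=
  C.A_indep hn hv (val_av hF hv.1 hv.2.1)

theorem Coord.A0_perp (C : Coord hF α e f e' f' A B T) {w : Fin n → F} (hwe : ⟪w, e⟫ = 0)
    (hwf : ⟪w, f⟫ = 0) : ⟪A0 hF A w, e'⟫ = 0 ∧ ⟪A0 hF A w, f'⟫ = 0 :=
  ⟨(C.val _ _ (val_av hF hwe hwf)).1, (C.val _ _ (val_av hF hwe hwf)).2.1⟩

theorem Coord.A0_add (C : Coord hF α e f e' f' A B T) (hn : 1 ≤ n) {w w₂ : Fin n → F}
    (hwe : ⟪w, e⟫ = 0) (hwf : ⟪w, f⟫ = 0) (hwe₂ : ⟪w₂, e⟫ = 0) (hwf₂ : ⟪w₂, f⟫ = 0) :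
    A0 hF A (w + w₂) = A0 hF A w + A0 hF A w₂ := by
  have hv := val_av hF hwe hwf
  have hv₂ := val_av hF hwe₂ hwf₂
  have h1 := (C.cocycle hn hv hv₂).1
  rw [C.A0_eq hn (hv.add hF hv₂)] at h1
  exact h1

theorem Coord.A0_zero (C : Coord hF α e f e' f' A B T) : A0 hF A 0 = 0 := by
  have h1 := av_spec hF (0 : Fin n → F)
  rw [hf_zero_left, add_zero] at h1
  exact C.zero _ h1

theorem Coord.A0_inv (C : Coord hF α e f e' f' A B T) (C' : Coord hF α⁻¹ e' f' e f A' B' T')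
    (hn : 1 ≤ n) {w : Fin n → F} (hwe : ⟪w, e⟫ = 0) (hwf : ⟪w, f⟫ = 0) :
    A0 hF A' (A0 hF A w) = w := by
  have hv := val_av hF hwe hwf
  have h1 := (C.inv C' hn hv).1
  rw [C'.A0_eq hn (C.val _ _ hv)] at h1
  exact h1

theorem Coord.A0_inj (C : Coord hF α e f e' f' A B T) (C' : Coord hF α⁻¹ e' f' e f A' B' T')
    (hn : 1 ≤ n) {w : Fin n → F} (hwe : ⟪w, e⟫ = 0) (hwf : ⟪w, f⟫ = 0)
    (h : A0 hF A w = 0) : w = 0 := by
  have h1 := C.A0_inv C' hn hwe hwf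
  rw [h, C'.A0_zero] at h1
  exact h1.symm

theorem Coord.line_aniso_aux (C : Coord hF α e f e' f' A B T) (hn : 1 ≤ n) {w : Fin n → F}
    (hwe : ⟪w, e⟫ = 0) (hwf : ⟪w, f⟫ = 0) (hww : ⟪w, w⟫ ≠ 0) {x : F} (hx : x ^ q ≠ x) :
    ∃ y : F, A0 hF A (x • w) = y • A0 hF A w := by
  have hx0 : x ≠ 0 := by
    rintro rfl
    exact hx (zero_pow (herm_q_ne_zero hF))
  have hhq : ⟪w, w⟫ ^ q = ⟪w, w⟫ := hf_self_pow hF n w
  obtain ⟨y, hy⟩ : ∃ y : F, y = x⁻¹ - 1 := ⟨_, rfl⟩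
  have hyq : y ^ q ≠ y := by
    intro h0
    apply hx
    rw [hy, herm_sub_pow hF, one_pow, inv_pow] at h0
    have h1 : (x ^ q)⁻¹ = x⁻¹ := by linear_combination h0
    exact inv_injective h1
  obtain ⟨c, hc⟩ : ∃ c : F, c = (y ^ q - y) / ⟪w, w⟫ := ⟨_, rfl⟩
  have hc0 : c ≠ 0 := by
    rw [hc]
    exact div_ne_zero (sub_ne_zero.2 hyq) hww
  have hch : c * ⟪w, w⟫ = y ^ q - y := by
    rw [hc, div_mul_cancel₀ _ hww]
  have hctz : c + c ^ q = 0 := by
    have h1 : c ^ q * ⟪w, w⟫ = y - y ^ q := by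
      have h2 := congrArg (fun z => z ^ q) hch
      simp only [mul_pow, hhq, herm_sub_pow hF, herm_pow_pow hF] at h2
      exact h2
    have h3 : (c + c ^ q) * ⟪w, w⟫ = 0 := by linear_combination hch + h1
    rcases mul_eq_zero.1 h3 with h4 | h4
    · exact h4
    · exact absurd h4 hww
  have hcq : c ^ q = -c := by linear_combination hctz
  obtain ⟨a, ha⟩ : ∃ a : F, a = y / c := ⟨_, rfl⟩
  have hca : c * a = y := by rw [ha, mul_div_cancel₀ _ hc0]
  have hval : a + a ^ q + ⟪w, w⟫ = 0 := by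
    have h1 : c * (a + a ^ q + ⟪w, w⟫) = 0 := by
      have h2 : c * a ^ q = -y ^ q := by
        have h3 := congrArg (fun z => z ^ q) hca
        simp only [mul_pow, hcq] at h3
        linear_combination -h3
      linear_combination hca + h2 + hch
    rcases mul_eq_zero.1 h1 with h4 | h4
    · exact absurd h4 hc0
    · exact h4
  have hu : 1 + c * a = x⁻¹ := by
    rw [hca, hy]
    ring
  have hv : Val q e f w a := ⟨hwe, hwf, hval⟩
  have hu0 : 1 + c * a ≠ 0 := by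
    rw [hu]
    exact inv_ne_zero hx0
  obtain ⟨hm, hA, -⟩ := C.star hn hv hctz hu0
  have hv2 := hv.scale hF hctz hu0
  rw [hu, inv_inv] at hA hv2
  exact ⟨(1 + T c * B w a)⁻¹, by rw [← C.A0_eq hn hv2, ← C.A0_eq hn hv, hA]⟩

/-- multiples of an anisotropic vector -/
theorem Coord.line_aniso (C : Coord hF α e f e' f' A B T) (hn : 1 ≤ n) {w : Fin n → F}
    (hwe : ⟪w, e⟫ = 0) (hwf : ⟪w, f⟫ = 0) (hww : ⟪w, w⟫ ≠ 0) (x : F) :
    ∃ y : F, A0 hF A (x • w) = y • A0 hF A w := by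
  by_cases hx : x ^ q = x
  · by_cases hx0 : x = 0
    · exact ⟨0, by rw [hx0, zero_smul, zero_smul, C.A0_zero]⟩
    · obtain ⟨θ, hθ⟩ := exists_not_fixed' hF
      have hθ0 : θ ≠ 0 := by
        rintro rfl
        exact hθ (zero_pow (herm_q_ne_zero hF))
      have h1 : (x / θ) ^ q ≠ x / θ := by
        intro h0
        apply hθ
        rw [div_pow, hx] at h0
        field_simp at h0
        exact h0.symm
      have hxθ : x / θ ≠ 0 := div_ne_zero hx0 hθ0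
      have hw2 : ⟪(x / θ) • w, (x / θ) • w⟫ ≠ 0 := by
        rw [hf_smul_left, hf_smul_right]
        exact mul_ne_zero hxθ (mul_ne_zero (pow_ne_zero q hxθ) hww)
      obtain ⟨y₂, hy₂⟩ := C.line_aniso_aux hn hwe hwf hww h1
      obtain ⟨y₁, hy₁⟩ := C.line_aniso_aux hn (w := (x / θ) • w)
        (by rw [hf_smul_left, hwe, mul_zero]) (by rw [hf_smul_left, hwf, mul_zero]) hw2 hθ
      refine ⟨y₁ * y₂, ?_⟩
      rw [← smul_smul, ← hy₂, ← hy₁, smul_smul, mul_div_cancel₀ x hθ0]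
  · exact C.line_aniso_aux hn hwe hwf hww hx

theorem Coord.line_iso_aux (C : Coord hF α e f e' f' A B T) (C' : Coord hF α⁻¹ e' f' e f A' B' T')
    (hn : 2 ≤ n) {p : ℕ} [Fact p.Prime] [CharP F p] {v : Fin n → F} (hv0 : v ≠ 0)
    (hve : ⟪v, e⟫ = 0) (hvf : ⟪v, f⟫ = 0) (hvv : ⟪v, v⟫ = 0) :
    ∃ z : Fin n → F, ∀ x : F, ∃ s : F, A0 hF A (x • v) = s • z := by
  obtain ⟨v', hv'0, hv'v', hT, hTs, hQ, -⟩ := aut_good (p := p) hF hn α hv0 hvv
  obtain ⟨c₀, hc₀0, hc₀⟩ := exists_tz_ne_zero hF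
  obtain ⟨c₁, hc₁, h1⟩ := hT c₀ hc₀
  have hc₁0 : c₁ ≠ 0 := tU_image_ne hF (by omega) α hv0 hvv hc₀ hc₀0 hv'v' h1
  have hv'e' : ⟪v', e'⟫ = 0 := by
    obtain ⟨hb, h2⟩ := C.mapE hc₀
    have hb0 : B 0 c₀ ≠ 0 := tU_image_ne hF (by omega) α C.hp.ne C.hp.ee hc₀ hc₀0 C.hp'.ee h2
    have hcomm : (QuotientGroup.mk (tU hF v c₀) : Cfsg.PSU n F q) * QuotientGroup.mk (tU hF e c₀) =
        QuotientGroup.mk (tU hF e c₀) * QuotientGroup.mk (tU hF v c₀) := by
      show (QuotientGroup.mk (tU hF v c₀ * tU hF e c₀) : Cfsg.PSU n F q) =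
        QuotientGroup.mk (tU hF e c₀ * tU hF v c₀)
      rw [tU_comm hF hvv C.hp.ee hve hc₀ hc₀]
    have h3 := congrArg α hcomm
    rw [map_mul, map_mul, h1, h2] at h3
    exact perp_of_comm hF (by omega) hv'v' C.hp'.ee hc₁ hb hc₁0 hb0 h3
  have hnpar : ¬ ∃ l : F, v' = l • e' := by
    rintro ⟨l, hl⟩
    obtain ⟨hb', h2⟩ := C'.mapE (tz_norm_mul hF hc₁ l)
    have h3 : (QuotientGroup.mk (tU hF v c₀) : Cfsg.PSU n F q) =
        QuotientGroup.mk (tU hF e (B' 0 (l ^ (q + 1) * c₁))) := by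
      rw [← h2, ← tU_smul hF C.hp'.ee hc₁ l, ← hl, ← h1]
      exact (MulAut.inv_apply_self _ α _).symm
    obtain ⟨l', hl'0, hl'⟩ := center_of_mk_eq hF (by omega) hv0 hvv C.hp.ee hc₀ hb' hc₀0 h3
    rw [hl', hf_smul_left, C.hp.ef, mul_one] at hvf
    exact hl'0 hvf
  have he'span : e' ∉ Submodule.span F {v'} := by
    intro hmem
    obtain ⟨l, hl⟩ := Submodule.mem_span_singleton.1 hmem
    apply hnpar
    have hl0 : l ≠ 0 := by
      rintro rfl
      rw [zero_smul] at hl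
      exact C.hp'.ne hl.symm
    exact ⟨l⁻¹, by rw [← hl, smul_smul, inv_mul_cancel₀ hl0, one_smul]⟩
  obtain ⟨y₀, hy1, hy2⟩ := exists_perp_not hF (Submodule.span F {v'}) e' he'span
  have hy₀v' : ⟪y₀, v'⟫ = 0 :=
    hf_eq_zero_symm hF n _ _ (hy1 v' (Submodule.mem_span_singleton_self v'))
  have hy₀e' : ⟪y₀, e'⟫ ≠ 0 := fun h0 => hy2 (hf_eq_zero_symm hF n _ _ h0)
  refine ⟨pj q e' f' v', fun x => ?_⟩
  have hval : Val q e f (x • v) 0 :=
    ⟨by rw [hf_smul_left, hve, mul_zero], by rw [hf_smul_left, hvf, mul_zero], by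
      rw [zero_pow (herm_q_ne_zero hF), add_zero, zero_add, hf_smul_left, hf_smul_right, hvv,
        mul_zero, mul_zero]⟩
  have hmemQ : hU hF e (x • v) 0 ∈ QU q v := by
    refine ⟨?_, fun y hy => ⟨x * ⟪y, e⟫, ?_⟩⟩
    · rw [hU_mulVec hF C.hp.ee hval.1 hval.2.2, hve, hf_smul_right, hvv, zero_smul, add_zero,
        mul_zero, mul_zero, sub_zero, zero_smul, add_zero]
    · rw [hU_mulVec hF C.hp.ee hval.1 hval.2.2, hf_smul_right, hy, mul_zero, zero_mul, sub_zero,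
        zero_smul, add_zero, smul_smul, mul_comm]
  obtain ⟨g', hg', h2⟩ := hQ _ hmemQ
  have h3 := C.map _ _ hval
  have hv2' := C.val _ _ hval
  obtain ⟨ζ, hζ⟩ := pe_of_mk_eq hF (by omega) (h3.symm.trans h2)
  have hζ1 : ζ = 1 := by
    have h4 := hζ v'
    rw [hU_mulVec hF C.hp'.ee hv2'.1 hv2'.2.2, hv'e', hg'.1] at h4
    by_contra hne
    apply hnpar
    refine ⟨(1 - ζ)⁻¹ * ⟪v', A (x • v) 0⟫, ?_⟩
    have h5 : (1 - ζ) • v' = ⟪v', A (x • v) 0⟫ • e' := by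
      linear_combination (norm := module) h4
    rw [← smul_smul, ← h5, smul_smul, inv_mul_cancel₀ (sub_ne_zero.2 (Ne.symm hne)), one_smul]
  obtain ⟨μ, hμ⟩ := hg'.2 y₀ hy₀v'
  have h4 := hζ y₀
  rw [hζ1, one_smul, hμ, hU_mulVec hF C.hp'.ee hv2'.1 hv2'.2.2, add_assoc] at h4
  have h5 := congrArg (pj q e' f') (add_left_cancel h4)
  rw [pj_add, pj_smul, pj_smul, pj_smul, pj_of_perp hv2'.1 hv2'.2.1, pj_self_e C.hp', smul_zero,
    add_zero] at h5
  refine ⟨⟪y₀, e'⟫⁻¹ * μ, ?_⟩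
  rw [← C.A0_eq (by omega) hval, ← smul_smul, ← h5, smul_smul, inv_mul_cancel₀ hy₀e', one_smul]

/-- multiples of an isotropic vector -/
theorem Coord.line_iso (C : Coord hF α e f e' f' A B T) (C' : Coord hF α⁻¹ e' f' e f A' B' T')
    (hn : 2 ≤ n) {p : ℕ} [Fact p.Prime] [CharP F p] {v : Fin n → F}
    (hve : ⟪v, e⟫ = 0) (hvf : ⟪v, f⟫ = 0) (hvv : ⟪v, v⟫ = 0) (x : F) :
    ∃ y : F, A0 hF A (x • v) = y • A0 hF A v := by
  by_cases hv0 : v = 0
  · exact ⟨1, by rw [hv0, smul_zero, one_smul]⟩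
  · obtain ⟨z, hz⟩ := C.line_iso_aux C' (p := p) hn hv0 hve hvf hvv
    obtain ⟨s₁, hs₁⟩ := hz 1
    rw [one_smul] at hs₁
    have hs₁0 : s₁ ≠ 0 := by
      rintro rfl
      rw [zero_smul] at hs₁
      exact hv0 (C.A0_inj C' (by omega) hve hvf hs₁)
    obtain ⟨s, hs⟩ := hz x
    refine ⟨s * s₁⁻¹, ?_⟩
    rw [hs, hs₁, smul_smul, mul_assoc, inv_mul_cancel₀ hs₁0, mul_one]

/-- the first coordinate preserves lines -/
theorem Coord.line (C : Coord hF α e f e' f' A B T) (C' : Coord hF α⁻¹ e' f' e f A' B' T')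
    (hn : 2 ≤ n) {p : ℕ} [Fact p.Prime] [CharP F p] {w : Fin n → F}
    (hwe : ⟪w, e⟫ = 0) (hwf : ⟪w, f⟫ = 0) (x : F) :
    ∃ y : F, A0 hF A (x • w) = y • A0 hF A w := by
  by_cases hww : ⟪w, w⟫ = 0
  · exact C.line_iso C' (p := p) hn hwe hwf hww x
  · exact C.line_aniso (by omega) hwe hwf hww x

end coord

end Cfsg.Agent.Lib.Helper53.AutPSU
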