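import Mathlib
import Cfsg.Agent.Lib.Helper53.SULines

/-!
# Semilinearity of the first Heisenberg coordinate (helper53)

An additive map preserving lines on a space of dimension at least two is semilinear; in
dimension one (`n = 3`) we use the torus normalising the two transvection groups.
-/

set_option autoImplicit false
set_option linter.unusedSectionVars false
set_option linter.unusedVariables false

namespace Cfsg.Agent.Lib.Helper53.AutPSU

open Matrix Cfsg.Agent.Lib.Helper7 Cfsg.Agent.Lib.Helper18 Cfsg.Agent.Lib.Helper87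

/-! ### Abstract semilinearity -/

section abstract

variable {K V V' : Type*} [Field K] [AddCommGroup V] [Module K V] [AddCommGroup V'] [Module K V']

theorem ringHom_of_scalar (S : Submodule K V) (g : V → V')
    (hadd : ∀ u ∈ S, ∀ v ∈ S, g (u + v) = g u + g v) (σ : K → K)
    (hσ : ∀ u ∈ S, ∀ x : K, g (x • u) = σ x • g u) {u₀ : V} (hu₀ : u₀ ∈ S) (hgu₀ : g u₀ ≠ 0) :
    ∃ σ' : K →+* K, ∀ x, σ' x = σ x := by
  have hg0 : g 0 = 0 := by
    have h1 := hadd 0 S.zero_mem 0 S.zero_mem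
    rw [add_zero] at h1
    exact left_eq_add.1 h1
  have hinj : ∀ a b : K, a • g u₀ = b • g u₀ → a = b := fun a b h =>
    smul_left_injective K hgu₀ h
  have h1 : σ 1 = 1 := by
    apply hinj
    rw [← hσ u₀ hu₀ 1, one_smul, one_smul]
  have h0 : σ 0 = 0 := by
    apply hinj
    rw [← hσ u₀ hu₀ 0, zero_smul, zero_smul, hg0]
  have hmul : ∀ x y, σ (x * y) = σ x * σ y := by
    intro x y
    apply hinj
    rw [← hσ u₀ hu₀ (x * y), ← smul_smul, hσ _ (S.smul_mem y hu₀) x, hσ u₀ hu₀ y, smul_smul]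
  have hadd' : ∀ x y, σ (x + y) = σ x + σ y := by
    intro x y
    apply hinj
    rw [← hσ u₀ hu₀ (x + y), add_smul, hadd _ (S.smul_mem x hu₀) _ (S.smul_mem y hu₀),
      hσ u₀ hu₀ x, hσ u₀ hu₀ y, add_smul]
  exact ⟨{ toFun := σ, map_one' := h1, map_mul' := hmul, map_zero' := h0, map_add' := hadd' },
    fun x => rfl⟩

theorem semilinear_of_lines (S : Submodule K V) (g : V → V')
    (hadd : ∀ u ∈ S, ∀ v ∈ S, g (u + v) = g u + g v)
    (hlin : ∀ u ∈ S, ∀ x : K, ∃ y : K, g (x • u) = y • g u)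
    (hinj : ∀ u ∈ S, g u = 0 → u = 0)
    (hind : ∀ u ∈ S, ∀ v ∈ S, u ≠ 0 → (∃ y : K, g v = y • g u) → ∃ y : K, v = y • u)
    (htwo : ∃ u ∈ S, ∃ v ∈ S, u ≠ 0 ∧ ¬ ∃ y : K, v = y • u) :
    ∃ σ : K →+* K, ∀ u ∈ S, ∀ x : K, g (x • u) = σ x • g u := by
  classical
  choose! τ hτ using hlin
  have hg0 : g 0 = 0 := by
    have h1 := hadd 0 S.zero_mem 0 S.zero_mem
    rw [add_zero] at h1
    exact left_eq_add.1 h1
  have key1 : ∀ u ∈ S, ∀ v ∈ S, u ≠ 0 → (¬ ∃ y : K, v = y • u) → ∀ x, τ u x = τ v x := by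
    intro u hu v hv hu0 hnv x
    have hgu : g u ≠ 0 := fun h => hu0 (hinj u hu h)
    have h1 := hτ (u + v) (S.add_mem hu hv) x
    rw [smul_add, hadd _ (S.smul_mem x hu) _ (S.smul_mem x hv), hτ u hu x, hτ v hv x,
      hadd u hu v hv, smul_add] at h1
    have h2 : (τ v x - τ (u + v) x) • g v = (τ (u + v) x - τ u x) • g u := by
      linear_combination (norm := module) h1
    by_cases h3 : τ v x = τ (u + v) x
    · rw [h3, sub_self, zero_smul] at h2
      have h4 : τ (u + v) x - τ u x = 0 := by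
        rcases smul_eq_zero.1 h2.symm with h | h
        · exact h
        · exact absurd h hgu
      rw [h3]
      exact (sub_eq_zero.1 h4).symm
    · exfalso
      apply hnv
      apply hind u hu v hv hu0
      refine ⟨(τ v x - τ (u + v) x)⁻¹ * (τ (u + v) x - τ u x), ?_⟩
      rw [← smul_smul, ← h2, smul_smul, inv_mul_cancel₀ (sub_ne_zero.2 h3), one_smul]
  obtain ⟨u₀, hu₀, v₀, hv₀, hu₀0, hnv₀⟩ := htwo
  have key2 : ∀ u ∈ S, u ≠ 0 → ∀ x, τ u x = τ u₀ x := by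
    intro u hu hu0 x
    by_cases h1 : ∃ y : K, u = y • u₀
    · obtain ⟨y, hy⟩ := h1
      have h2 : ¬ ∃ z : K, v₀ = z • u := by
        rintro ⟨z, hz⟩
        exact hnv₀ ⟨z * y, by rw [hz, hy, smul_smul]⟩
      rw [key1 u hu v₀ hv₀ hu0 h2 x, ← key1 u₀ hu₀ v₀ hv₀ hu₀0 hnv₀ x]
    · exact (key1 u₀ hu₀ u hu hu₀0 h1 x).symm
  have hσ : ∀ u ∈ S, ∀ x : K, g (x • u) = τ u₀ x • g u := by
    intro u hu x
    by_cases hu0 : u = 0
    · rw [hu0, smul_zero, hg0, smul_zero]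
    · rw [hτ u hu x, key2 u hu hu0 x]
  obtain ⟨σ', hσ'⟩ := ringHom_of_scalar S g hadd (τ u₀) hσ hu₀ (fun h => hu₀0 (hinj u₀ hu₀ h))
  exact ⟨σ', fun u hu x => by rw [hσ' x]; exact hσ u hu x⟩

end abstract

variable {F : Type*} [Field F] [Fintype F] {q n : ℕ}

local notation "⟪" x ", " y "⟫" => Cfsg.hermForm n F q x y

/-! ### The complement of a hyperbolic pair -/

/-- the complement of a hyperbolic pair -/
def Wsub (hF : Fintype.card F = q ^ 2) (e f : Fin n → F) : Submodule F (Fin n → F) where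
  carrier := {w | Cfsg.hermForm n F q w e = 0 ∧ Cfsg.hermForm n F q w f = 0}
  add_mem' := fun {a b} ha hb =>
    ⟨by rw [hf_add_left, ha.1, hb.1, add_zero], by rw [hf_add_left, ha.2, hb.2, add_zero]⟩
  zero_mem' := ⟨hf_zero_left n e, hf_zero_left n f⟩
  smul_mem' := fun c x hx =>
    ⟨by rw [hf_smul_left, hx.1, mul_zero], by rw [hf_smul_left, hx.2, mul_zero]⟩

theorem mem_Wsub (hF : Fintype.card F = q ^ 2) {e f w : Fin n → F} :
    w ∈ Wsub hF e f ↔ ⟪w, e⟫ = 0 ∧ ⟪w, f⟫ = 0 := Iff.rfl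

/-- the linear form `x ↦ h(x, v)` -/
def hlin (q : ℕ) (v : Fin n → F) : (Fin n → F) →ₗ[F] F where
  toFun x := Cfsg.hermForm n F q x v
  map_add' x y := hf_add_left n x y v
  map_smul' c x := by
    rw [hf_smul_left]
    rfl

theorem exists_perp2 (hn : 3 ≤ n) (a b : Fin n → F) :
    ∃ z : Fin n → F, z ≠ 0 ∧ ⟪z, a⟫ = 0 ∧ ⟪z, b⟫ = 0 := by
  obtain ⟨φ, hφ⟩ : ∃ φ : (Fin n → F) →ₗ[F] (Fin 2 → F),
      φ = LinearMap.pi ![hlin q a, hlin q b] := ⟨_, rfl⟩
  have hlt : Module.finrank F (Fin 2 → F) < Module.finrank F (Fin n → F) := by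
    rw [Module.finrank_fin_fun, Module.finrank_fin_fun]
    omega
  obtain ⟨z, hz, hz0⟩ := Submodule.exists_mem_ne_zero_of_ne_bot
    (LinearMap.ker_ne_bot_of_finrank_lt (f := φ) hlt)
  have hz' : φ z = 0 := LinearMap.mem_ker.1 hz
  rw [hφ] at hz'
  exact ⟨z, hz0, congrFun hz' 0, congrFun hz' 1⟩

theorem exists_perp3 (hn : 4 ≤ n) (a b c : Fin n → F) :
    ∃ z : Fin n → F, z ≠ 0 ∧ ⟪z, a⟫ = 0 ∧ ⟪z, b⟫ = 0 ∧ ⟪z, c⟫ = 0 := by
  obtain ⟨φ, hφ⟩ : ∃ φ : (Fin n → F) →ₗ[F] (Fin 3 → F),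
      φ = LinearMap.pi ![hlin q a, hlin q b, hlin q c] := ⟨_, rfl⟩
  have hlt : Module.finrank F (Fin 3 → F) < Module.finrank F (Fin n → F) := by
    rw [Module.finrank_fin_fun, Module.finrank_fin_fun]
    omega
  obtain ⟨z, hz, hz0⟩ := Submodule.exists_mem_ne_zero_of_ne_bot
    (LinearMap.ker_ne_bot_of_finrank_lt (f := φ) hlt)
  have hz' : φ z = 0 := LinearMap.mem_ker.1 hz
  rw [hφ] at hz'
  exact ⟨z, hz0, congrFun hz' 0, congrFun hz' 1, congrFun hz' 2⟩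

/-- for `n ≥ 4` the complement of a hyperbolic pair contains two independent vectors -/
theorem exists_two (hF : Fintype.card F = q ^ 2) (hn : 4 ≤ n) {e f : Fin n → F}
    (hp : HypPair q e f) :
    ∃ u ∈ Wsub hF e f, ∃ v ∈ Wsub hF e f, u ≠ 0 ∧ ¬ ∃ y : F, v = y • u := by
  obtain ⟨z, hz0, hze, hzf⟩ := exists_perp2 (q := q) (by omega : 3 ≤ n) e f
  by_cases hzz : ⟪z, z⟫ = 0
  · obtain ⟨v, hvv, hve, hvf, hzv⟩ := exists_partner_W hF hp hz0 hzz hze hzf
    refine ⟨z, ⟨hze, hzf⟩, v, ⟨hve, hvf⟩, hz0, ?_⟩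
    rintro ⟨y, hy⟩
    rw [hy, hf_smul_right, hzz, mul_zero] at hzv
    exact zero_ne_one hzv
  · obtain ⟨v, hv0, hve, hvf, hvz⟩ := exists_perp3 (q := q) hn e f z
    refine ⟨z, ⟨hze, hzf⟩, v, ⟨hve, hvf⟩, hz0, ?_⟩
    rintro ⟨y, hy⟩
    rw [hy, hf_smul_left] at hvz
    rcases mul_eq_zero.1 hvz with h | h
    · rw [h, zero_smul] at hy
      exact hv0 hy
    · exact hzz h

/-! ### The torus for `n = 3` -/

theorem pj_self_f (hF : Fintype.card F = q ^ 2) {e f : Fin n → F} (hp : HypPair q e f) :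
    pj q e f f = 0 := by
  unfold pj
  rw [hp.ff, hp.fe hF, one_smul, zero_smul, sub_zero, sub_self]

theorem tor_det (hF : Fintype.card F = q ^ 2) {e f : Fin 3 → F} (hp : HypPair q e f)
    (a b c : F) (hc : c ≠ 0) :
    (c • (1 : Matrix (Fin 3) (Fin 3) F) + (a - c) • hrk q 3 e f + (b - c) • hrk q 3 f e).det =
      a * b * c := by
  obtain ⟨U, hU⟩ : ∃ U : Matrix (Fin 3) (Fin 2) F, U = Matrix.of (fun i j => ![e i, f i] j) :=
    ⟨_, rfl⟩
  obtain ⟨L, hL⟩ : ∃ L : Matrix (Fin 2) (Fin 3) F,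
      L = Matrix.of (fun i j => ![(a / c - 1) * f j ^ q, (b / c - 1) * e j ^ q] i) := ⟨_, rfl⟩
  have h1 : c • (1 : Matrix (Fin 3) (Fin 3) F) + (a - c) • hrk q 3 e f + (b - c) • hrk q 3 f e =
      c • (1 + U * L) := by
    ext i j
    simp only [hrk, hU, hL, Matrix.add_apply, Matrix.smul_apply,
      Matrix.vecMulVec_apply, Matrix.mul_apply, Fin.sum_univ_two, Matrix.of_apply,
      Matrix.cons_val_zero, Matrix.cons_val_one, smul_eq_mul]
    field_simp
    ring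
  have h2 : L * U = Matrix.of ![![a / c - 1, 0], ![0, b / c - 1]] := by
    have e1 : ∑ j, f j ^ q * e j = 1 := by
      rw [← hp.ef]; unfold Cfsg.hermForm
      exact Finset.sum_congr rfl fun j _ => mul_comm _ _
    have e2 : ∑ j, f j ^ q * f j = 0 := by
      rw [← hp.ff]; unfold Cfsg.hermForm
      exact Finset.sum_congr rfl fun j _ => mul_comm _ _
    have e3 : ∑ j, e j ^ q * e j = 0 := by
      rw [← hp.ee]; unfold Cfsg.hermForm
      exact Finset.sum_congr rfl fun j _ => mul_comm _ _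
    have e4 : ∑ j, e j ^ q * f j = 1 := by
      rw [← hp.fe hF]; unfold Cfsg.hermForm
      exact Finset.sum_congr rfl fun j _ => mul_comm _ _
    ext i j
    fin_cases i <;> fin_cases j
    · simp [hL, hU, Matrix.mul_apply, mul_assoc, ← Finset.mul_sum, e1]
    · simp [hL, hU, Matrix.mul_apply, mul_assoc, ← Finset.mul_sum, e2]
    · simp [hL, hU, Matrix.mul_apply, mul_assoc, ← Finset.mul_sum, e3]
    · simp [hL, hU, Matrix.mul_apply, mul_assoc, ← Finset.mul_sum, e4]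
  rw [h1, Matrix.det_smul, Fintype.card_fin, Matrix.det_one_add_mul_comm, h2, Matrix.det_fin_two]
  simp
  field_simp

/-- the torus element -/
theorem exists_torus (hF : Fintype.card F = q ^ 2) (hn3 : n = 3) {e f : Fin n → F}
    (hp : HypPair q e f) {lam : F} (hl : lam ≠ 0) :
    ∃ g : ↥(Cfsg.SU n F q), suM g *ᵥ e = lam • e ∧ suM g *ᵥ f = (lam ^ q)⁻¹ • f ∧
      ∀ w : Fin n → F, ⟪w, e⟫ = 0 → ⟪w, f⟫ = 0 → suM g *ᵥ w = (lam ^ q / lam) • w := by
  subst hn3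
  have hlq : lam ^ q ≠ 0 := pow_ne_zero q hl
  obtain ⟨M, hM⟩ : ∃ M : Matrix (Fin 3) (Fin 3) F,
      M = (lam ^ q / lam) • (1 : Matrix (Fin 3) (Fin 3) F) + (lam - lam ^ q / lam) • hrk q 3 e f +
        ((lam ^ q)⁻¹ - lam ^ q / lam) • hrk q 3 f e := ⟨_, rfl⟩
  have hMx : ∀ x : Fin 3 → F, M *ᵥ x = (lam ^ q / lam) • x +
      ((lam - lam ^ q / lam) * Cfsg.hermForm 3 F q x f) • e +
      (((lam ^ q)⁻¹ - lam ^ q / lam) * Cfsg.hermForm 3 F q x e) • f := by
    intro x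
    rw [hM, Matrix.add_mulVec, Matrix.add_mulVec, Matrix.smul_mulVec, Matrix.smul_mulVec,
      Matrix.smul_mulVec, Matrix.one_mulVec, hrk_mulVec, hrk_mulVec, smul_smul, smul_smul]
  have hdet : M.det = 1 := by
    rw [hM, tor_det hF hp _ _ _ (div_ne_zero hlq hl)]
    field_simp
  have hMe : ∀ x : Fin 3 → F, Cfsg.hermForm 3 F q (M *ᵥ x) e =
      (lam ^ q)⁻¹ * Cfsg.hermForm 3 F q x e := by
    intro x
    rw [hMx]
    simp only [hf_add_left, hf_smul_left, hp.ee, hp.fe hF]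
    ring
  have hMf : ∀ x : Fin 3 → F, Cfsg.hermForm 3 F q (M *ᵥ x) f =
      lam * Cfsg.hermForm 3 F q x f := by
    intro x
    rw [hMx]
    simp only [hf_add_left, hf_smul_left, hp.ff, hp.ef]
    ring
  have hMp : ∀ x : Fin 3 → F, pj q e f (M *ᵥ x) = (lam ^ q / lam) • pj q e f x := by
    intro x
    rw [hMx, pj_add, pj_add, pj_smul, pj_smul, pj_smul, pj_self_e hp, pj_self_f hF hp, smul_zero,
      smul_zero, add_zero, add_zero]
  have hpres : ∀ x y : Fin 3 → F, Cfsg.hermForm 3 F q (M *ᵥ x) (M *ᵥ y) =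
      Cfsg.hermForm 3 F q x y := by
    intro x y
    rw [form_decomp hF hp (M *ᵥ x) (M *ᵥ y), hMe, hMf, hMe, hMf, hMp, hMp, hf_smul_left,
      hf_smul_right, form_decomp hF hp x y, mul_pow, mul_pow, inv_pow, div_pow, herm_pow_pow hF]
    field_simp
  refine ⟨suMk hF M hdet (isFr_of_preserves hF M hpres), ?_, ?_, ?_⟩
  · show M *ᵥ e = lam • e
    rw [hMx, hp.ee, hp.ef, mul_zero, zero_smul, add_zero, mul_one, ← add_smul]
    congr 1
    ring
  · show M *ᵥ f = (lam ^ q)⁻¹ • f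
    rw [hMx, hp.ff, hp.fe hF, mul_zero, zero_smul, add_zero, mul_one, ← add_smul]
    congr 1
    ring
  · intro w hwe hwf
    show M *ᵥ w = (lam ^ q / lam) • w
    rw [hMx, hwe, hwf, mul_zero, mul_zero, zero_smul, zero_smul, add_zero, add_zero]

/-- an element whose torus scalar is not fixed by the involution -/
theorem exists_lam (hF : Fintype.card F = q ^ 2) (hq3 : 3 ≤ q) :
    ∃ lam : F, lam ≠ 0 ∧ (lam ^ q * (lam ^ q / lam)) ^ q ≠ lam ^ q * (lam ^ q / lam) := by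
  obtain ⟨ζ, hζ⟩ := IsCyclic.exists_generator (α := Fˣ)
  have hord : orderOf ζ = (q - 1) * (q + 1) := by
    rw [orderOf_eq_card_of_forall_mem_zpowers hζ, herm_card_units hF]
  have hz0 : (ζ : F) ≠ 0 := ζ.ne_zero
  refine ⟨(ζ : F), hz0, fun h => ?_⟩
  have hzq : (ζ : F) ^ q ≠ 0 := pow_ne_zero q hz0
  rw [mul_pow, div_pow, herm_pow_pow hF] at h
  have e1 : (ζ : F) ^ 3 = ((ζ : F) ^ q) ^ 3 := by
    field_simp at h
    linear_combination h
  have e2 : (ζ : F) ^ (3 * (q - 1)) * (ζ : F) ^ 3 = 1 * (ζ : F) ^ 3 := by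
    rw [← pow_add, show 3 * (q - 1) + 3 = q * 3 by omega, pow_mul, ← e1, one_mul]
  have e3 : (ζ : F) ^ (3 * (q - 1)) = 1 := mul_right_cancel₀ (pow_ne_zero 3 hz0) e2
  have e4 : ζ ^ (3 * (q - 1)) = 1 := by
    apply Units.ext
    rw [Units.val_pow_eq_pow_val, e3, Units.val_one]
  have h3 := orderOf_dvd_of_pow_eq_one e4
  rw [hord] at h3
  have h4 : q + 1 ∣ 3 := by
    have h5 : (q - 1) * (q + 1) ∣ (q - 1) * 3 := by
      rw [mul_comm (q - 1) 3]
      exact h3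
    exact Nat.dvd_of_mul_dvd_mul_left (by omega) h5
  have h5 := Nat.le_of_dvd (by norm_num) h4
  omega

end Cfsg.Agent.Lib.Helper53.AutPSU
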