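import Mathlib
import Cfsg.Agent.Lib.Helper53.SUSemi

/-!
# Semilinearity of the first Heisenberg coordinate, concluded (helper53)
-/

set_option autoImplicit false
set_option linter.unusedSectionVars false
set_option linter.unusedVariables false

namespace Cfsg.Agent.Lib.Helper53.AutPSU

open Matrix Cfsg.Agent.Lib.Helper7 Cfsg.Agent.Lib.Helper18 Cfsg.Agent.Lib.Helper87

variable {F : Type*} [Field F] [Fintype F] {q n : ℕ}

local notation "⟪" x ", " y "⟫" => Cfsg.hermForm n F q x y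

theorem val_smul (hF : Fintype.card F = q ^ 2) {w : Fin n → F} {a : F}
    (ha : a + a ^ q + ⟪w, w⟫ = 0) (l : F) :
    l ^ (q + 1) * a + (l ^ (q + 1) * a) ^ q + ⟪l ^ q • w, l ^ q • w⟫ = 0 := by
  rw [mul_pow, herm_norm_fixed hF, hf_smul_left, hf_smul_right, herm_pow_pow hF]
  linear_combination l ^ (q + 1) * ha

theorem hU_conj_smul (hF : Fintype.card F = q ^ 2) {e w : Fin n → F} {a : F}
    (hee : ⟪e, e⟫ = 0) (hwe : ⟪w, e⟫ = 0) (ha : a + a ^ q + ⟪w, w⟫ = 0)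
    {g : ↥(Cfsg.SU n F q)} {l ν : F} (hge : suM g *ᵥ e = l • e) (hgw : suM g *ᵥ w = ν • w) :
    g * hU hF e w a * g⁻¹ = hU hF e ((l ^ q * ν) • w) (l ^ (q + 1) * a) := by
  have ha' : a + a ^ q + ⟪ν • w, ν • w⟫ = 0 := by
    rw [← hgw, su_pres]
    exact ha
  rw [hU_conj hF hee hwe ha, hge, hgw,
    hU_smul hF hee (by rw [hf_smul_left, hwe, mul_zero]) ha' l, smul_smul]

section coord

variable {hF : Fintype.card F = q ^ 2} {α : MulAut (Cfsg.PSU n F q)} {e f e' f' : Fin n → F}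
  {A : (Fin n → F) → F → (Fin n → F)} {B : (Fin n → F) → F → F} {T : F → F}
  {A' : (Fin n → F) → F → (Fin n → F)} {B' : (Fin n → F) → F → F} {T' : F → F}

theorem Coord.torus_scalar (C : Coord hF α e f e' f' A B T)
    (C' : Coord hF α⁻¹ e' f' e f A' B' T') (hn : 2 ≤ n) (hn3 : n = 3)
    {p : ℕ} [Fact p.Prime] [CharP F p] {z₀ : Fin n → F} (hz₀e : ⟪z₀, e⟫ = 0)
    (hz₀f : ⟪z₀, f⟫ = 0) (hz₀ : z₀ ≠ 0)
    (hone : ∀ w : Fin n → F, ⟪w, e⟫ = 0 → ⟪w, f⟫ = 0 → ∃ y : F, w = y • z₀) {lam : F}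
    (hl : lam ≠ 0) :
    ∃ s : F, ∀ w : Fin n → F, ⟪w, e⟫ = 0 → ⟪w, f⟫ = 0 →
      A0 hF A ((lam ^ q * (lam ^ q / lam)) • w) = s • A0 hF A w := by
  have C'' : Coord hF α⁻¹⁻¹ e f e' f' A B T := by
    rw [inv_inv]
    exact C
  obtain ⟨g, hge, hgf, hgW⟩ := exists_torus hF hn3 C.hp hl
  obtain ⟨g', hg'⟩ := QuotientGroup.mk_surjective (α (QuotientGroup.mk g))
  obtain ⟨c₀, hc₀0, hc₀⟩ := exists_tz_ne_zero hF
  have key_e : ∃ l₁ : F, l₁ ≠ 0 ∧ suM g' *ᵥ e' = l₁ • e' := by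
    have hN := tz_norm_mul hF hc₀ lam
    have h1 : g * tU hF e c₀ * g⁻¹ = tU hF e (lam ^ (q + 1) * c₀) := by
      rw [tU_conj hF C.hp.ee hc₀, hge, tU_smul hF C.hp.ee hc₀]
    have h2 : α (QuotientGroup.mk (g * tU hF e c₀ * g⁻¹)) =
        α (QuotientGroup.mk (tU hF e (lam ^ (q + 1) * c₀))) := by rw [h1]
    rw [map_conj, (C.mapE hc₀).2, (C.mapE hN).2, ← hg'] at h2
    have h3 : (QuotientGroup.mk (tU hF (suM g' *ᵥ e') (B 0 c₀)) : Cfsg.PSU n F q) =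
        QuotientGroup.mk (tU hF e' (B 0 (lam ^ (q + 1) * c₀))) := by
      rw [← tU_conj hF C.hp'.ee (C.mapE hc₀).1 g']
      exact h2
    have hb0 : B 0 c₀ ≠ 0 :=
      tU_image_ne hF (by omega) α C.hp.ne C.hp.ee hc₀ hc₀0 C.hp'.ee (C.mapE hc₀).2
    obtain ⟨l₁, hl₁0, hl₁⟩ := center_of_mk_eq hF (by omega) (su_ne_zero g' C.hp'.ne)
      (by rw [su_pres]; exact C.hp'.ee) C.hp'.ee (C.mapE hc₀).1 (C.mapE hN).1 hb0 h3
    exact ⟨l₁, hl₁0, hl₁⟩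
  have key_f : ∃ l₂ : F, l₂ ≠ 0 ∧ suM g' *ᵥ f' = l₂ • f' := by
    have hN := tz_norm_mul hF hc₀ (lam ^ q)⁻¹
    have h1 : g * tU hF f c₀ * g⁻¹ = tU hF f (((lam ^ q)⁻¹) ^ (q + 1) * c₀) := by
      rw [tU_conj hF C.hp.ff hc₀, hgf, tU_smul hF C.hp.ff hc₀]
    have h2 : α (QuotientGroup.mk (g * tU hF f c₀ * g⁻¹)) =
        α (QuotientGroup.mk (tU hF f (((lam ^ q)⁻¹) ^ (q + 1) * c₀))) := by rw [h1]
    rw [map_conj, C.mapT c₀ hc₀, C.mapT _ hN, ← hg'] at h2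
    have h3 : (QuotientGroup.mk (tU hF (suM g' *ᵥ f') (T c₀)) : Cfsg.PSU n F q) =
        QuotientGroup.mk (tU hF f' (T (((lam ^ q)⁻¹) ^ (q + 1) * c₀))) := by
      rw [← tU_conj hF C.hp'.ff (C.tz c₀ hc₀) g']
      exact h2
    obtain ⟨l₂, hl₂0, hl₂⟩ := center_of_mk_eq hF (by omega) (su_ne_zero g' (C.hp'.ne' hF))
      (by rw [su_pres]; exact C.hp'.ff) C.hp'.ff (C.tz c₀ hc₀) (C.tz _ hN)
      (C.T_ne (by omega) hc₀ hc₀0) h3
    exact ⟨l₂, hl₂0, hl₂⟩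
  obtain ⟨l₁, hl₁0, hl₁⟩ := key_e
  obtain ⟨l₂, hl₂0, hl₂⟩ := key_f
  have hW' : ∀ w' : Fin n → F, ⟪w', e'⟫ = 0 → ⟪w', f'⟫ = 0 →
      ⟪suM g' *ᵥ w', e'⟫ = 0 ∧ ⟪suM g' *ᵥ w', f'⟫ = 0 := by
    intro w' h1 h2
    constructor
    · have h3 := su_pres g' w' e'
      rw [hl₁, hf_smul_right, h1] at h3
      rcases mul_eq_zero.1 h3 with h4 | h4
      · exact absurd h4 (pow_ne_zero q hl₁0)
      · exact h4
    · have h3 := su_pres g' w' f'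
      rw [hl₂, hf_smul_right, h2] at h3
      rcases mul_eq_zero.1 h3 with h4 | h4
      · exact absurd h4 (pow_ne_zero q hl₂0)
      · exact h4
  have hone' : ∀ w' : Fin n → F, ⟪w', e'⟫ = 0 → ⟪w', f'⟫ = 0 →
      ∃ y : F, w' = y • A0 hF A z₀ := by
    intro w' h1 h2
    obtain ⟨y, hy⟩ := hone (A0 hF A' w') (C'.A0_perp h1 h2).1 (C'.A0_perp h1 h2).2
    obtain ⟨y', hy'⟩ := C.line C' (p := p) hn hz₀e hz₀f y
    exact ⟨y', by rw [← hy', ← hy, C'.A0_inv C'' (by omega) h1 h2]⟩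
  obtain ⟨ν', hν'⟩ := hone' _ (hW' _ (C.A0_perp hz₀e hz₀f).1 (C.A0_perp hz₀e hz₀f).2).1
    (hW' _ (C.A0_perp hz₀e hz₀f).1 (C.A0_perp hz₀e hz₀f).2).2
  have hg'W : ∀ w' : Fin n → F, ⟪w', e'⟫ = 0 → ⟪w', f'⟫ = 0 → suM g' *ᵥ w' = ν' • w' := by
    intro w' h1 h2
    obtain ⟨y, hy⟩ := hone' w' h1 h2
    rw [hy, Matrix.mulVec_smul, hν', smul_comm]
  refine ⟨l₁ ^ q * ν', fun w hwe hwf => ?_⟩
  have hv := val_av hF (e := e) (f := f) hwe hwf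
  have hv' := C.val _ _ hv
  have hv3 : Val q e f ((lam ^ q * (lam ^ q / lam)) • w) (lam ^ (q + 1) * av hF w) := by
    refine ⟨by rw [hf_smul_left, hwe, mul_zero], by rw [hf_smul_left, hwf, mul_zero], ?_⟩
    have h1 : av hF w + av hF w ^ q + ⟪(lam ^ q / lam) • w, (lam ^ q / lam) • w⟫ = 0 := by
      rw [← hgW w hwe hwf, su_pres]
      exact hv.2.2
    have h2 := val_smul hF h1 lam
    rw [smul_smul] at h2
    exact h2
  have h1 : g * hU hF e w (av hF w) * g⁻¹ =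
      hU hF e ((lam ^ q * (lam ^ q / lam)) • w) (lam ^ (q + 1) * av hF w) :=
    hU_conj_smul hF C.hp.ee hv.1 hv.2.2 hge (hgW w hwe hwf)
  have h2 : α (QuotientGroup.mk (g * hU hF e w (av hF w) * g⁻¹)) =
      α (QuotientGroup.mk (hU hF e ((lam ^ q * (lam ^ q / lam)) • w)
        (lam ^ (q + 1) * av hF w))) := by rw [h1]
  rw [map_conj, C.map _ _ hv, C.map _ _ hv3, ← hg'] at h2
  have h3 : g' * hU hF e' (A w (av hF w)) (B w (av hF w)) * g'⁻¹ =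
      hU hF e' ((l₁ ^ q * ν') • A w (av hF w)) (l₁ ^ (q + 1) * B w (av hF w)) :=
    hU_conj_smul hF C.hp'.ee hv'.1 hv'.2.2 hl₁ (hg'W _ hv'.1 hv'.2.1)
  have hv4 : Val q e' f' ((l₁ ^ q * ν') • A w (av hF w)) (l₁ ^ (q + 1) * B w (av hF w)) := by
    refine ⟨by rw [hf_smul_left, hv'.1, mul_zero], by rw [hf_smul_left, hv'.2.1, mul_zero], ?_⟩
    have h4 : B w (av hF w) + B w (av hF w) ^ q +
        ⟪ν' • A w (av hF w), ν' • A w (av hF w)⟫ = 0 := by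
      rw [← hg'W _ hv'.1 hv'.2.1, su_pres]
      exact hv'.2.2
    have h5 := val_smul hF h4 l₁
    rw [smul_smul] at h5
    exact h5
  have h4 : (QuotientGroup.mk (hU hF e' ((l₁ ^ q * ν') • A w (av hF w))
      (l₁ ^ (q + 1) * B w (av hF w))) : Cfsg.PSU n F q) =
      QuotientGroup.mk (hU hF e' (A ((lam ^ q * (lam ^ q / lam)) • w) (lam ^ (q + 1) * av hF w))
        (B ((lam ^ q * (lam ^ q / lam)) • w) (lam ^ (q + 1) * av hF w))) := by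
    rw [← h3]
    exact h2
  obtain ⟨h5, -⟩ := hU_inj hF (by omega) C.hp' hv4 (C.val _ _ hv3) h4
  rw [← C.A0_eq (by omega) hv3, ← h5]
  rfl

theorem Coord.semi_three (C : Coord hF α e f e' f' A B T)
    (C' : Coord hF α⁻¹ e' f' e f A' B' T') (hn : 2 ≤ n) (hn3 : n = 3) (hq3 : 3 ≤ q)
    {p : ℕ} [Fact p.Prime] [CharP F p] {z₀ : Fin n → F} (hz₀e : ⟪z₀, e⟫ = 0)
    (hz₀f : ⟪z₀, f⟫ = 0) (hz₀ : z₀ ≠ 0)
    (hone : ∀ w : Fin n → F, ⟪w, e⟫ = 0 → ⟪w, f⟫ = 0 → ∃ y : F, w = y • z₀) :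
    ∃ σ : F →+* F, ∀ w ∈ Wsub hF e f, ∀ x : F, A0 hF A (x • w) = σ x • A0 hF A w := by
  have hz₀' : A0 hF A z₀ ≠ 0 := fun h => hz₀ (C.A0_inj C' (by omega) hz₀e hz₀f h)
  have hadd : ∀ u ∈ Wsub hF e f, ∀ v ∈ Wsub hF e f,
      A0 hF A (u + v) = A0 hF A u + A0 hF A v :=
    fun u hu v hv => C.A0_add (by omega) hu.1 hu.2 hv.1 hv.2
  have Kadd : ∀ x y : F, (∃ s : F, ∀ w ∈ Wsub hF e f, A0 hF A (x • w) = s • A0 hF A w) →
      (∃ s : F, ∀ w ∈ Wsub hF e f, A0 hF A (y • w) = s • A0 hF A w) →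
      ∃ s : F, ∀ w ∈ Wsub hF e f, A0 hF A ((x + y) • w) = s • A0 hF A w := by
    rintro x y ⟨s, hs⟩ ⟨s', hs'⟩
    refine ⟨s + s', fun w hw => ?_⟩
    rw [add_smul, hadd _ ((Wsub hF e f).smul_mem x hw) _ ((Wsub hF e f).smul_mem y hw),
      hs w hw, hs' w hw, add_smul]
  have Kmul : ∀ x y : F, (∃ s : F, ∀ w ∈ Wsub hF e f, A0 hF A (x • w) = s • A0 hF A w) →
      (∃ s : F, ∀ w ∈ Wsub hF e f, A0 hF A (y • w) = s • A0 hF A w) →
      ∃ s : F, ∀ w ∈ Wsub hF e f, A0 hF A ((x * y) • w) = s • A0 hF A w := by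
    rintro x y ⟨s, hs⟩ ⟨s', hs'⟩
    refine ⟨s * s', fun w hw => ?_⟩
    rw [← smul_smul, hs _ ((Wsub hF e f).smul_mem y hw), hs' w hw, smul_smul]
  have Ktor : ∀ lam : F, lam ≠ 0 → ∃ s : F, ∀ w ∈ Wsub hF e f,
      A0 hF A ((lam ^ q * (lam ^ q / lam)) • w) = s • A0 hF A w := by
    intro lam hl
    obtain ⟨s, hs⟩ := C.torus_scalar C' (p := p) hn hn3 hz₀e hz₀f hz₀ hone hl
    exact ⟨s, fun w hw => hs w hw.1 hw.2⟩
  have Kfix : ∀ r : F, r ^ q = r → ∃ s : F, ∀ w ∈ Wsub hF e f,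
      A0 hF A (r • w) = s • A0 hF A w := by
    intro r hr
    by_cases hr0 : r = 0
    · exact ⟨0, fun w hw => by rw [hr0, zero_smul, zero_smul, C.A0_zero]⟩
    · obtain ⟨s, hs⟩ := Ktor r hr0
      rw [hr, div_self hr0, mul_one] at hs
      exact ⟨s, hs⟩
  obtain ⟨lam, hlam0, hlam⟩ := exists_lam hF hq3
  obtain ⟨u₀, hu₀⟩ : ∃ u₀ : F, u₀ = lam ^ q * (lam ^ q / lam) := ⟨_, rfl⟩
  rw [← hu₀] at hlam
  have Ku₀ := Ktor lam hlam0
  rw [← hu₀] at Ku₀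
  have Kall : ∀ x : F, ∃ s : F, ∀ w ∈ Wsub hF e f, A0 hF A (x • w) = s • A0 hF A w := by
    intro x
    have hd : u₀ - u₀ ^ q ≠ 0 := sub_ne_zero.2 (Ne.symm hlam)
    obtain ⟨s, hs⟩ : ∃ s : F, s = (x - x ^ q) / (u₀ - u₀ ^ q) := ⟨_, rfl⟩
    have h1 : s * (u₀ - u₀ ^ q) = x - x ^ q := by rw [hs, div_mul_cancel₀ _ hd]
    have hsq : s ^ q = s := by
      have h2 := congrArg (fun z => z ^ q) h1
      simp only [mul_pow, herm_sub_pow hF, herm_pow_pow hF] at h2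
      have h3 : (s ^ q - s) * (u₀ - u₀ ^ q) = 0 := by linear_combination -h2 - h1
      rcases mul_eq_zero.1 h3 with h4 | h4
      · exact sub_eq_zero.1 h4
      · exact absurd h4 hd
    have hrq : (x - s * u₀) ^ q = x - s * u₀ := by
      rw [herm_sub_pow hF, mul_pow, hsq]
      linear_combination h1
    have h2 := Kadd _ _ (Kfix _ hrq) (Kmul _ _ (Kfix s hsq) Ku₀)
    rw [sub_add_cancel] at h2
    exact h2
  choose σ hσ using Kall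
  obtain ⟨σ', hσ'⟩ := ringHom_of_scalar (Wsub hF e f) (A0 hF A) hadd σ
    (fun u hu x => hσ x u hu) (show z₀ ∈ Wsub hF e f from ⟨hz₀e, hz₀f⟩) hz₀'
  exact ⟨σ', fun w hw x => by rw [hσ' x]; exact hσ x w hw⟩

/-- the first coordinate is semilinear -/
theorem Coord.semilinear (C : Coord hF α e f e' f' A B T)
    (C' : Coord hF α⁻¹ e' f' e f A' B' T') (hn : 3 ≤ n) (hs : ¬ (n = 3 ∧ q = 2))
    {p : ℕ} [Fact p.Prime] [CharP F p] :
    ∃ σ : F →+* F, ∀ w ∈ Wsub hF e f, ∀ x : F, A0 hF A (x • w) = σ x • A0 hF A w := by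
  have C'' : Coord hF α⁻¹⁻¹ e f e' f' A B T := by
    rw [inv_inv]
    exact C
  have hadd : ∀ u ∈ Wsub hF e f, ∀ v ∈ Wsub hF e f,
      A0 hF A (u + v) = A0 hF A u + A0 hF A v :=
    fun u hu v hv => C.A0_add (by omega) hu.1 hu.2 hv.1 hv.2
  by_cases htwo : ∃ u ∈ Wsub hF e f, ∃ v ∈ Wsub hF e f, u ≠ 0 ∧ ¬ ∃ y : F, v = y • u
  · apply semilinear_of_lines (Wsub hF e f) (A0 hF A) hadd
    · intro u hu x
      exact C.line C' (p := p) (by omega) hu.1 hu.2 x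
    · intro u hu h
      exact C.A0_inj C' (by omega) hu.1 hu.2 h
    · rintro u hu v hv hu0 ⟨y, hy⟩
      obtain ⟨y', hy'⟩ := C'.line C'' (p := p) (by omega) (C.A0_perp hu.1 hu.2).1
        (C.A0_perp hu.1 hu.2).2 y
      rw [← hy, C.A0_inv C' (by omega) hv.1 hv.2, C.A0_inv C' (by omega) hu.1 hu.2] at hy'
      exact ⟨y', hy'⟩
    · exact htwo
  · have hn3 : n = 3 := by
      by_contra hne
      exact htwo (exists_two hF (by omega) C.hp)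
    have hq3 : 3 ≤ q := by
      have := herm_two_le hF
      by_contra hq
      exact hs ⟨hn3, by omega⟩
    obtain ⟨z₀, hz₀, hz₀e, hz₀f⟩ := exists_perp2 (q := q) hn e f
    have hone : ∀ w : Fin n → F, ⟪w, e⟫ = 0 → ⟪w, f⟫ = 0 → ∃ y : F, w = y • z₀ := by
      intro w hwe hwf
      by_contra hcon
      exact htwo ⟨z₀, ⟨hz₀e, hz₀f⟩, w, ⟨hwe, hwf⟩, hz₀, hcon⟩
    exact C.semi_three C' (p := p) (by omega) hn3 hq3 hz₀e hz₀f hz₀ hone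

end coord

end Cfsg.Agent.Lib.Helper53.AutPSU
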