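import Mathlib
import Cfsg.Agent.Lib.Helper53.SUSemi2
import Cfsg.Agent.Lib.Helper53.SUAut
import Cfsg.Agent.S0780

/-!
# Automorphisms of `PSU_n(q)` are induced by semilinear unitary maps (helper53)

From the Heisenberg coordinates of an automorphism `α` and the semilinearity of the first
coordinate we build a semilinear similitude `gm` inducing `α` on the Heisenberg group of `e` and
on the transvection group of `f`; these generate `SU_n(q)`.
-/

set_option autoImplicit false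
set_option linter.unusedSectionVars false
set_option linter.unusedVariables false

namespace Cfsg.Agent.Lib.Helper53.AutPSU

open Matrix Cfsg.Agent.Lib.Helper7 Cfsg.Agent.Lib.Helper18 Cfsg.Agent.Lib.Helper87

variable {F : Type*} [Field F] [Fintype F] {q n : ℕ}

local notation "⟪" x ", " y "⟫" => Cfsg.hermForm n F q x y

/-- a semilinear map on `F^n` is a matrix after the field map -/
theorem semi_matrixU {σ : F →+* F} {g : (Fin n → F) → (Fin n → F)}
    (hadd : ∀ u v, g (u + v) = g u + g v) (hsemi : ∀ (c : F) v, g (c • v) = σ c • g v) :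
    ∃ G : Matrix (Fin n) (Fin n) F, ∀ v, g v = G *ᵥ fun i => σ (v i) := by
  classical
  refine ⟨Matrix.of fun i j => g (Pi.single j 1) i, fun v => ?_⟩
  let gA : (Fin n → F) →+ (Fin n → F) := AddMonoidHom.mk' g hadd
  have e1 : v = ∑ j, v j • (Pi.single j 1 : Fin n → F) := by
    funext i
    simp [Finset.sum_apply, Pi.single_apply]
  have e2 : g v = ∑ j, σ (v j) • g (Pi.single j 1) := by
    conv_lhs => rw [e1]
    show gA (∑ j, v j • (Pi.single j 1 : Fin n → F)) = _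
    rw [map_sum]
    apply Finset.sum_congr rfl
    intro j _
    exact hsemi _ _
  rw [e2]
  funext i
  simp [Matrix.mulVec, dotProduct, Finset.sum_apply, mul_comm]

theorem exists_iso_vec (hF : Fintype.card F = q ^ 2) (hn : 2 ≤ n) :
    ∃ e : Fin n → F, e ≠ 0 ∧ ⟪e, e⟫ = 0 := by
  obtain ⟨m, rfl⟩ : ∃ m, n = m + 2 := ⟨n - 2, by omega⟩
  exact exists_isotropic hF m

theorem exists_aniso_W (hF : Fintype.card F = q ^ 2) (hn : 3 ≤ n) {e f : Fin n → F}
    (hp : HypPair q e f) : ∃ w : Fin n → F, ⟪w, e⟫ = 0 ∧ ⟪w, f⟫ = 0 ∧ ⟪w, w⟫ ≠ 0 := by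
  obtain ⟨z, hz0, hze, hzf⟩ := exists_perp2 (q := q) hn e f
  by_cases hzz : ⟪z, z⟫ = 0
  · obtain ⟨v, hvv, hve, hvf, hzv⟩ := exists_partner_W hF hp hz0 hzz hze hzf
    obtain ⟨μ, hμ⟩ := exists_trace_one hF
    have hvz : ⟪v, z⟫ = 1 := by rw [hf_conj hF n z v, hzv, one_pow]
    refine ⟨z + μ • v, by rw [hf_add_left, hf_smul_left, hze, hve, mul_zero, add_zero],
      by rw [hf_add_left, hf_smul_left, hzf, hvf, mul_zero, add_zero], ?_⟩
    have h1 : ⟪z + μ • v, z + μ • v⟫ = 1 := by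
      simp only [hf_add_left, hf_add_right hF, hf_smul_left, hf_smul_right, hzz, hvv, hzv, hvz]
      linear_combination hμ
    rw [h1]
    exact one_ne_zero
  · exact ⟨z, hze, hzf, hzz⟩

section coord

variable {hF : Fintype.card F = q ^ 2} {α : MulAut (Cfsg.PSU n F q)} {e f e' f' : Fin n → F}
  {A : (Fin n → F) → F → (Fin n → F)} {B : (Fin n → F) → F → F} {T : F → F}
  {A' : (Fin n → F) → F → (Fin n → F)} {B' : (Fin n → F) → F → F} {T' : F → F}

/-- the second coordinate and the transvection coordinate in terms of the field map -/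
theorem Coord.kappa (C : Coord hF α e f e' f' A B T) (C' : Coord hF α⁻¹ e' f' e f A' B' T')
    (hn : 3 ≤ n) {σ : F →+* F}
    (hσ : ∀ w ∈ Wsub hF e f, ∀ x : F, A0 hF A (x • w) = σ x • A0 hF A w) :
    ∃ κ : F, κ ≠ 0 ∧ κ ^ q = κ ∧ (∀ c : F, c + c ^ q = 0 → T c = κ * σ c) ∧
      ∀ w a, Val q e f w a → B w a = κ⁻¹ * σ a := by
  have hn1 : 1 ≤ n := by omega
  have spade : ∀ (w : Fin n → F) (a c : F), Val q e f w a → w ≠ 0 → c + c ^ q = 0 →
      1 + c * a ≠ 0 → σ c * σ a = T c * B w a := by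
    intro w a c hv hw0 hc hu
    obtain ⟨hm, hA, -⟩ := C.star hn1 hv hc hu
    have hv2 := hv.scale hF hc hu
    rw [C.A0_eq hn1 hv2, C.A0_eq hn1 hv, hσ w ⟨hv.1, hv.2.1⟩] at hA
    have hA0 : A0 hF A w ≠ 0 := fun h => hw0 (C.A0_inj C' hn1 hv.1 hv.2.1 h)
    have h1 : σ (1 + c * a)⁻¹ = (1 + T c * B w a)⁻¹ := smul_left_injective F hA0 hA
    rw [map_inv₀] at h1
    have h2 : σ (1 + c * a) = 1 + T c * B w a := inv_injective h1
    rw [map_add, map_one, map_mul] at h2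
    linear_combination h2
  have one_add_ne : ∀ a c : F, c + c ^ q = 0 → a + a ^ q ≠ 0 → 1 + c * a ≠ 0 := by
    intro a c hc ha h
    have hc0 : c ≠ 0 := by
      rintro rfl
      rw [zero_mul, add_zero] at h
      exact one_ne_zero h
    have h1 : a = -c⁻¹ := by
      field_simp
      linear_combination h
    apply ha
    rw [h1]
    exact tz_neg hF (tz_inv hc)
  obtain ⟨w₁, hw₁e, hw₁f, hw₁⟩ := exists_aniso_W hF hn C.hp
  obtain ⟨a₁, ha₁⟩ : ∃ a₁ : F, a₁ = av hF w₁ := ⟨_, rfl⟩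
  have hv₁ : Val q e f w₁ a₁ := by
    rw [ha₁]
    exact val_av hF hw₁e hw₁f
  have ha₁tz : a₁ + a₁ ^ q ≠ 0 := by
    intro h
    apply hw₁
    have h1 := hv₁.2.2
    rw [h, zero_add] at h1
    exact h1
  have hw₁0 : w₁ ≠ 0 := by
    rintro rfl
    exact hw₁ (hf_zero_left n 0)
  have ha₁0 : a₁ ≠ 0 := by
    rintro rfl
    apply ha₁tz
    rw [zero_pow (herm_q_ne_zero hF), add_zero]
  obtain ⟨c₀, hc₀0, hc₀⟩ := exists_tz_ne_zero hF
  have hσ0 : ∀ x : F, x ≠ 0 → σ x ≠ 0 := fun x hx => (map_ne_zero σ).2 hx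
  have hsp₁ : ∀ c : F, c + c ^ q = 0 → σ c * σ a₁ = T c * B w₁ a₁ :=
    fun c hc => spade w₁ a₁ c hv₁ hw₁0 hc (one_add_ne a₁ c hc ha₁tz)
  have hb₁ : B w₁ a₁ ≠ 0 := by
    intro h0
    have h1 := hsp₁ c₀ hc₀
    rw [h0, mul_zero] at h1
    exact mul_ne_zero (hσ0 c₀ hc₀0) (hσ0 a₁ ha₁0) h1
  obtain ⟨κ, hκ⟩ : ∃ κ : F, κ = σ a₁ / B w₁ a₁ := ⟨_, rfl⟩
  have hκ0 : κ ≠ 0 := by
    rw [hκ]
    exact div_ne_zero (hσ0 a₁ ha₁0) hb₁
  have hκb : κ * B w₁ a₁ = σ a₁ := by rw [hκ, div_mul_cancel₀ _ hb₁]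
  have hT : ∀ c : F, c + c ^ q = 0 → T c = κ * σ c := by
    intro c hc
    have h1 := hsp₁ c hc
    have h2 : B w₁ a₁ * (T c - κ * σ c) = 0 := by linear_combination -h1 - σ c * hκb
    rcases mul_eq_zero.1 h2 with h3 | h3
    · exact absurd h3 hb₁
    · exact sub_eq_zero.1 h3
  have hκq : κ ^ q = κ := by
    have h1 := hT c₀ hc₀
    have h2 : T c₀ ^ q = -T c₀ := by linear_combination C.tz c₀ hc₀
    have h3 : σ c₀ ^ q = -σ c₀ := by
      rw [← map_pow, ← map_neg]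
      congr 1
      linear_combination hc₀
    have h4 : T c₀ ^ q = (κ * σ c₀) ^ q := by rw [h1]
    rw [mul_pow, h2, h3] at h4
    have h5 : (κ ^ q - κ) * σ c₀ = 0 := by linear_combination h4 + h1
    rcases mul_eq_zero.1 h5 with h6 | h6
    · exact sub_eq_zero.1 h6
    · exact absurd h6 (hσ0 c₀ hc₀0)
  have hBan : ∀ (w : Fin n → F) (a : F), Val q e f w a → ⟪w, w⟫ ≠ 0 → B w a = κ⁻¹ * σ a := by
    intro w a hv hww
    have hatz : a + a ^ q ≠ 0 := by
      intro h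
      apply hww
      have h1 := hv.2.2
      rw [h, zero_add] at h1
      exact h1
    have hw0 : w ≠ 0 := by
      rintro rfl
      exact hww (hf_zero_left n 0)
    have h1 := spade w a c₀ hv hw0 hc₀ (one_add_ne a c₀ hc₀ hatz)
    rw [hT c₀ hc₀] at h1
    rw [eq_inv_mul_iff_mul_eq₀ hκ0]
    have h2 : σ c₀ * (κ * B w a - σ a) = 0 := by linear_combination -h1
    rcases mul_eq_zero.1 h2 with h3 | h3
    · exact absurd h3 (hσ0 c₀ hc₀0)
    · exact sub_eq_zero.1 h3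
  have hB0 : ∀ t : F, t + t ^ q = 0 → B 0 t = κ⁻¹ * σ t := by
    intro t ht
    have h1 := (C.shift hn1 hv₁ ht).2
    have hv₁' : Val q e f w₁ (a₁ + t) :=
      ⟨hv₁.1, hv₁.2.1, by
        have h2 := hv₁.2.2
        rw [herm_add_pow hF]
        linear_combination h2 + ht⟩
    rw [hBan _ _ hv₁' hw₁, hBan _ _ hv₁ hw₁, map_add] at h1
    linear_combination -h1
  refine ⟨κ, hκ0, hκq, hT, ?_⟩
  intro w a hv
  by_cases hww : ⟪w, w⟫ = 0
  · have hatz : a + a ^ q = 0 := by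
      have h1 := hv.2.2
      rw [hww, add_zero] at h1
      exact h1
    have hv0 : Val q e f w 0 :=
      ⟨hv.1, hv.2.1, by rw [zero_pow (herm_q_ne_zero hF), add_zero, zero_add]; exact hww⟩
    have hBw0 : B w 0 = 0 := by
      obtain ⟨hm, -, hB⟩ := C.star hn1 hv0 hc₀ (by rw [mul_zero, add_zero]; exact one_ne_zero)
      simp only [mul_zero, add_zero, inv_one, one_smul] at hB
      have h1 : (1 + T c₀ * B w 0) * B w 0 = (1 + T c₀ * B w 0) * ((1 + T c₀ * B w 0)⁻¹ * B w 0) :=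
        congrArg (fun z => (1 + T c₀ * B w 0) * z) hB
      rw [← mul_assoc, mul_inv_cancel₀ hm, one_mul] at h1
      have h2 : T c₀ * (B w 0 * B w 0) = 0 := by linear_combination h1
      rcases mul_eq_zero.1 h2 with h3 | h3
      · exact absurd h3 (C.T_ne hn1 hc₀ hc₀0)
      · exact mul_self_eq_zero.1 h3
    have h1 := (C.shift hn1 hv0 hatz).2
    rw [zero_add, hBw0, zero_add] at h1
    rw [h1, hB0 a hatz]
  · exact hBan w a hv hww

/-- the first coordinate is a semilinear similitude -/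
theorem Coord.form (C : Coord hF α e f e' f' A B T) (hn : 1 ≤ n) {κ : F} {σ : F →+* F}
    (hB : ∀ w a, Val q e f w a → B w a = κ⁻¹ * σ a) {w w₂ : Fin n → F}
    (hw : w ∈ Wsub hF e f) (hw₂ : w₂ ∈ Wsub hF e f) :
    ⟪A0 hF A w₂, A0 hF A w⟫ = κ⁻¹ * σ ⟪w₂, w⟫ := by
  have hv := val_av hF (e := e) (f := f) hw.1 hw.2
  have hv₂ := val_av hF (e := e) (f := f) hw₂.1 hw₂.2
  have h1 := (C.cocycle hn hv hv₂).2
  rw [hB _ _ (hv.add hF hv₂), hB _ _ hv, hB _ _ hv₂, map_sub, map_add] at h1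
  show ⟪A w₂ (av hF w₂), A w (av hF w)⟫ = _
  linear_combination h1

/-- an automorphism with Heisenberg coordinates is induced by a semilinear unitary map -/
theorem Coord.induced (C : Coord hF α e f e' f' A B T) (C' : Coord hF α⁻¹ e' f' e f A' B' T')
    (hn : 3 ≤ n) (hs : ¬ (n = 3 ∧ q = 2)) {p : ℕ} [Fact p.Prime] [CharP F p] :
    ∃ (g : GL (Fin n) F) (σ : F ≃+* F), g ∈ Cfsg.GU n F q ∧
      Cfsg.IsInducedBySemilinearPSU g σ α := by
  classical
  have hn1 : 1 ≤ n := by omega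
  obtain ⟨σ, hσ⟩ := C.semilinear C' (p := p) hn hs
  obtain ⟨κ, hκ0, hκq, hT, hB⟩ := C.kappa C' hn hσ
  have hσq : ∀ x : F, σ (x ^ q) = σ x ^ q := fun x => map_pow σ x q
  obtain ⟨gm, hgm⟩ : ∃ gm : (Fin n → F) → (Fin n → F), ∀ x, gm x =
      σ ⟪x, f⟫ • e' + (κ * σ ⟪x, e⟫) • f' + κ • A0 hF A (pj q e f x) := ⟨_, fun x => rfl⟩
  have hpjW : ∀ x : Fin n → F, pj q e f x ∈ Wsub hF e f :=
    fun x => ⟨pj_e hF C.hp x, pj_f hF C.hp x⟩
  have gadd : ∀ u v : Fin n → F, gm (u + v) = gm u + gm v := by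
    intro u v
    rw [hgm, hgm, hgm, hf_add_left, hf_add_left, map_add, map_add, pj_add,
      C.A0_add hn1 (pj_e hF C.hp u) (pj_f hF C.hp u) (pj_e hF C.hp v) (pj_f hF C.hp v)]
    module
  have gsemi : ∀ (c : F) (v : Fin n → F), gm (c • v) = σ c • gm v := by
    intro c v
    rw [hgm, hgm, hf_smul_left, hf_smul_left, map_mul, map_mul, pj_smul, hσ _ (hpjW v)]
    module
  have hA0W : ∀ x : Fin n → F, ⟪A0 hF A (pj q e f x), e'⟫ = 0 ∧
      ⟪A0 hF A (pj q e f x), f'⟫ = 0 :=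
    fun x => C.A0_perp (pj_e hF C.hp x) (pj_f hF C.hp x)
  have hge' : ∀ x : Fin n → F, ⟪gm x, e'⟫ = κ * σ ⟪x, e⟫ := by
    intro x
    rw [hgm]
    simp only [hf_add_left, hf_smul_left, C.hp'.ee, C.hp'.fe hF, (hA0W x).1]
    ring
  have hgf' : ∀ x : Fin n → F, ⟪gm x, f'⟫ = σ ⟪x, f⟫ := by
    intro x
    rw [hgm]
    simp only [hf_add_left, hf_smul_left, C.hp'.ff, C.hp'.ef, (hA0W x).2]
    ring
  have hgpj : ∀ x : Fin n → F, pj q e' f' (gm x) = κ • A0 hF A (pj q e f x) := by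
    intro x
    rw [hgm, pj_add, pj_add, pj_smul, pj_smul, pj_smul, pj_self_e C.hp', pj_self_f hF C.hp',
      pj_of_perp (hA0W x).1 (hA0W x).2, smul_zero, smul_zero, zero_add, zero_add]
  have gform : ∀ x y : Fin n → F, ⟪gm x, gm y⟫ = κ * σ ⟪x, y⟫ := by
    intro x y
    rw [form_decomp hF C.hp' (gm x) (gm y), hge', hgf', hge', hgf', hgpj, hgpj, hf_smul_left,
      hf_smul_right, C.form hn1 hB (hpjW y) (hpjW x), form_decomp hF C.hp x y, map_add, map_add,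
      map_mul, map_mul, hσq, hσq, mul_pow, hκq]
    field_simp
  have hg_e : gm e = e' := by
    rw [hgm, C.hp.ef, C.hp.ee, pj_self_e C.hp, C.A0_zero, map_one, map_zero, mul_zero, one_smul,
      zero_smul, smul_zero, add_zero, add_zero]
  have hg_f : gm f = κ • f' := by
    rw [hgm, C.hp.ff, C.hp.fe hF, pj_self_f hF C.hp, C.A0_zero, map_one, map_zero, mul_one,
      zero_smul, smul_zero, add_zero, zero_add]
  have hg_w : ∀ w : Fin n → F, w ∈ Wsub hF e f → gm w = κ • A0 hF A w := by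
    intro w hw
    rw [hgm, hw.1, hw.2, pj_of_perp hw.1 hw.2, map_zero, mul_zero, zero_smul, zero_smul, zero_add,
      zero_add]
  obtain ⟨G₀, hG₀⟩ := semi_matrixU gadd gsemi
  have hσbij : Function.Bijective σ :=
    ⟨σ.injective, Finite.injective_iff_surjective.1 σ.injective⟩
  obtain ⟨σe, hσe⟩ : ∃ σe : F ≃+* F, ∀ x, σe x = σ x :=
    ⟨RingEquiv.ofBijective σ hσbij, fun x => rfl⟩
  have hσe' : (σe : F →+* F) = σ := by
    ext x
    exact hσe x
  have hG₀form : ∀ u v : Fin n → F, ⟪G₀ *ᵥ u, G₀ *ᵥ v⟫ = κ * ⟪u, v⟫ := by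
    intro u v
    obtain ⟨x, rfl⟩ : ∃ x : Fin n → F, u = fun i => σ (x i) :=
      ⟨fun i => σe.symm (u i), by funext i; rw [← hσe]; simp⟩
    obtain ⟨y, rfl⟩ : ∃ y : Fin n → F, v = fun i => σ (y i) :=
      ⟨fun i => σe.symm (v i), by funext i; rw [← hσe]; simp⟩
    rw [← hG₀, ← hG₀, gform, hf_map]
  obtain ⟨μ, hμ0, hμ⟩ := herm_norm_surj hF κ⁻¹ (inv_ne_zero hκ0) (by rw [inv_pow, hκq])
  have hGpres : ∀ u v : Fin n → F, ⟪(μ • G₀) *ᵥ u, (μ • G₀) *ᵥ v⟫ = ⟪u, v⟫ := by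
    intro u v
    have h1 : μ * μ ^ q = κ⁻¹ := by rw [← hμ, pow_succ']
    rw [Matrix.smul_mulVec, Matrix.smul_mulVec, hf_smul_left, hf_smul_right, hG₀form,
      ← mul_assoc, h1, ← mul_assoc, inv_mul_cancel₀ hκ0, one_mul]
  obtain ⟨Gu, hGu⟩ : ∃ Gu : GL (Fin n) F, (Gu : Matrix (Fin n) (Fin n) F) = μ • G₀ :=
    ⟨(isUnit_of_preserves hF _ hGpres).unit, rfl⟩
  have hGuU : Gu ∈ Cfsg.GU n F q := by
    rw [mem_GU_iff, hGu]
    exact hGpres
  have hGgm : ∀ x : Fin n → F, (Gu : Matrix (Fin n) (Fin n) F) *ᵥ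
      (fun i => (σe : F →+* F) (x i)) = μ • gm x := by
    intro x
    rw [hGu, hσe', Matrix.smul_mulVec, ← hG₀]
  have hcompat := gamma_compat Gu hGuU σe gm hμ0 hGgm
  have gsurj : ∀ y : Fin n → F, ∃ x, gm x = y := by
    intro y
    refine ⟨fun i => σe.symm ((((Gu⁻¹ : GL (Fin n) F) : Matrix (Fin n) (Fin n) F) *ᵥ
      (μ • y)) i), ?_⟩
    have h1 := hGgm (fun i => σe.symm ((((Gu⁻¹ : GL (Fin n) F) : Matrix (Fin n) (Fin n) F) *ᵥ
      (μ • y)) i))
    have h2 : (fun i => (σe : F →+* F) (σe.symm ((((Gu⁻¹ : GL (Fin n) F) :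
        Matrix (Fin n) (Fin n) F) *ᵥ (μ • y)) i))) =
        ((Gu⁻¹ : GL (Fin n) F) : Matrix (Fin n) (Fin n) F) *ᵥ (μ • y) := by
      funext i
      simp
    rw [h2, Matrix.mulVec_mulVec, glU_mul_inv, Matrix.one_mulVec] at h1
    exact (smul_right_injective _ hμ0 h1).symm
  have hΓh : ∀ (w : Fin n → F) (a : F), Val q e f w a →
      gammaHom Gu hGuU σe (hU hF e w a) = hU hF e' (A w a) (B w a) := by
    intro w a hv
    have hv' := C.val w a hv
    apply su_ext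
    intro y
    obtain ⟨x, rfl⟩ := gsurj y
    have h1 : ⟪gm x, A0 hF A w⟫ = σ ⟪x, w⟫ := by
      have h2 := gform x w
      rw [hg_w w ⟨hv.1, hv.2.1⟩, hf_smul_right, hκq] at h2
      exact mul_left_cancel₀ hκ0 h2
    have h2 : κ⁻¹ * σ a * (κ * σ ⟪x, e⟫) = σ a * σ ⟪x, e⟫ := by field_simp
    rw [hcompat, hU_mulVec hF C.hp.ee hv.1 hv.2.2, hU_mulVec hF C.hp'.ee hv'.1 hv'.2.2, gadd, gadd,
      gsemi, gsemi, hg_e, hg_w w ⟨hv.1, hv.2.1⟩, hge', C.A0_eq hn1 hv, hB w a hv, h1, h2, map_sub,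
      map_mul]
    module
  have hΓt : ∀ c : F, c + c ^ q = 0 → gammaHom Gu hGuU σe (tU hF f c) = tU hF f' (T c) := by
    intro c hc
    apply su_ext
    intro y
    obtain ⟨x, rfl⟩ := gsurj y
    rw [hcompat, tU_mulVec hF C.hp.ff hc, tU_mulVec hF C.hp'.ff (C.tz c hc), gadd, gsemi, hg_f,
      hgf', hT c hc, map_mul]
    module
  obtain ⟨Hs, hHs⟩ : ∃ Hs : Subgroup ↥(Cfsg.SU n F q), ∀ s, s ∈ Hs ↔
      α (QuotientGroup.mk s) = QuotientGroup.mk (gammaHom Gu hGuU σe s) :=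
    ⟨MonoidHom.eqLocus
      (α.toMonoidHom.comp (QuotientGroup.mk' (Subgroup.center ↥(Cfsg.SU n F q))))
      ((QuotientGroup.mk' (Subgroup.center ↥(Cfsg.SU n F q))).comp (gammaHom Gu hGuU σe)),
      fun s => Iff.rfl⟩
  have hH1 : ∀ (w : Fin n → F) (a : F), Val q e f w a → hU hF e w a ∈ Hs :=
    fun w a hv => (hHs _).2 (by rw [hΓh w a hv]; exact C.map w a hv)
  have hH2 : ∀ c : F, c + c ^ q = 0 → tU hF f c ∈ Hs :=
    fun c hc => (hHs _).2 (by rw [hΓt c hc]; exact C.mapT c hc)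
  have hH3 : ∀ (x : Fin n → F) (c : F), ⟪x, x⟫ = 0 → ⟪x, e⟫ ≠ 0 → c + c ^ q = 0 →
      tU hF x c ∈ Hs := by
    intro x c hxx hxe hc
    obtain ⟨l, hl⟩ : ∃ l : F, l = ⟪x, e⟫ := ⟨_, rfl⟩
    have hl0 : l ≠ 0 := by
      rw [hl]
      exact hxe
    have hy_e : ⟪l⁻¹ • x, e⟫ = 1 := by rw [hf_smul_left, ← hl, inv_mul_cancel₀ hl0]
    have hy_y : ⟪l⁻¹ • x, l⁻¹ • x⟫ = 0 := herm_smul_self hxx _
    obtain ⟨w, a, hwe, hwf, ha, hy⟩ := exists_hU_map hF C.hp hy_e hy_y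
    have hv : Val q e f w a := ⟨hwe, hwf, ha⟩
    have h1 : l • (l⁻¹ • x) = x := by rw [smul_smul, mul_inv_cancel₀ hl0, one_smul]
    have h2 : tU hF x c = hU hF e w a * tU hF f (l ^ (q + 1) * c) * (hU hF e w a)⁻¹ := by
      rw [tU_conj hF C.hp.ff (tz_norm_mul hF hc l), hy, ← tU_smul hF hy_y hc l, h1]
    rw [h2]
    exact Hs.mul_mem (Hs.mul_mem (hH1 w a hv) (hH2 _ (tz_norm_mul hF hc l)))
      (Hs.inv_mem (hH1 w a hv))
  have hH4 : ∀ (x : Fin n → F) (c : F), x ≠ 0 → ⟪x, x⟫ = 0 → c + c ^ q = 0 →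
      tU hF x c ∈ Hs := by
    intro x c hx0 hxx hc
    by_cases hxe : ⟪x, e⟫ = 0
    · obtain ⟨s, hss, hxs, hse⟩ := exists_mid hF hx0 hxx C.hp.ne C.hp.ee
      obtain ⟨d, hd0, hd⟩ := exists_tz_ne_zero hF
      have ht := hH3 s d hss hse hd
      have hx' : suM (tU hF s d) *ᵥ x = x + (d * ⟪x, s⟫) • s := tU_mulVec hF hss hd x
      have hx'e : ⟪suM (tU hF s d) *ᵥ x, e⟫ ≠ 0 := by
        rw [hx', hf_add_left, hf_smul_left, hxe, zero_add]
        exact mul_ne_zero (mul_ne_zero hd0 hxs) hse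
      have h1 := hH3 _ c (by rw [su_pres]; exact hxx) hx'e hc
      rw [← tU_conj hF hxx hc] at h1
      have h2 : tU hF x c =
          (tU hF s d)⁻¹ * (tU hF s d * tU hF x c * (tU hF s d)⁻¹) * tU hF s d := by group
      rw [h2]
      exact Hs.mul_mem (Hs.mul_mem (Hs.inv_mem ht) h1) ht
    · exact hH3 x c hxx hxe hc
  have htop : Hs = ⊤ := by
    rw [eq_top_iff, ← Cfsg.Agent.S0780.result hF n hn hs, Subgroup.closure_le]
    rintro Am ⟨v, c, hvv, hA⟩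
    by_cases hv0 : v = 0
    · have h1 : Am = 1 := by
        apply su_ext
        intro x
        show ((Am : Matrix.SpecialLinearGroup (Fin n) F) : Matrix (Fin n) (Fin n) F) *ᵥ x = _
        rw [hA, unitaryTransvection_mulVec, hv0, smul_zero, add_zero, suM_one, Matrix.one_mulVec]
      rw [h1]
      exact Hs.one_mem
    · have hc : c + c ^ q = 0 := by
        obtain ⟨x, hx⟩ := exists_herm_one (q := q) hv0
        have h1 := su_pres Am x x
        have h2 : suM Am *ᵥ x = x + c • v := by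
          show ((Am : Matrix.SpecialLinearGroup (Fin n) F) : Matrix (Fin n) (Fin n) F) *ᵥ x = _
          rw [hA, unitaryTransvection_mulVec, hx, mul_one]
        rw [h2] at h1
        have hvx : ⟪v, x⟫ = 1 := by rw [hf_conj hF n x v, hx, one_pow]
        simp only [hf_add_left, hf_add_right hF, hf_smul_left, hf_smul_right, hvv, hx, hvx] at h1
        linear_combination h1
      have h1 : Am = tU hF v c := by
        apply su_ext
        intro x
        rw [tU_mulVec hF hvv hc]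
        show ((Am : Matrix.SpecialLinearGroup (Fin n) F) : Matrix (Fin n) (Fin n) F) *ᵥ x = _
        rw [hA, unitaryTransvection_mulVec]
      rw [h1]
      exact hH4 v c hv0 hvv hc
  exact ⟨Gu, σe, hGuU, induced_of_forall Gu hGuU σe α
    (fun s => (hHs s).1 (by rw [htop]; trivial))⟩

end coord

/-- Heisenberg coordinates exist -/
theorem exists_coord (hF : Fintype.card F = q ^ 2) (hn : 2 ≤ n) (α : MulAut (Cfsg.PSU n F q))
    {e f e' f' : Fin n → F} (hp : HypPair q e f) (hp' : HypPair q e' f')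
    (hE : ∀ c : F, c + c ^ q = 0 → ∃ c' : F, c' + c' ^ q = 0 ∧
      α (QuotientGroup.mk (tU hF e c)) = QuotientGroup.mk (tU hF e' c'))
    (hQ : ∀ x ∈ QU q e, ∃ x' ∈ QU q e', α (QuotientGroup.mk x) = QuotientGroup.mk x')
    (hT : ∀ c : F, c + c ^ q = 0 → ∃ c' : F, c' + c' ^ q = 0 ∧
      α (QuotientGroup.mk (tU hF f c)) = QuotientGroup.mk (tU hF f' c')) :
    ∃ (A : (Fin n → F) → F → (Fin n → F)) (B : (Fin n → F) → F → F) (T : F → F),
      Coord hF α e f e' f' A B T := by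
  have hex : ∀ (w : Fin n → F) (a : F), Val q e f w a → ∃ (w' : Fin n → F) (a' : F),
      Val q e' f' w' a' ∧
        α (QuotientGroup.mk (hU hF e w a)) = QuotientGroup.mk (hU hF e' w' a') := by
    intro w a hv
    obtain ⟨x', hx', h1⟩ := hQ _ (hU_mem_QU hF hp.ee hv.1 hv.2.2)
    obtain ⟨w', a', h2, h3, h4, rfl⟩ := QU_normal_form hF hp' hx'
    exact ⟨w', a', ⟨h2, h3, h4⟩, h1⟩
  choose! A B hAB using hex
  choose! T hT' using hT
  refine ⟨A, B, T, hp, hp', fun w a hv => (hAB w a hv).1, fun w a hv => (hAB w a hv).2, ?_,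
    fun c hc => (hT' c hc).1, fun c hc => (hT' c hc).2⟩
  intro t ht
  obtain ⟨t', ht', h1⟩ := hE t ht
  have hv := Val.zero hF (e := e) (f := f) ht
  have h2 := (hAB 0 t hv).2
  rw [← tU_eq_hU hF hp.ee ht, h1, tU_eq_hU hF hp'.ee ht'] at h2
  exact (hU_inj hF (by omega) hp' (Val.zero hF ht') (hAB 0 t hv).1 h2).1.symm

/-- every automorphism of `PSU_n(q)` is induced by a semilinear unitary map -/
theorem aut_induced (hF : Fintype.card F = q ^ 2) (hn : 3 ≤ n) (hs : ¬ (n = 3 ∧ q = 2))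
    {p : ℕ} [Fact p.Prime] [CharP F p] (α : MulAut (Cfsg.PSU n F q)) :
    ∃ (g : GL (Fin n) F) (σ : F ≃+* F), g ∈ Cfsg.GU n F q ∧
      Cfsg.IsInducedBySemilinearPSU g σ α := by
  have hn2 : 2 ≤ n := by omega
  obtain ⟨e, he0, hee⟩ := exists_iso_vec hF hn2
  obtain ⟨f, hp⟩ := exists_hypPair hF he0 hee
  have hf0 := hp.ne' hF
  obtain ⟨e', he'0, he'e', hE, hEs, hQ, hQs⟩ := aut_good (p := p) hF hn2 α he0 hee
  obtain ⟨f₀, hf₀0, hf₀f₀, hT₀, hT₀s, -, -⟩ := aut_good (p := p) hF hn2 α hf0 hp.ff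
  obtain ⟨c₀, hc₀0, hc₀⟩ := exists_tz_ne_zero hF
  have hne : ⟪e', f₀⟫ ≠ 0 := by
    intro h0
    obtain ⟨a', ha', h1⟩ := hE c₀ hc₀
    obtain ⟨b', hb', h2⟩ := hT₀ c₀ hc₀
    have hcomm' : (QuotientGroup.mk (tU hF e' a') : Cfsg.PSU n F q) *
        QuotientGroup.mk (tU hF f₀ b') =
        QuotientGroup.mk (tU hF f₀ b') * QuotientGroup.mk (tU hF e' a') := by
      show (QuotientGroup.mk (tU hF e' a' * tU hF f₀ b') : Cfsg.PSU n F q) =
        QuotientGroup.mk (tU hF f₀ b' * tU hF e' a')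
      rw [tU_comm hF he'e' hf₀f₀ h0 ha' hb']
    rw [← h1, ← h2, ← map_mul, ← map_mul] at hcomm'
    have hcomm := α.injective hcomm'
    have h3 := perp_of_comm hF (by omega) hee hp.ff hc₀ hc₀ hc₀0 hc₀0 hcomm
    rw [hp.ef] at h3
    exact one_ne_zero h3
  have hne' : ⟪f₀, e'⟫ ≠ 0 := fun h0 => hne (hf_eq_zero_symm hF n _ _ h0)
  obtain ⟨l, hl⟩ : ∃ l : F, l = ⟪f₀, e'⟫⁻¹ := ⟨_, rfl⟩
  have hl0 : l ≠ 0 := by
    rw [hl]
    exact inv_ne_zero hne'
  have hp' : HypPair q e' (l • f₀) := by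
    refine ⟨he'e', herm_smul_self hf₀f₀ l, ?_⟩
    rw [hf_smul_right, hl, inv_pow, ← hf_conj hF n f₀ e', inv_mul_cancel₀ hne]
  have hT : ∀ c : F, c + c ^ q = 0 → ∃ c' : F, c' + c' ^ q = 0 ∧
      α (QuotientGroup.mk (tU hF f c)) = QuotientGroup.mk (tU hF (l • f₀) c') := by
    intro c hc
    obtain ⟨c', hc', h1⟩ := hT₀ c hc
    refine ⟨(l⁻¹) ^ (q + 1) * c', tz_norm_mul hF hc' _, ?_⟩
    rw [h1, ← tU_smul hF (herm_smul_self hf₀f₀ l) hc' l⁻¹, smul_smul, inv_mul_cancel₀ hl0,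
      one_smul]
  have hTinv : ∀ d : F, d + d ^ q = 0 → ∃ c : F, c + c ^ q = 0 ∧
      α⁻¹ (QuotientGroup.mk (tU hF (l • f₀) d)) = QuotientGroup.mk (tU hF f c) := by
    intro d hd
    obtain ⟨c, hc, h1⟩ := hT₀s (l ^ (q + 1) * d) (tz_norm_mul hF hd l)
    refine ⟨c, hc, ?_⟩
    rw [tU_smul hF hf₀f₀ hd l, ← h1]
    exact MulAut.inv_apply_self _ α _
  have hEinv : ∀ d : F, d + d ^ q = 0 → ∃ c : F, c + c ^ q = 0 ∧
      α⁻¹ (QuotientGroup.mk (tU hF e' d)) = QuotientGroup.mk (tU hF e c) := by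
    intro d hd
    obtain ⟨c, hc, h1⟩ := hEs d hd
    exact ⟨c, hc, by rw [← h1]; exact MulAut.inv_apply_self _ α _⟩
  have hQinv : ∀ x' ∈ QU q e', ∃ x ∈ QU q e,
      α⁻¹ (QuotientGroup.mk x') = QuotientGroup.mk x := by
    intro x' hx'
    obtain ⟨x, hx, h1⟩ := hQs x' hx'
    exact ⟨x, hx, by rw [← h1]; exact MulAut.inv_apply_self _ α _⟩
  obtain ⟨A, B, T, C⟩ := exists_coord hF hn2 α hp hp' hE hQ hT
  obtain ⟨A', B', T', C'⟩ := exists_coord hF hn2 α⁻¹ hp' hp hEinv hQinv hTinv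
  exact C.induced C' hn hs (p := p)

/-- the characteristic from the cardinality -/
theorem charP_of_card {p f : ℕ} [Fact p.Prime] (hq : q = p ^ f) (hf : 1 ≤ f)
    (hF : Fintype.card F = q ^ 2) : CharP F p := by
  haveI : Fact (ringChar F).Prime := ⟨CharP.char_is_prime F (ringChar F)⟩
  obtain ⟨k, hr, hk⟩ := FiniteField.card F (ringChar F)
  rw [hF, hq, ← pow_mul] at hk
  have h1 : p ∣ ringChar F ^ (k : ℕ) := by
    rw [← hk]
    exact dvd_pow_self p (by omega)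
  have h2 : p ∣ ringChar F := (Fact.out : p.Prime).dvd_of_dvd_pow h1
  have h3 : p = ringChar F := (Nat.prime_dvd_prime_iff_eq Fact.out hr).1 h2
  rw [h3]
  exact ringChar.charP F

end Cfsg.Agent.Lib.Helper53.AutPSU
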