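import Mathlib
import Cfsg.Agent.Lib.Helper53.SUFinal

/-!
# The standard automorphisms of `PSU_n(q)` as homomorphisms (helper53)

* `cjU : GU →* MulAut SU`, `faUHom : (F ≃+* F) →* MulAut SU`;
* `iotaU : GU →* MulAut PSU`, `PhiU : (F ≃+* F) →* MulAut PSU`, `gmapU σ : GU →* GU`;
* `PhiU_mul_iotaU`, `induced_iffU`, `innerDiagU_iff`, `mem_inndiagU`, `inndiagU_eq_range`,
  `stdFieldU_iff`, `all_aut`;
* `kerU`: `iotaU g * PhiU σ = 1` forces `σ = 1` and `g` scalar (`3 ≤ n`).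
-/

set_option autoImplicit false
set_option linter.unusedSectionVars false
set_option linter.unusedVariables false

namespace Cfsg.Agent.Lib.Helper53.AutPSU

open Matrix Cfsg.Agent.Lib.Helper7 Cfsg.Agent.Lib.Helper18 Cfsg.Agent.Lib.Helper87

variable {F : Type*} [Field F] [Fintype F] {q n : ℕ}

local notation "⟪" x ", " y "⟫" => Cfsg.hermForm n F q x y

theorem cjFunU_cjFunU (g h : GL (Fin n) F) (hg : g ∈ Cfsg.GU n F q) (hh : h ∈ Cfsg.GU n F q)
    (s : ↥(Cfsg.SU n F q)) :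
    cjFunU g hg (cjFunU h hh s) = cjFunU (g * h) (mul_mem hg hh) s := by
  apply Subtype.ext
  apply Subtype.ext
  show (g : Matrix (Fin n) (Fin n) F) * ((h : Matrix (Fin n) (Fin n) F) * suM s *
      ((h⁻¹ : GL (Fin n) F) : Matrix (Fin n) (Fin n) F)) *
      ((g⁻¹ : GL (Fin n) F) : Matrix (Fin n) (Fin n) F) =
    ((g * h : GL (Fin n) F) : Matrix (Fin n) (Fin n) F) * suM s *
      (((g * h)⁻¹ : GL (Fin n) F) : Matrix (Fin n) (Fin n) F)
  rw [_root_.mul_inv_rev, Units.val_mul, Units.val_mul]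
  simp only [Matrix.mul_assoc]

theorem cjFunU_one_left (s : ↥(Cfsg.SU n F q)) :
    cjFunU (1 : GL (Fin n) F) (one_mem _) s = s := by
  apply Subtype.ext
  apply Subtype.ext
  show ((1 : GL (Fin n) F) : Matrix (Fin n) (Fin n) F) * suM s *
      (((1 : GL (Fin n) F)⁻¹ : GL (Fin n) F) : Matrix (Fin n) (Fin n) F) = suM s
  rw [inv_one, Units.val_one, Matrix.one_mul, Matrix.mul_one]

theorem cjFunU_congr {g h : GL (Fin n) F} (e : g = h) (hg : g ∈ Cfsg.GU n F q)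
    (hh : h ∈ Cfsg.GU n F q) (s : ↥(Cfsg.SU n F q)) : cjFunU g hg s = cjFunU h hh s := by
  subst e
  rfl

/-- conjugation by a unitary matrix, as an automorphism of `SU` -/
def cjU : ↥(Cfsg.GU n F q) →* MulAut ↥(Cfsg.SU n F q) where
  toFun g :=
    { toFun := cjFunU g.1 g.2
      invFun := cjFunU (g.1)⁻¹ (inv_mem g.2)
      left_inv := fun s => by
        rw [cjFunU_cjFunU, cjFunU_congr (inv_mul_cancel g.1) _ (one_mem _), cjFunU_one_left]
      right_inv := fun s => by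
        rw [cjFunU_cjFunU, cjFunU_congr (mul_inv_cancel g.1) _ (one_mem _), cjFunU_one_left]
      map_mul' := cjFunU_mul g.1 g.2 }
  map_one' := by
    ext1 s
    exact cjFunU_one_left s
  map_mul' g h := by
    ext1 s
    exact (cjFunU_cjFunU g.1 h.1 g.2 h.2 s).symm

theorem cjU_coe (g : ↥(Cfsg.GU n F q)) (s : ↥(Cfsg.SU n F q)) :
    suM (cjU g s) = (g.1 : Matrix (Fin n) (Fin n) F) * suM s *
      ((g.1⁻¹ : GL (Fin n) F) : Matrix (Fin n) (Fin n) F) := rfl

/-- entrywise field automorphisms, as a homomorphism -/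
def faUHom : (F ≃+* F) →* MulAut ↥(Cfsg.SU n F q) where
  toFun := faU
  map_one' := by
    ext1 s
    apply Subtype.ext
    apply Subtype.ext
    show (suM s).map (((1 : F ≃+* F) : F ≃+* F) : F →+* F) = suM s
    ext i j
    rfl
  map_mul' σ τ := by
    ext1 s
    apply Subtype.ext
    apply Subtype.ext
    show (suM s).map ((σ * τ : F ≃+* F) : F →+* F) =
      ((suM s).map (τ : F →+* F)).map (σ : F →+* F)
    ext i j
    rfl

theorem faUHom_apply (σ : F ≃+* F) : (faUHom σ : MulAut ↥(Cfsg.SU n F q)) = faU σ := rfl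

/-- the inner-diagonal automorphism of `PSU` attached to a unitary matrix -/
noncomputable def iotaU : ↥(Cfsg.GU n F q) →* MulAut (Cfsg.PSU n F q) := descU.comp cjU

/-- the standard field automorphism of `PSU`, as a homomorphism -/
noncomputable def PhiU : (F ≃+* F) →* MulAut (Cfsg.PSU n F q) := descU.comp faUHom

theorem iotaU_mk (g : ↥(Cfsg.GU n F q)) (s : ↥(Cfsg.SU n F q)) :
    iotaU g (QuotientGroup.mk s) = QuotientGroup.mk (cjU g s) := rfl

theorem PhiU_mk (σ : F ≃+* F) (s : ↥(Cfsg.SU n F q)) :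
    PhiU σ (QuotientGroup.mk s) = QuotientGroup.mk (faU σ s) := rfl

/-- entrywise field automorphism on `GU` -/
def gmapU (σ : F ≃+* F) : ↥(Cfsg.GU n F q) →* ↥(Cfsg.GU n F q) where
  toFun g := ⟨GeneralLinearGroup.map (σ : F →+* F) g.1,
    (mem_GU_iff _).2 (map_pres σ _ ((mem_GU_iff g.1).1 g.2))⟩
  map_one' := Subtype.ext (map_one _)
  map_mul' g h := Subtype.ext (map_mul _ _ _)

theorem gmapU_coe (σ : F ≃+* F) (g : ↥(Cfsg.GU n F q)) :
    (((gmapU σ g).1 : GL (Fin n) F) : Matrix (Fin n) (Fin n) F) =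
      (g.1 : Matrix (Fin n) (Fin n) F).map σ := rfl

theorem gmapU_inv_coe (σ : F ≃+* F) (g : ↥(Cfsg.GU n F q)) :
    ((((gmapU σ g).1)⁻¹ : GL (Fin n) F) : Matrix (Fin n) (Fin n) F) =
      ((g.1⁻¹ : GL (Fin n) F) : Matrix (Fin n) (Fin n) F).map σ := rfl

theorem faU_mul_cjU (σ : F ≃+* F) (g : ↥(Cfsg.GU n F q)) :
    faU σ * cjU g = cjU (gmapU σ g) * faU σ := by
  ext1 s
  apply Subtype.ext
  apply Subtype.ext
  show ((g.1 : Matrix (Fin n) (Fin n) F) * suM s *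
      ((g.1⁻¹ : GL (Fin n) F) : Matrix (Fin n) (Fin n) F)).map (σ : F →+* F) =
    (((gmapU σ g).1 : GL (Fin n) F) : Matrix (Fin n) (Fin n) F) * (suM s).map (σ : F →+* F) *
      ((((gmapU σ g).1)⁻¹ : GL (Fin n) F) : Matrix (Fin n) (Fin n) F)
  rw [Matrix.map_mul, Matrix.map_mul]
  rfl

theorem PhiU_mul_iotaU (σ : F ≃+* F) (g : ↥(Cfsg.GU n F q)) :
    (PhiU σ : MulAut (Cfsg.PSU n F q)) * iotaU g = iotaU (gmapU σ g) * PhiU σ := by
  show descU (faU σ) * descU (cjU g) = descU (cjU (gmapU σ g)) * descU (faU σ)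
  rw [← map_mul, ← map_mul, faU_mul_cjU]

theorem induced_iffU (g : ↥(Cfsg.GU n F q)) (σ : F ≃+* F) (β : MulAut (Cfsg.PSU n F q)) :
    Cfsg.IsInducedBySemilinearPSU g.1 σ β ↔ β = iotaU g * PhiU σ := by
  constructor
  · intro h
    ext x
    induction x using QuotientGroup.induction_on with
    | H s => exact h s (cjU g (faU σ s)) rfl
  · rintro rfl s s' hs'
    show (QuotientGroup.mk (cjU g (faU σ s)) : Cfsg.PSU n F q) = QuotientGroup.mk s'
    congr 1
    apply Subtype.ext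
    apply Subtype.ext
    rw [hs']
    rfl

theorem innerDiagU_iff (β : MulAut (Cfsg.PSU n F q)) :
    Cfsg.IsInnerDiagonalAutPSU β ↔ ∃ g : ↥(Cfsg.GU n F q), β = iotaU g := by
  constructor
  · rintro ⟨g, hg, h⟩
    refine ⟨⟨g, hg⟩, ?_⟩
    ext x
    induction x using QuotientGroup.induction_on with
    | H s => exact h s (cjU ⟨g, hg⟩ s) rfl
  · rintro ⟨g, rfl⟩
    refine ⟨g.1, g.2, fun s s' hs' => ?_⟩
    rw [iotaU_mk]
    congr 1
    apply Subtype.ext
    apply Subtype.ext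
    rw [hs']
    rfl

theorem mem_inndiagU (β : MulAut (Cfsg.PSU n F q)) :
    β ∈ Cfsg.inndiagPSU n F q ↔ ∃ g : ↥(Cfsg.GU n F q), β = iotaU g := by
  constructor
  · intro h
    refine Subgroup.closure_induction (p := fun β _ => ∃ g : ↥(Cfsg.GU n F q), β = iotaU g)
      ?_ ?_ ?_ ?_ h
    · intro β hβ
      exact (innerDiagU_iff β).1 hβ
    · exact ⟨1, (map_one _).symm⟩
    · rintro _ _ _ _ ⟨g, rfl⟩ ⟨h, rfl⟩
      exact ⟨g * h, (map_mul _ _ _).symm⟩
    · rintro _ _ ⟨g, rfl⟩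
      exact ⟨g⁻¹, (map_inv _ _).symm⟩
  · rintro ⟨g, rfl⟩
    exact Subgroup.subset_closure ((innerDiagU_iff _).2 ⟨g, rfl⟩)

theorem inndiagU_eq_range :
    Cfsg.inndiagPSU n F q = (iotaU : ↥(Cfsg.GU n F q) →* MulAut (Cfsg.PSU n F q)).range := by
  ext β
  rw [mem_inndiagU, MonoidHom.mem_range]
  constructor
  · rintro ⟨g, rfl⟩
    exact ⟨g, rfl⟩
  · rintro ⟨g, rfl⟩
    exact ⟨g, rfl⟩

theorem stdFieldU_iff (σ : F ≃+* F) (β : MulAut (Cfsg.PSU n F q)) :
    Cfsg.IsFieldAutPSUOf σ β ↔ β = PhiU σ := by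
  constructor
  · intro h
    ext x
    induction x using QuotientGroup.induction_on with
    | H s => exact h s (faU σ s) rfl
  · rintro rfl
    exact fieldAut_of σ

/-- **Steinberg for `PSU`**, in terms of `iotaU` and `PhiU`. -/
theorem all_aut (hF : Fintype.card F = q ^ 2) (hn : 3 ≤ n) (hs : ¬ (n = 3 ∧ q = 2))
    {p : ℕ} [Fact p.Prime] [CharP F p] (β : MulAut (Cfsg.PSU n F q)) :
    ∃ (g : ↥(Cfsg.GU n F q)) (σ : F ≃+* F), β = iotaU g * PhiU σ := by
  obtain ⟨g, σ, hg, h⟩ := aut_induced (p := p) hF hn hs β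
  exact ⟨⟨g, hg⟩, σ, (induced_iffU ⟨g, hg⟩ σ β).1 h⟩

/-! ### The kernel -/

/-- the semilinear map `x ↦ g σ(x)` -/
def slU (g : GL (Fin n) F) (σ : F ≃+* F) (x : Fin n → F) : Fin n → F :=
  (g : Matrix (Fin n) (Fin n) F) *ᵥ (fun i => (σ : F →+* F) (x i))

theorem slU_add (g : GL (Fin n) F) (σ : F ≃+* F) (x y : Fin n → F) :
    slU g σ (x + y) = slU g σ x + slU g σ y := by
  unfold slU
  rw [← Matrix.mulVec_add]
  congr 1
  funext i
  simp

theorem slU_smul (g : GL (Fin n) F) (σ : F ≃+* F) (c : F) (x : Fin n → F) :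
    slU g σ (c • x) = σ c • slU g σ x := by
  unfold slU
  rw [← Matrix.mulVec_smul]
  congr 1
  funext i
  simp

theorem slU_zero (g : GL (Fin n) F) (σ : F ≃+* F) : slU g σ (0 : Fin n → F) = 0 := by
  have h := slU_smul g σ (0 : F) (0 : Fin n → F)
  rw [zero_smul, map_zero, zero_smul] at h
  exact h

theorem slU_ne_zero (g : GL (Fin n) F) (σ : F ≃+* F) {x : Fin n → F} (hx : x ≠ 0) :
    slU g σ x ≠ 0 := by
  intro h0
  apply hx
  have h1 := glU_inv_mulVec g (fun i => (σ : F →+* F) (x i))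
  have h2 : (g : Matrix (Fin n) (Fin n) F) *ᵥ (fun i => (σ : F →+* F) (x i)) = 0 := h0
  rw [h2, Matrix.mulVec_zero] at h1
  funext i
  have h3 := congrFun h1 i
  simp only [Pi.zero_apply] at h3
  have h4 : σ (x i) = 0 := h3.symm
  simpa using h4

theorem slU_form (g : GL (Fin n) F) (hg : g ∈ Cfsg.GU n F q) (σ : F ≃+* F) (x y : Fin n → F) :
    ⟪slU g σ x, slU g σ y⟫ = σ ⟪x, y⟫ := by
  unfold slU
  rw [(mem_GU_iff g).1 hg, hf_map]
  rfl

theorem slU_compat (g : ↥(Cfsg.GU n F q)) (σ : F ≃+* F) (s : ↥(Cfsg.SU n F q))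
    (x : Fin n → F) :
    suM (cjU g (faU σ s)) *ᵥ slU g.1 σ x = slU g.1 σ (suM s *ᵥ x) :=
  gamma_compat g.1 g.2 σ (slU g.1 σ) one_ne_zero (fun x => by rw [one_smul]; rfl) s x

/-- an automorphism in the kernel fixes every unitary transvection -/
theorem ker_tU (hF : Fintype.card F = q ^ 2) (hn : 1 ≤ n) (g : ↥(Cfsg.GU n F q)) (σ : F ≃+* F)
    (h : (iotaU g * PhiU σ : MulAut (Cfsg.PSU n F q)) = 1) {e : Fin n → F} (he0 : e ≠ 0)
    (hee : ⟪e, e⟫ = 0) {c : F} (hc : c + c ^ q = 0) :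
    cjU g (faU σ (tU hF e c)) = tU hF e c := by
  have h1 : (QuotientGroup.mk (cjU g (faU σ (tU hF e c))) : Cfsg.PSU n F q) =
      QuotientGroup.mk (tU hF e c) := by
    have h0 := congrArg (fun β : MulAut (Cfsg.PSU n F q) => β (QuotientGroup.mk (tU hF e c))) h
    exact h0
  obtain ⟨c₁, hc₁⟩ := pe_of_mk_eq hF hn h1
  have hT0 : slU g.1 σ e ≠ 0 := slU_ne_zero g.1 σ he0
  have hfix : suM (cjU g (faU σ (tU hF e c))) *ᵥ slU g.1 σ e = slU g.1 σ e := by
    rw [slU_compat, tU_mulVec hF hee hc, hee, mul_zero, zero_smul, add_zero]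
  have h2 := hc₁ (slU g.1 σ e)
  rw [hfix, tU_mulVec hF hee hc] at h2
  have hc1 : c₁ = 1 := by
    by_contra hne
    have h3 : ⟪slU g.1 σ e, e⟫ = 0 := by
      have h4 := congrArg (fun v => ⟪v, e⟫) h2
      simp only [hf_smul_left, hf_add_left, hee, mul_zero, add_zero] at h4
      have h5 : (1 - c₁) * ⟪slU g.1 σ e, e⟫ = 0 := by linear_combination h4
      rcases mul_eq_zero.1 h5 with h6 | h6
      · exact absurd (by linear_combination -h6 : c₁ = 1) hne
      · exact h6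
    rw [h3, mul_zero, zero_smul, add_zero] at h2
    have h7 : (1 - c₁) • slU g.1 σ e = 0 := by
      rw [sub_smul, one_smul]
      exact sub_eq_zero.2 h2
    rcases smul_eq_zero.1 h7 with h8 | h8
    · exact hne (by linear_combination -h8)
    · exact hT0 h8
  apply su_ext
  intro v
  rw [hc₁ v, hc1, one_smul]

theorem ker_rel (hF : Fintype.card F = q ^ 2) (hn : 1 ≤ n) (g : ↥(Cfsg.GU n F q)) (σ : F ≃+* F)
    (h : (iotaU g * PhiU σ : MulAut (Cfsg.PSU n F q)) = 1) {e : Fin n → F} (he0 : e ≠ 0)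
    (hee : ⟪e, e⟫ = 0) {c : F} (hc : c + c ^ q = 0) (x : Fin n → F) :
    (c * ⟪slU g.1 σ x, e⟫) • e = (σ (c * ⟪x, e⟫)) • slU g.1 σ e := by
  have h1 := slU_compat g σ (tU hF e c) x
  rw [ker_tU hF hn g σ h he0 hee hc, tU_mulVec hF hee hc, tU_mulVec hF hee hc, slU_add,
    slU_smul] at h1
  exact add_left_cancel h1

/-- an automorphism in the kernel fixes every isotropic point -/
theorem ker_iso (hF : Fintype.card F = q ^ 2) (hn : 1 ≤ n) (g : ↥(Cfsg.GU n F q)) (σ : F ≃+* F)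
    (h : (iotaU g * PhiU σ : MulAut (Cfsg.PSU n F q)) = 1) {e : Fin n → F} (he0 : e ≠ 0)
    (hee : ⟪e, e⟫ = 0) : ∃ l : F, l ≠ 0 ∧ slU g.1 σ e = l • e := by
  obtain ⟨f, hp⟩ := exists_hypPair hF he0 hee
  obtain ⟨c, hc0, hc⟩ := exists_tz_ne_zero hF
  have h1 := ker_rel hF hn g σ h he0 hee hc f
  rw [hp.fe hF, mul_one] at h1
  have hσc : σ c ≠ 0 := by
    intro h0
    apply hc0
    simpa using h0
  have key : slU g.1 σ e = ((σ c)⁻¹ * (c * ⟪slU g.1 σ f, e⟫)) • e := by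
    rw [mul_smul, h1, smul_smul, inv_mul_cancel₀ hσc, one_smul]
  refine ⟨_, fun h0 => ?_, key⟩
  rw [h0, zero_smul] at key
  exact slU_ne_zero g.1 σ he0 key

theorem iso_val (hF : Fintype.card F = q ^ 2) {e f w : Fin n → F} (hp : HypPair q e f)
    (hwe : ⟪w, e⟫ = 0) (hwf : ⟪w, f⟫ = 0) {a : F} (ha : a + a ^ q + ⟪w, w⟫ = 0) :
    ⟪a • e + w + f, a • e + w + f⟫ = 0 := by
  have hew := hf_eq_zero_symm hF n w e hwe
  have hfw := hf_eq_zero_symm hF n w f hwf
  simp only [hf_add_left, hf_add_right hF, hf_smul_left, hf_smul_right, hp.ee, hp.ff, hp.ef,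
    hp.fe hF, hwe, hwf, hew, hfw]
  linear_combination ha

theorem exists_dual (hF : Fintype.card F = q ^ 2) {e f w : Fin n → F} (hp : HypPair q e f)
    (hw0 : w ≠ 0) (hwe : ⟪w, e⟫ = 0) (hwf : ⟪w, f⟫ = 0) :
    ∃ w' : Fin n → F, ⟪w', e⟫ = 0 ∧ ⟪w', f⟫ = 0 ∧ ⟪w, w'⟫ = 1 := by
  obtain ⟨u, hu⟩ := exists_herm_one (q := q) hw0
  have hwu : ⟪w, u⟫ = 1 := by rw [hf_conj hF n u w, hu, one_pow]
  refine ⟨pj q e f u, pj_e hF hp u, pj_f hF hp u, ?_⟩
  unfold pj
  rw [hf_sub_right hF, hf_sub_right hF, hf_smul_right, hf_smul_right, hwe, hwf, hwu]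
  ring

theorem exists_ne_two (hF : Fintype.card F = q ^ 2) : ∃ β : F, β ≠ 0 ∧ 1 + β ≠ 0 := by
  classical
  by_contra hcon
  push Not at hcon
  have hsub : (Finset.univ : Finset F) ⊆ {0, -1} := by
    intro x _
    by_cases hx : x = 0
    · simp [hx]
    · have h1 := hcon x hx
      have hx1 : x = -1 := by linear_combination h1
      simp [hx1]
  have hc := Finset.card_le_card hsub
  rw [Finset.card_univ, hF] at hc
  have h2 : ({0, -1} : Finset F).card ≤ 2 := Finset.card_le_two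
  have hq := herm_two_le hF
  nlinarith

/-- the core computation for the kernel -/
theorem ker_core (hF : Fintype.card F = q ^ 2) (hn : 1 ≤ n) (g : ↥(Cfsg.GU n F q)) (σ : F ≃+* F)
    (h : (iotaU g * PhiU σ : MulAut (Cfsg.PSU n F q)) = 1) {e f w w' : Fin n → F}
    (hp : HypPair q e f) (hwe : ⟪w, e⟫ = 0) (hwf : ⟪w, f⟫ = 0)
    (hw'e : ⟪w', e⟫ = 0) (hw'f : ⟪w', f⟫ = 0) (hww' : ⟪w, w'⟫ = 1)
    {le lf : F} (hTe : slU g.1 σ e = le • e) (hTf : slU g.1 σ f = lf • f) (hlf : lf ≠ 0) :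
    (∀ β : F, σ β = β) ∧
      ∃ a : F, slU g.1 σ w = (a * (lf - le)) • e + lf • w := by
  have hew' := hf_eq_zero_symm hF n w' e hw'e
  have hfw' := hf_eq_zero_symm hF n w' f hw'f
  obtain ⟨z, hz⟩ : ∃ z : F, z = ⟪slU g.1 σ w, e⟫ := ⟨_, rfl⟩
  obtain ⟨y, hy⟩ : ∃ y : F, y = ⟪slU g.1 σ w, w'⟫ := ⟨_, rfl⟩
  -- the basic relation
  have hR : ∀ b a : F, a + a ^ q + ⟪b • w, b • w⟫ = 0 →
      slU g.1 σ (a • e + b • w + f) = (σ b * z + lf) • (a • e + b • w + f) ∧
        (σ b * z + lf) * b = σ b * y := by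
    intro b a ha
    have hbwe : ⟪b • w, e⟫ = 0 := by rw [hf_smul_left, hwe, mul_zero]
    have hbwf : ⟪b • w, f⟫ = 0 := by rw [hf_smul_left, hwf, mul_zero]
    have hiso := iso_val hF hp hbwe hbwf ha
    have hv0 : a • e + b • w + f ≠ 0 := by
      intro h0
      have h1 : ⟪a • e + b • w + f, e⟫ = 1 := by
        simp only [hf_add_left, hf_smul_left, hp.ee, hp.fe hF, hwe]
        ring
      rw [h0, hf_zero_left] at h1
      exact zero_ne_one h1
    obtain ⟨l, hl0, hl⟩ := ker_iso hF hn g σ h hv0 hiso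
    have hexp : slU g.1 σ (a • e + b • w + f) =
        (σ a * le) • e + σ b • slU g.1 σ w + lf • f := by
      rw [slU_add, slU_add, slU_smul, slU_smul, hTe, hTf, smul_smul]
    have h1 : l = σ b * z + lf := by
      have h2 := congrArg (fun v => ⟪v, e⟫) hl
      rw [hexp] at h2
      simp only [hf_add_left, hf_smul_left, hp.ee, hp.fe hF, hwe, ← hz] at h2
      linear_combination -h2
    have h3 : l * b = σ b * y := by
      have h2 := congrArg (fun v => ⟪v, w'⟫) hl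
      rw [hexp] at h2
      simp only [hf_add_left, hf_smul_left, hew', hfw', hww', ← hy] at h2
      linear_combination -h2
    rw [h1] at hl h3
    exact ⟨hl, h3⟩
  have hR' : ∀ b : F, (σ b * z + lf) * b = σ b * y := by
    intro b
    obtain ⟨a, ha⟩ := exists_val hF (b • w)
    exact (hR b a ha).2
  -- the additive function `β ↦ y β - lf σ(β)` is constant on nonzero elements
  have hH : ∀ β : F, β ≠ 0 → y * β - lf * σ β = z := by
    intro β hβ
    have hσβ : σ β ≠ 0 := by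
      intro h0
      apply hβ
      simpa using h0
    have h1 := hR' β⁻¹
    rw [map_inv₀] at h1
    have h2 : ((σ β)⁻¹ * z + lf) * β⁻¹ * (β * σ β) = (σ β)⁻¹ * y * (β * σ β) := by rw [h1]
    have h3 : ((σ β)⁻¹ * z + lf) * β⁻¹ * (β * σ β) = z + lf * σ β := by
      field_simp
    have h4 : (σ β)⁻¹ * y * (β * σ β) = y * β := by
      field_simp
    rw [h3, h4] at h2
    linear_combination -h2
  obtain ⟨β₀, hβ₀, hβ₁⟩ := exists_ne_two hF
  have hz0 : z = 0 := by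
    have h1 := hH 1 one_ne_zero
    have h2 := hH β₀ hβ₀
    have h3 := hH (1 + β₀) hβ₁
    rw [map_add] at h3
    rw [map_one] at h1 h3
    linear_combination -(h1 + h2 - h3)
  have hy1 : y = lf := by
    have h1 := hH 1 one_ne_zero
    rw [map_one, hz0] at h1
    linear_combination h1
  have hσ : ∀ β : F, σ β = β := by
    intro β
    by_cases hβ : β = 0
    · rw [hβ, map_zero]
    · have h1 := hH β hβ
      rw [hz0, hy1] at h1
      have h2 : lf * (β - σ β) = 0 := by linear_combination h1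
      rcases mul_eq_zero.1 h2 with h3 | h3
      · exact absurd h3 hlf
      · linear_combination -h3
  refine ⟨hσ, ?_⟩
  obtain ⟨a, ha⟩ := exists_val hF ((1 : F) • w)
  obtain ⟨h1, -⟩ := hR 1 a ha
  refine ⟨a, ?_⟩
  have hexp : slU g.1 σ (a • e + (1 : F) • w + f) =
      (σ a * le) • e + σ 1 • slU g.1 σ w + lf • f := by
    rw [slU_add, slU_add, slU_smul, slU_smul, hTe, hTf, smul_smul]
  rw [hexp, map_one, one_smul, one_mul, hz0, zero_add, hσ a, one_smul] at h1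
  linear_combination (norm := module) h1

/-- **The kernel of `(g, σ) ↦ iotaU g * PhiU σ`.** -/
theorem kerU (hF : Fintype.card F = q ^ 2) (hn : 3 ≤ n) (g : ↥(Cfsg.GU n F q)) (σ : F ≃+* F)
    (h : (iotaU g * PhiU σ : MulAut (Cfsg.PSU n F q)) = 1) :
    σ = 1 ∧ ∃ c : F, (g.1 : Matrix (Fin n) (Fin n) F) = c • (1 : Matrix (Fin n) (Fin n) F) := by
  have hn1 : 1 ≤ n := by omega
  obtain ⟨m, rfl⟩ : ∃ m, n = m + 2 := ⟨n - 2, by omega⟩
  obtain ⟨e, he0, hee⟩ := exists_isotropic hF m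
  obtain ⟨f, hp⟩ := exists_hypPair hF he0 hee
  obtain ⟨le, hle0, hTe⟩ := ker_iso hF hn1 g σ h he0 hee
  obtain ⟨lf, hlf0, hTf⟩ := ker_iso hF hn1 g σ h (hp.ne' hF) hp.ff
  obtain ⟨w₀, hw₀, hw₀e, hw₀f⟩ := exists_perp2 (q := q) hn e f
  obtain ⟨w₀', hw₀'e, hw₀'f, hww₀⟩ := exists_dual hF hp hw₀ hw₀e hw₀f
  obtain ⟨hσ, a, ha⟩ := ker_core hF hn1 g σ h hp hw₀e hw₀f hw₀'e hw₀'f hww₀ hTe hTf hlf0
  obtain ⟨-, a', ha'⟩ := ker_core hF hn1 g σ h (hp.symm hF) hw₀f hw₀e hw₀'f hw₀'e hww₀ hTf hTe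
    hle0
  have hew' := hf_eq_zero_symm hF (m + 2) w₀' e hw₀'e
  have hfw' := hf_eq_zero_symm hF (m + 2) w₀' f hw₀'f
  have hlef : le = lf := by
    have h1 := congrArg (fun v => Cfsg.hermForm (m + 2) F q v w₀') ha
    have h2 := congrArg (fun v => Cfsg.hermForm (m + 2) F q v w₀') ha'
    simp only [hf_add_left, hf_smul_left, hew', hfw', hww₀] at h1 h2
    rw [h1] at h2
    linear_combination -h2
  have hσ1 : σ = 1 := RingEquiv.ext hσ
  refine ⟨hσ1, lf, ?_⟩
  -- `g` acts as the scalar `lf`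
  have hW : ∀ w : Fin (m + 2) → F, Cfsg.hermForm (m + 2) F q w e = 0 →
      Cfsg.hermForm (m + 2) F q w f = 0 → slU g.1 σ w = lf • w := by
    intro w hwe hwf
    by_cases hw0 : w = 0
    · rw [hw0, slU_zero, smul_zero]
    · obtain ⟨w', hw'e, hw'f, hww'⟩ := exists_dual hF hp hw0 hwe hwf
      obtain ⟨-, b, hb⟩ := ker_core hF hn1 g σ h hp hwe hwf hw'e hw'f hww' hTe hTf hlf0
      rw [hb, hlef, sub_self, mul_zero, zero_smul, zero_add]
  have hall : ∀ x : Fin (m + 2) → F, slU g.1 σ x = lf • x := by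
    intro x
    have hx := pj_decomp (q := q) e f x
    have h1 : slU g.1 σ x = slU g.1 σ (Cfsg.hermForm (m + 2) F q x f • e +
        Cfsg.hermForm (m + 2) F q x e • f + pj q e f x) := by rw [← hx]
    rw [h1, slU_add, slU_add, slU_smul, slU_smul, hTe, hTf, hW _ (pj_e hF hp x) (pj_f hF hp x),
      hσ, hσ, hlef]
    conv_rhs => rw [hx]
    module
  have hmv : ∀ x : Fin (m + 2) → F,
      (g.1 : Matrix (Fin (m + 2)) (Fin (m + 2)) F) *ᵥ x =
        (lf • (1 : Matrix (Fin (m + 2)) (Fin (m + 2)) F)) *ᵥ x := by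
    intro x
    have h1 := hall x
    unfold slU at h1
    have h2 : (fun i => (σ : F →+* F) (x i)) = x := by
      funext i
      exact hσ (x i)
    rw [h2] at h1
    rw [h1, Matrix.smul_mulVec, Matrix.one_mulVec]
  ext i j
  have h1 := congrFun (hmv (Pi.single j 1)) i
  rw [Matrix.mulVec_single_one, Matrix.mulVec_single_one] at h1
  exact h1

end Cfsg.Agent.Lib.Helper53.AutPSU
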