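import Mathlib
import Cfsg.Agent.Lib.Helper53.SUField
import Cfsg.Agent.Lib.Helper7.SUCenter
import Cfsg.Agent.Lib.Helper7.SUOrder
import Cfsg.Agent.S0783

/-!
# `Aut(PSU_n(q))`: order and outer automorphism group (helper53)

* `iotaU_eq_one_iff`, `PhiU_injective`, `iotaU_PhiU_inj`;
* `lamU : MulAut PSU →* (F ≃+* F)` (the field-automorphism component), surjective with kernel
  `iotaU.range`;
* `card_aut_psu`, `out_psu`.
-/

set_option autoImplicit false
set_option linter.unusedSectionVars false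
set_option linter.unusedVariables false

namespace Cfsg.Agent.Lib.Helper53.AutPSU

open Matrix Cfsg.Agent.Lib.Helper7 Cfsg.Agent.Lib.Helper18 Cfsg.Agent.Lib.Helper87

variable {F : Type*} [Field F] [Fintype F] {q n : ℕ}

local notation "⟪" x ", " y "⟫" => Cfsg.hermForm n F q x y

theorem iotaU_scalar (g : ↥(Cfsg.GU n F q)) (c : F)
    (hc : (g.1 : Matrix (Fin n) (Fin n) F) = c • (1 : Matrix (Fin n) (Fin n) F)) :
    (iotaU g : MulAut (Cfsg.PSU n F q)) = 1 := by
  ext x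
  induction x using QuotientGroup.induction_on with
  | H s =>
    rw [iotaU_mk]
    show (QuotientGroup.mk (cjU g s) : Cfsg.PSU n F q) = QuotientGroup.mk s
    congr 1
    apply Subtype.ext
    apply Subtype.ext
    show (g.1 : Matrix (Fin n) (Fin n) F) * suM s *
      ((g.1⁻¹ : GL (Fin n) F) : Matrix (Fin n) (Fin n) F) = suM s
    have h1 : (g.1 : Matrix (Fin n) (Fin n) F) * suM s =
        suM s * (g.1 : Matrix (Fin n) (Fin n) F) := by
      rw [hc, Matrix.smul_mul, Matrix.one_mul, Matrix.mul_smul, Matrix.mul_one]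
    rw [h1, Matrix.mul_assoc, glU_mul_inv, Matrix.mul_one]

theorem iotaU_eq_one_iff (hF : Fintype.card F = q ^ 2) (hn : 3 ≤ n) (g : ↥(Cfsg.GU n F q)) :
    (iotaU g : MulAut (Cfsg.PSU n F q)) = 1 ↔
      ∃ c : F, (g.1 : Matrix (Fin n) (Fin n) F) = c • (1 : Matrix (Fin n) (Fin n) F) := by
  constructor
  · intro h
    have h1 : (iotaU g * PhiU (1 : F ≃+* F) : MulAut (Cfsg.PSU n F q)) = 1 := by
      rw [map_one, mul_one, h]
    exact (kerU hF hn g 1 h1).2
  · rintro ⟨c, hc⟩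
    exact iotaU_scalar g c hc

theorem PhiU_injective (hF : Fintype.card F = q ^ 2) (hn : 3 ≤ n) :
    Function.Injective (PhiU : (F ≃+* F) →* MulAut (Cfsg.PSU n F q)) := by
  rw [injective_iff_map_eq_one]
  intro σ h
  have h1 : (iotaU (1 : ↥(Cfsg.GU n F q)) * PhiU σ : MulAut (Cfsg.PSU n F q)) = 1 := by
    rw [map_one, one_mul, h]
  exact (kerU hF hn 1 σ h1).1

theorem iotaU_PhiU_inj (hF : Fintype.card F = q ^ 2) (hn : 3 ≤ n) {g g' : ↥(Cfsg.GU n F q)}
    {σ σ' : F ≃+* F}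
    (h : (iotaU g * PhiU σ : MulAut (Cfsg.PSU n F q)) = iotaU g' * PhiU σ') :
    σ = σ' ∧ (iotaU g : MulAut (Cfsg.PSU n F q)) = iotaU g' := by
  have h1 : (iotaU (g'⁻¹ * g) * PhiU (σ * σ'⁻¹) : MulAut (Cfsg.PSU n F q)) = 1 := by
    rw [map_mul, map_mul, map_inv, map_inv]
    have h2 : (iotaU g * PhiU σ * (PhiU σ')⁻¹ : MulAut (Cfsg.PSU n F q)) = iotaU g' := by
      rw [h, mul_inv_cancel_right]
    calc (iotaU g')⁻¹ * iotaU g * (PhiU σ * (PhiU σ')⁻¹)
        = (iotaU g')⁻¹ * (iotaU g * PhiU σ * (PhiU σ')⁻¹ : MulAut (Cfsg.PSU n F q)) := by group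
      _ = 1 := by rw [h2, inv_mul_cancel]
  obtain ⟨hσ, -⟩ := kerU hF hn _ _ h1
  have hσ' : σ = σ' := by rwa [mul_inv_eq_one] at hσ
  refine ⟨hσ', ?_⟩
  subst hσ'
  exact mul_right_cancel h

/-! ### The field-automorphism component -/

theorem exists_lamU (hF : Fintype.card F = q ^ 2) (hn : 3 ≤ n) (hs : ¬ (n = 3 ∧ q = 2))
    (p : ℕ) [Fact p.Prime] [CharP F p] (β : MulAut (Cfsg.PSU n F q)) :
    ∃ σ : F ≃+* F, ∃ g : ↥(Cfsg.GU n F q), β = iotaU g * PhiU σ := by
  obtain ⟨g, σ, h⟩ := all_aut (p := p) hF hn hs β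
  exact ⟨σ, g, h⟩

noncomputable def lamFun (hF : Fintype.card F = q ^ 2) (hn : 3 ≤ n) (hs : ¬ (n = 3 ∧ q = 2))
    (p : ℕ) [Fact p.Prime] [CharP F p] (β : MulAut (Cfsg.PSU n F q)) : F ≃+* F :=
  Classical.choose (exists_lamU hF hn hs p β)

theorem lamFun_eq (hF : Fintype.card F = q ^ 2) (hn : 3 ≤ n) (hs : ¬ (n = 3 ∧ q = 2))
    (p : ℕ) [Fact p.Prime] [CharP F p] (g : ↥(Cfsg.GU n F q)) (σ : F ≃+* F) :
    lamFun hF hn hs p (iotaU g * PhiU σ) = σ := by
  obtain ⟨g', h⟩ := Classical.choose_spec (exists_lamU hF hn hs p (iotaU g * PhiU σ))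
  exact ((iotaU_PhiU_inj hF hn h).1).symm

/-- the field-automorphism component of an automorphism of `PSU` -/
noncomputable def lamU (hF : Fintype.card F = q ^ 2) (hn : 3 ≤ n) (hs : ¬ (n = 3 ∧ q = 2))
    (p : ℕ) [Fact p.Prime] [CharP F p] : MulAut (Cfsg.PSU n F q) →* (F ≃+* F) where
  toFun := lamFun hF hn hs p
  map_one' := by
    have h : (1 : MulAut (Cfsg.PSU n F q)) = iotaU (1 : ↥(Cfsg.GU n F q)) * PhiU (1 : F ≃+* F) := by
      rw [map_one, map_one, mul_one]
    rw [h, lamFun_eq]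
  map_mul' β β' := by
    obtain ⟨g, σ, rfl⟩ := all_aut (p := p) hF hn hs β
    obtain ⟨g', σ', rfl⟩ := all_aut (p := p) hF hn hs β'
    have h : (iotaU g * PhiU σ * (iotaU g' * PhiU σ') : MulAut (Cfsg.PSU n F q)) =
        iotaU (g * gmapU σ g') * PhiU (σ * σ') := by
      rw [map_mul, map_mul]
      calc (iotaU g * PhiU σ * (iotaU g' * PhiU σ') : MulAut (Cfsg.PSU n F q))
          = iotaU g * (PhiU σ * iotaU g') * PhiU σ' := by group
        _ = iotaU g * (iotaU (gmapU σ g') * PhiU σ) * PhiU σ' := by rw [PhiU_mul_iotaU]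
        _ = iotaU g * iotaU (gmapU σ g') * (PhiU σ * PhiU σ') := by group
    rw [h, lamFun_eq, lamFun_eq, lamFun_eq]

theorem lamU_apply (hF : Fintype.card F = q ^ 2) (hn : 3 ≤ n) (hs : ¬ (n = 3 ∧ q = 2))
    (p : ℕ) [Fact p.Prime] [CharP F p] (g : ↥(Cfsg.GU n F q)) (σ : F ≃+* F) :
    lamU hF hn hs p (iotaU g * PhiU σ) = σ := lamFun_eq hF hn hs p g σ

theorem lamU_iotaU (hF : Fintype.card F = q ^ 2) (hn : 3 ≤ n) (hs : ¬ (n = 3 ∧ q = 2))
    (p : ℕ) [Fact p.Prime] [CharP F p] (g : ↥(Cfsg.GU n F q)) :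
    lamU hF hn hs p (iotaU g) = 1 := by
  have h := lamU_apply hF hn hs p g 1
  rwa [map_one, mul_one] at h

theorem lamU_PhiU (hF : Fintype.card F = q ^ 2) (hn : 3 ≤ n) (hs : ¬ (n = 3 ∧ q = 2))
    (p : ℕ) [Fact p.Prime] [CharP F p] (σ : F ≃+* F) :
    lamU hF hn hs p (PhiU σ) = σ := by
  have h := lamU_apply hF hn hs p 1 σ
  rwa [map_one, one_mul] at h

theorem lamU_surjective (hF : Fintype.card F = q ^ 2) (hn : 3 ≤ n) (hs : ¬ (n = 3 ∧ q = 2))
    (p : ℕ) [Fact p.Prime] [CharP F p] : Function.Surjective (lamU hF hn hs p) :=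
  fun σ => ⟨PhiU σ, lamU_PhiU hF hn hs p σ⟩

theorem lamU_ker (hF : Fintype.card F = q ^ 2) (hn : 3 ≤ n) (hs : ¬ (n = 3 ∧ q = 2))
    (p : ℕ) [Fact p.Prime] [CharP F p] :
    (lamU hF hn hs p).ker =
      (iotaU : ↥(Cfsg.GU n F q) →* MulAut (Cfsg.PSU n F q)).range := by
  ext β
  rw [MonoidHom.mem_ker, MonoidHom.mem_range]
  constructor
  · intro h
    obtain ⟨g, σ, rfl⟩ := all_aut (p := p) hF hn hs β
    rw [lamU_apply] at h
    exact ⟨g, by rw [h, map_one, mul_one]⟩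
  · rintro ⟨g, rfl⟩
    exact lamU_iotaU hF hn hs p g

/-! ### Counting -/

/-- the automorphism group of a field of order `p ^ k` is cyclic of order `k` -/
theorem ringAut_cyclic' {p k : ℕ} [Fact p.Prime] [CharP F p] (hF : Fintype.card F = p ^ k) :
    IsCyclic (F ≃+* F) ∧ Nat.card (F ≃+* F) = k := by
  let _ : Algebra (ZMod p) F := ZMod.algebra F p
  let e : (F ≃ₐ[ZMod p] F) ≃* (F ≃+* F) :=
    { toFun := fun f => f.toRingEquiv
      invFun := fun f => AlgEquiv.ofRingEquiv (f := f) (fun x =>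
        RingHom.congr_fun (Subsingleton.elim ((f : F →+* F).comp (algebraMap (ZMod p) F))
          (algebraMap (ZMod p) F)) x)
      left_inv := fun f => by ext x; rfl
      right_inv := fun f => by ext x; rfl
      map_mul' := fun f g => rfl }
  refine ⟨isCyclic_of_surjective e e.surjective, ?_⟩
  rw [← Nat.card_congr e.toEquiv, IsGalois.card_aut_eq_finrank]
  have h1 := Module.card_eq_pow_finrank (K := ZMod p) (V := F)
  rw [hF, ZMod.card] at h1
  exact (Nat.pow_right_injective (Fact.out : p.Prime).two_le h1).symm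

/-- scalar unitary matrices -/
def guScal (q n : ℕ) : (powMonoidHom (q + 1) : Fˣ →* Fˣ).ker →* ↥(Cfsg.GU n F q) where
  toFun u := ⟨⟨((u.1 : Fˣ) : F) • (1 : Matrix (Fin n) (Fin n) F),
      (((u.1 : Fˣ)⁻¹ : Fˣ) : F) • (1 : Matrix (Fin n) (Fin n) F),
      by simp [smul_smul], by simp [smul_smul]⟩, by
    rw [mem_GU_iff]
    intro x y
    show Cfsg.hermForm n F q ((((u.1 : Fˣ) : F) • (1 : Matrix (Fin n) (Fin n) F)) *ᵥ x)
      ((((u.1 : Fˣ) : F) • (1 : Matrix (Fin n) (Fin n) F)) *ᵥ y) = Cfsg.hermForm n F q x y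
    have hu : ((u.1 : Fˣ) : F) ^ (q + 1) = 1 := by
      have h1 := u.2
      rw [MonoidHom.mem_ker, powMonoidHom_apply] at h1
      have h2 := congrArg (fun v : Fˣ => (v : F)) h1
      simpa using h2
    rw [Matrix.smul_mulVec, Matrix.smul_mulVec, Matrix.one_mulVec, Matrix.one_mulVec,
      hf_smul_left, hf_smul_right, ← mul_assoc, ← pow_succ', hu, one_mul]⟩
  map_one' := by
    apply Subtype.ext
    apply Units.ext
    show (((1 : (powMonoidHom (q + 1) : Fˣ →* Fˣ).ker).1 : Fˣ) : F) •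
      (1 : Matrix (Fin n) (Fin n) F) = 1
    simp
  map_mul' u v := by
    apply Subtype.ext
    apply Units.ext
    show ((((u * v : (powMonoidHom (q + 1) : Fˣ →* Fˣ).ker)).1 : Fˣ) : F) •
        (1 : Matrix (Fin n) (Fin n) F) =
      (((u.1 : Fˣ) : F) • (1 : Matrix (Fin n) (Fin n) F)) *
        (((v.1 : Fˣ) : F) • (1 : Matrix (Fin n) (Fin n) F))
    rw [Matrix.smul_mul, Matrix.one_mul, smul_smul]
    rfl

theorem guScal_coe (u : (powMonoidHom (q + 1) : Fˣ →* Fˣ).ker) :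
    (((guScal q n u).1 : GL (Fin n) F) : Matrix (Fin n) (Fin n) F) =
      ((u.1 : Fˣ) : F) • (1 : Matrix (Fin n) (Fin n) F) := rfl

theorem guScal_injective (hn : 1 ≤ n) : Function.Injective (guScal (F := F) q n) := by
  intro u v h
  have h1 := congrArg (fun g : ↥(Cfsg.GU n F q) =>
    ((g.1 : GL (Fin n) F) : Matrix (Fin n) (Fin n) F) ⟨0, by omega⟩ ⟨0, by omega⟩) h
  simp only [guScal_coe, Matrix.smul_apply, Matrix.one_apply_eq, smul_eq_mul, mul_one] at h1
  exact Subtype.ext (Units.ext h1)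

theorem guScal_range (hF : Fintype.card F = q ^ 2) (hn : 3 ≤ n) :
    (guScal (F := F) q n).range =
      (iotaU : ↥(Cfsg.GU n F q) →* MulAut (Cfsg.PSU n F q)).ker := by
  ext g
  rw [MonoidHom.mem_range, MonoidHom.mem_ker]
  constructor
  · rintro ⟨u, rfl⟩
    exact iotaU_scalar _ _ (guScal_coe u)
  · intro h
    obtain ⟨c, hc⟩ := (iotaU_eq_one_iff hF hn g).1 h
    have hc0 : c ≠ 0 := by
      rintro rfl
      rw [zero_smul] at hc
      have h1 := glU_mul_inv g.1
      rw [hc, Matrix.zero_mul] at h1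
      have h2 := congrFun (congrFun h1 ⟨0, by omega⟩) ⟨0, by omega⟩
      simp at h2
    have hcq : c ^ (q + 1) = 1 := by
      obtain ⟨m, rfl⟩ : ∃ m, n = m + 2 := ⟨n - 2, by omega⟩
      obtain ⟨e, he0, hee⟩ := exists_isotropic hF m
      obtain ⟨f, hp⟩ := exists_hypPair hF he0 hee
      have h1 := (mem_GU_iff g.1).1 g.2 e f
      rw [hc, Matrix.smul_mulVec, Matrix.smul_mulVec, Matrix.one_mulVec, Matrix.one_mulVec,
        hf_smul_left, hf_smul_right, hp.ef, mul_one] at h1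
      rw [pow_succ']
      exact h1
    refine ⟨⟨Units.mk0 c hc0, ?_⟩, ?_⟩
    · rw [MonoidHom.mem_ker, powMonoidHom_apply]
      apply Units.ext
      simpa using hcq
    · apply Subtype.ext
      apply Units.ext
      rw [guScal_coe, hc]
      rfl

theorem card_ker_iotaU (hF : Fintype.card F = q ^ 2) (hn : 3 ≤ n) :
    Nat.card (iotaU : ↥(Cfsg.GU n F q) →* MulAut (Cfsg.PSU n F q)).ker = q + 1 := by
  rw [← guScal_range hF hn]
  exact ((Nat.card_congr
    (MonoidHom.ofInjective (guScal_injective (F := F) (q := q) (by omega : 1 ≤ n))).toEquiv).symm).trans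
    (herm_card_ker hF)

theorem card_range_iotaU (hF : Fintype.card F = q ^ 2) (hn : 3 ≤ n) :
    Nat.card (iotaU : ↥(Cfsg.GU n F q) →* MulAut (Cfsg.PSU n F q)).range =
      Nat.card ↥(Cfsg.SU n F q) := by
  have h1 := Subgroup.card_eq_card_quotient_mul_card_subgroup
    (iotaU : ↥(Cfsg.GU n F q) →* MulAut (Cfsg.PSU n F q)).ker
  rw [Nat.card_congr (QuotientGroup.quotientKerEquivRange
    (iotaU : ↥(Cfsg.GU n F q) →* MulAut (Cfsg.PSU n F q))).toEquiv, card_ker_iotaU hF hn,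
    ← card_SU hF n (by omega)] at h1
  have h2 : 0 < q + 1 := by omega
  nlinarith

/-- **The order of `Aut(PSU_n(q))`.** -/
theorem card_aut_psu (hF : Fintype.card F = q ^ 2) (hn : 3 ≤ n) (hs : ¬ (n = 3 ∧ q = 2))
    {p f : ℕ} [Fact p.Prime] (hq : q = p ^ f) (hf : 1 ≤ f) :
    Nat.card (MulAut (Cfsg.PSU n F q)) =
      Nat.gcd n (q + 1) * (2 * f) * Nat.card (Cfsg.PSU n F q) := by
  haveI := charP_of_card hq hf hF
  have hcardF : Fintype.card F = p ^ (2 * f) := by
    rw [hF, hq, ← pow_mul, mul_comm]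
  have h1 := Subgroup.card_eq_card_quotient_mul_card_subgroup (lamU hF hn hs p).ker
  rw [Nat.card_congr (QuotientGroup.quotientKerEquivOfSurjective _
    (lamU_surjective hF hn hs p)).toEquiv, (ringAut_cyclic' (p := p) hcardF).2, lamU_ker,
    card_range_iotaU hF hn] at h1
  have h2 := Subgroup.card_eq_card_quotient_mul_card_subgroup
    (Subgroup.center ↥(Cfsg.SU n F q))
  rw [card_center_SU hF n (by omega)] at h2
  rw [h1, h2]
  show 2 * f * (Nat.card (↥(Cfsg.SU n F q) ⧸ Subgroup.center ↥(Cfsg.SU n F q)) *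
    Nat.gcd n (q + 1)) = Nat.gcd n (q + 1) * (2 * f) *
    Nat.card (↥(Cfsg.SU n F q) ⧸ Subgroup.center ↥(Cfsg.SU n F q))
  ring

/-! ### The outer automorphism group -/

/-- `SU` inside `GU` -/
def suToGU : ↥(Cfsg.SU n F q) →* ↥(Cfsg.GU n F q) where
  toFun s := ⟨⟨suM s, suM s⁻¹,
      by rw [← suM_mul, mul_inv_cancel, suM_one], by rw [← suM_mul, inv_mul_cancel, suM_one]⟩,
    (mem_GU_iff _).2 (su_pres s)⟩
  map_one' := by
    apply Subtype.ext
    apply Units.ext
    rfl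
  map_mul' s t := by
    apply Subtype.ext
    apply Units.ext
    rfl

theorem suToGU_coe (s : ↥(Cfsg.SU n F q)) :
    (((suToGU s).1 : GL (Fin n) F) : Matrix (Fin n) (Fin n) F) = suM s := rfl

theorem cjU_suToGU (s : ↥(Cfsg.SU n F q)) : cjU (suToGU s) = MulAut.conj s := by
  ext1 t
  apply Subtype.ext
  apply Subtype.ext
  rfl

theorem iotaU_suToGU (s : ↥(Cfsg.SU n F q)) :
    iotaU (suToGU s) = MulAut.conj (QuotientGroup.mk s : Cfsg.PSU n F q) := by
  ext x
  induction x using QuotientGroup.induction_on with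
  | H t =>
    rw [iotaU_mk, cjU_suToGU]
    rfl

theorem mem_InnU (k : MulAut (Cfsg.PSU n F q)) :
    k ∈ Cfsg.Inn (Cfsg.PSU n F q) ↔ ∃ s : ↥(Cfsg.SU n F q), k = iotaU (suToGU s) := by
  constructor
  · rintro ⟨x, rfl⟩
    induction x using QuotientGroup.induction_on with
    | H s => exact ⟨s, (iotaU_suToGU s).symm⟩
  · rintro ⟨s, rfl⟩
    exact ⟨QuotientGroup.mk s, (iotaU_suToGU s).symm⟩

theorem det_suToGU (s : ↥(Cfsg.SU n F q)) :
    GeneralLinearGroup.det ((suToGU s).1 : GL (Fin n) F) = 1 := by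
  apply Units.ext
  rw [GeneralLinearGroup.val_det_apply]
  exact s.1.2

theorem exists_suToGU (g : ↥(Cfsg.GU n F q))
    (hg : GeneralLinearGroup.det (g.1 : GL (Fin n) F) = 1) :
    ∃ s : ↥(Cfsg.SU n F q), suToGU s = g := by
  have hdet : ((g.1 : GL (Fin n) F) : Matrix (Fin n) (Fin n) F).det = 1 := by
    have h1 := congrArg (fun u : Fˣ => (u : F)) hg
    rwa [GeneralLinearGroup.val_det_apply] at h1
  refine ⟨⟨⟨((g.1 : GL (Fin n) F) : Matrix (Fin n) (Fin n) F), hdet⟩,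
    (mem_SU_iff _).2 ((mem_GU_iff g.1).1 g.2)⟩, ?_⟩
  apply Subtype.ext
  apply Units.ext
  rfl

/-- the kernel of `GU → Out(PSU)` -/
theorem ker_theta (hF : Fintype.card F = q ^ 2) (hn : 3 ≤ n) :
    ((QuotientGroup.mk' (Cfsg.Inn (Cfsg.PSU n F q))).comp
        (iotaU : ↥(Cfsg.GU n F q) →* MulAut (Cfsg.PSU n F q))).ker =
      (GeneralLinearGroup.det : GL (Fin n) F →* Fˣ).ker.subgroupOf (Cfsg.GU n F q) ⊔
        Subgroup.center ↥(Cfsg.GU n F q) := by
  apply le_antisymm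
  · intro g hg
    rw [MonoidHom.mem_ker, MonoidHom.comp_apply, QuotientGroup.mk'_apply,
      QuotientGroup.eq_one_iff] at hg
    obtain ⟨s, hs⟩ := (mem_InnU _).1 hg
    have h1 : (iotaU ((suToGU s)⁻¹ * g) : MulAut (Cfsg.PSU n F q)) = 1 := by
      rw [map_mul, map_inv, hs, inv_mul_cancel]
    obtain ⟨c, hc⟩ := (iotaU_eq_one_iff hF hn _).1 h1
    have h2 : g = suToGU s * ((suToGU s)⁻¹ * g) := by group
    rw [h2]
    apply Subgroup.mul_mem_sup
    · rw [Subgroup.mem_subgroupOf, MonoidHom.mem_ker]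
      exact det_suToGU s
    · rw [Subgroup.mem_center_iff]
      intro h
      apply Subtype.ext
      apply Units.ext
      show ((h.1 : GL (Fin n) F) : Matrix (Fin n) (Fin n) F) *
          ((((suToGU s)⁻¹ * g).1 : GL (Fin n) F) : Matrix (Fin n) (Fin n) F) =
        ((((suToGU s)⁻¹ * g).1 : GL (Fin n) F) : Matrix (Fin n) (Fin n) F) *
          ((h.1 : GL (Fin n) F) : Matrix (Fin n) (Fin n) F)
      rw [hc, Matrix.mul_smul, Matrix.mul_one, Matrix.smul_mul, Matrix.one_mul]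
  · rw [sup_le_iff]
    constructor
    · intro g hg
      rw [Subgroup.mem_subgroupOf, MonoidHom.mem_ker] at hg
      obtain ⟨s, rfl⟩ := exists_suToGU g hg
      rw [MonoidHom.mem_ker, MonoidHom.comp_apply, QuotientGroup.mk'_apply,
        QuotientGroup.eq_one_iff]
      exact (mem_InnU _).2 ⟨s, rfl⟩
    · intro z hz
      rw [MonoidHom.mem_ker, MonoidHom.comp_apply]
      have h1 : (iotaU z : MulAut (Cfsg.PSU n F q)) = 1 := by
        ext x
        induction x using QuotientGroup.induction_on with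
        | H s =>
          rw [iotaU_mk]
          show (QuotientGroup.mk (cjU z s) : Cfsg.PSU n F q) = QuotientGroup.mk s
          congr 1
          apply Subtype.ext
          apply Subtype.ext
          show (z.1 : Matrix (Fin n) (Fin n) F) * suM s *
            ((z.1⁻¹ : GL (Fin n) F) : Matrix (Fin n) (Fin n) F) = suM s
          have h2 := congrArg (fun g : ↥(Cfsg.GU n F q) =>
            ((g.1 : GL (Fin n) F) : Matrix (Fin n) (Fin n) F))
            ((Subgroup.mem_center_iff.1 hz) (suToGU s))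
          have h3 : suM s * (z.1 : Matrix (Fin n) (Fin n) F) =
              (z.1 : Matrix (Fin n) (Fin n) F) * suM s := h2
          rw [← h3, Matrix.mul_assoc, glU_mul_inv, Matrix.mul_one]
      rw [h1]
      exact map_one _

/-- **The outer automorphism group of `PSU_n(q)`.** -/
theorem out_psu (hF : Fintype.card F = q ^ 2) (hn : 3 ≤ n) (hs : ¬ (n = 3 ∧ q = 2))
    {p f : ℕ} [Fact p.Prime] (hq : q = p ^ f) (hf : 1 ≤ f) :
    ∃ φ : Cfsg.Out (Cfsg.PSU n F q) →* Multiplicative (ZMod (2 * f)),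
      Function.Surjective φ ∧ IsCyclic φ.ker ∧ Nat.card φ.ker = Nat.gcd n (q + 1) := by
  haveI := charP_of_card hq hf hF
  have hcardF : Fintype.card F = p ^ (2 * f) := by
    rw [hF, hq, ← pow_mul, mul_comm]
  obtain ⟨hcyc, hcard⟩ := ringAut_cyclic' (p := p) hcardF
  haveI : NeZero (2 * f) := ⟨by omega⟩
  have e : (F ≃+* F) ≃* Multiplicative (ZMod (2 * f)) :=
    mulEquivOfCyclicCardEq (by rw [hcard, Nat.card_eq_fintype_card]; simp)
  obtain ⟨L, hL⟩ : ∃ L : MulAut (Cfsg.PSU n F q) →* Multiplicative (ZMod (2 * f)),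
      L = e.toMonoidHom.comp (lamU hF hn hs p) := ⟨_, rfl⟩
  have hLker : L.ker = (iotaU : ↥(Cfsg.GU n F q) →* MulAut (Cfsg.PSU n F q)).range := by
    rw [← lamU_ker hF hn hs p, hL]
    ext x
    simp [MonoidHom.mem_ker]
  have hLsurj : Function.Surjective L := by
    rw [hL]
    exact e.surjective.comp (lamU_surjective hF hn hs p)
  have hInn : Cfsg.Inn (Cfsg.PSU n F q) ≤ L.ker := by
    intro k hk
    obtain ⟨s, rfl⟩ := (mem_InnU k).1 hk
    rw [hLker]
    exact ⟨suToGU s, rfl⟩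
  obtain ⟨θ, hθ⟩ : ∃ θ : ↥(Cfsg.GU n F q) →* Cfsg.Out (Cfsg.PSU n F q),
      θ = (QuotientGroup.mk' (Cfsg.Inn (Cfsg.PSU n F q))).comp iotaU := ⟨_, rfl⟩
  have hker : (QuotientGroup.lift (Cfsg.Inn (Cfsg.PSU n F q)) L hInn).ker = θ.range := by
    ext x
    induction x using QuotientGroup.induction_on with
    | H β =>
      rw [MonoidHom.mem_ker, QuotientGroup.lift_mk, MonoidHom.mem_range]
      constructor
      · intro h
        have h1 : β ∈ L.ker := h
        rw [hLker] at h1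
        obtain ⟨g, rfl⟩ := h1
        exact ⟨g, by rw [hθ]; rfl⟩
      · rintro ⟨g, hg⟩
        rw [hθ, MonoidHom.comp_apply, QuotientGroup.mk'_apply] at hg
        have h1 : (iotaU g)⁻¹ * β ∈ Cfsg.Inn (Cfsg.PSU n F q) := QuotientGroup.eq.1 hg
        have h2 := hInn h1
        rw [MonoidHom.mem_ker, map_mul, map_inv] at h2
        have h3 : L (iotaU g) = 1 := by
          have h4 : iotaU g ∈ L.ker := by
            rw [hLker]
            exact ⟨g, rfl⟩
          exact h4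
        rw [h3, inv_one, one_mul] at h2
        exact h2
  obtain ⟨φ₀, hφ₀s, hφ₀k⟩ := Cfsg.Agent.S0783.result hF n (by omega : 2 ≤ n)
  have hkk : θ.ker = φ₀.ker := by
    rw [hφ₀k, hθ]
    exact ker_theta hF hn
  have eR : θ.range ≃* Multiplicative (ZMod (Nat.gcd n (q + 1))) :=
    ((QuotientGroup.quotientKerEquivRange θ).symm.trans
      (QuotientGroup.quotientMulEquivOfEq hkk)).trans
      (QuotientGroup.quotientKerEquivOfSurjective φ₀ hφ₀s)
  refine ⟨QuotientGroup.lift (Cfsg.Inn (Cfsg.PSU n F q)) L hInn, ?_, ?_, ?_⟩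
  · intro y
    obtain ⟨β, rfl⟩ := hLsurj y
    exact ⟨QuotientGroup.mk β, rfl⟩
  · rw [hker]
    exact isCyclic_of_surjective eR.symm eR.symm.surjective
  · rw [hker, Nat.card_congr eR.toEquiv]
    show Nat.card (ZMod (Nat.gcd n (q + 1))) = Nat.gcd n (q + 1)
    exact Nat.card_zmod _

end Cfsg.Agent.Lib.Helper53.AutPSU
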