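import Mathlib
import Cfsg.Agent.Lib.Helper53.SUOut
import Cfsg.Agent.Lib.Helper53.SplitAbs
import Cfsg.Agent.Lib.Helper53.CycIndex
import Cfsg.Agent.Lib.Helper53.FixField
import Cfsg.Agent.Lib.Helper53.FieldCent

/-!
# Centralizers of field automorphisms of `PSU_n(q)` in `Inndiag` (helper53)

`σ` an automorphism of `F` (`|F| = q²`), `j : F₀ →+* F` an embedding with image the fixed field of
`σ`, `|F₀| = q₀²`, `j(a)^q = j(a^q₀)`.
* `jmapU : GU_n(F₀) →* GU_n(F)`;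
* `smul_of_commU`: the unitary matrices commuting with `PhiU σ` modulo scalars are scalar multiples
  of matrices over `F₀`;
* `nonempty_centEquivU`: `Inndiag ⊓ C(PhiU σ) ≃* PGU_n(F₀)`;
* `split_PhiU`: the class splitting;
* `field_main_su`: the statement S2705.
-/

set_option autoImplicit false
set_option linter.unusedSectionVars false
set_option linter.unusedVariables false

namespace Cfsg.Agent.Lib.Helper53.AutPSU

open Matrix Cfsg.Agent.Lib.Helper7 Cfsg.Agent.Lib.Helper18 Cfsg.Agent.Lib.Helper87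

variable {F : Type*} [Field F] [Fintype F] {q n : ℕ}

theorem mem_GU_mat (hF : Fintype.card F = q ^ 2) (g : GL (Fin n) F) :
    g ∈ Cfsg.GU n F q ↔
      (g : Matrix (Fin n) (Fin n) F)ᵀ * (g : Matrix (Fin n) (Fin n) F).map (· ^ q) = 1 := by
  rw [mem_GU_iff_isFr hF, isFr_iff_mul]

theorem scalar_norm_one (hF : Fintype.card F = q ^ 2) (hn : 3 ≤ n) (g : ↥(Cfsg.GU n F q)) (c : F)
    (hc : (g.1 : Matrix (Fin n) (Fin n) F) = c • (1 : Matrix (Fin n) (Fin n) F)) :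
    c ≠ 0 ∧ c ^ (q + 1) = 1 := by
  have hc0 : c ≠ 0 := by
    rintro rfl
    rw [zero_smul] at hc
    have h1 := glU_mul_inv g.1
    rw [hc, Matrix.zero_mul] at h1
    have h2 := congrFun (congrFun h1 ⟨0, by omega⟩) ⟨0, by omega⟩
    simp at h2
  refine ⟨hc0, ?_⟩
  obtain ⟨m, rfl⟩ : ∃ m, n = m + 2 := ⟨n - 2, by omega⟩
  obtain ⟨e, he0, hee⟩ := exists_isotropic hF m
  obtain ⟨f, hp⟩ := exists_hypPair hF he0 hee
  have h1 := (mem_GU_iff g.1).1 g.2 e f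
  rw [hc, Matrix.smul_mulVec, Matrix.smul_mulVec, Matrix.one_mulVec, Matrix.one_mulVec,
    hf_smul_left, hf_smul_right, hp.ef, mul_one] at h1
  rw [pow_succ']
  exact h1

/-- proportional unitary matrices induce the same automorphism -/
theorem iotaU_eq_of_smul (g h : ↥(Cfsg.GU n F q)) (c : F) (hc : c ≠ 0)
    (e : (g.1 : Matrix (Fin n) (Fin n) F) = c • (h.1 : Matrix (Fin n) (Fin n) F)) :
    (iotaU g : MulAut (Cfsg.PSU n F q)) = iotaU h := by
  have hinv : ((g.1⁻¹ : GL (Fin n) F) : Matrix (Fin n) (Fin n) F) =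
      c⁻¹ • ((h.1⁻¹ : GL (Fin n) F) : Matrix (Fin n) (Fin n) F) := by
    apply Units.inv_eq_of_mul_eq_one_right
    rw [e, Matrix.smul_mul, Matrix.mul_smul, smul_smul, mul_inv_cancel₀ hc, one_smul, glU_mul_inv]
  ext x
  induction x using QuotientGroup.induction_on with
  | H s =>
    rw [iotaU_mk, iotaU_mk]
    congr 1
    apply Subtype.ext
    apply Subtype.ext
    show (g.1 : Matrix (Fin n) (Fin n) F) * suM s *
        ((g.1⁻¹ : GL (Fin n) F) : Matrix (Fin n) (Fin n) F) =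
      (h.1 : Matrix (Fin n) (Fin n) F) * suM s *
        ((h.1⁻¹ : GL (Fin n) F) : Matrix (Fin n) (Fin n) F)
    rw [e, hinv, Matrix.smul_mul, Matrix.smul_mul, Matrix.mul_smul, smul_smul,
      mul_inv_cancel₀ hc, one_smul]

theorem mem_centU_iff (y : MulAut (Cfsg.PSU n F q)) (A : ↥(Cfsg.GU n F q)) :
    A ∈ (Subgroup.centralizer {y}).comap iotaU ↔ y * iotaU A = iotaU A * y := by
  show iotaU A ∈ Subgroup.centralizer {y} ↔ _
  rw [Subgroup.mem_centralizer_iff]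
  constructor
  · intro h
    exact h y rfl
  · intro h z hz
    rw [Set.mem_singleton_iff.1 hz]
    exact h

section Sub

variable {F₀ : Type*} [Field F₀] [Fintype F₀] {q₀ : ℕ}

theorem pow_pow_odd (hF₀ : Fintype.card F₀ = q₀ ^ 2) (a : F₀) (k : ℕ) :
    a ^ (q₀ ^ (2 * k + 1)) = a ^ q₀ := by
  induction k with
  | zero => simp
  | succ k ih =>
    have e : q₀ ^ (2 * (k + 1) + 1) = q₀ ^ 2 * q₀ ^ (2 * k + 1) := by ring
    rw [e, pow_mul, ← hF₀, FiniteField.pow_card, ih]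

/-- entrywise embedding `GU_n(F₀) → GU_n(F)` -/
def jmapU (hF : Fintype.card F = q ^ 2) (hF₀ : Fintype.card F₀ = q₀ ^ 2) (j : F₀ →+* F)
    (hjq : ∀ a : F₀, j a ^ q = j (a ^ q₀)) (n : ℕ) :
    ↥(Cfsg.GU n F₀ q₀) →* ↥(Cfsg.GU n F q) where
  toFun B := ⟨GeneralLinearGroup.map j B.1, by
    rw [mem_GU_mat hF]
    have h := (mem_GU_mat hF₀ B.1).1 B.2
    have e1 : ((B.1 : Matrix (Fin n) (Fin n) F₀).map j).map (· ^ q) =
        ((B.1 : Matrix (Fin n) (Fin n) F₀).map (· ^ q₀)).map j := by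
      ext a b
      simp only [Matrix.map_apply]
      exact hjq _
    show ((B.1 : Matrix (Fin n) (Fin n) F₀).map j)ᵀ *
      ((B.1 : Matrix (Fin n) (Fin n) F₀).map j).map (· ^ q) = 1
    rw [e1, ← Matrix.transpose_map, ← Matrix.map_mul, h, Matrix.map_one j (map_zero j) (map_one j)]⟩
  map_one' := Subtype.ext (map_one _)
  map_mul' a b := Subtype.ext (map_mul _ _ _)

theorem jmapU_coe (hF : Fintype.card F = q ^ 2) (hF₀ : Fintype.card F₀ = q₀ ^ 2) (j : F₀ →+* F)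
    (hjq : ∀ a : F₀, j a ^ q = j (a ^ q₀)) (B : ↥(Cfsg.GU n F₀ q₀)) :
    (((jmapU hF hF₀ j hjq n B).1 : GL (Fin n) F) : Matrix (Fin n) (Fin n) F) =
      (B.1 : Matrix (Fin n) (Fin n) F₀).map j := rfl

theorem gmapU_jmapU (hF : Fintype.card F = q ^ 2) (hF₀ : Fintype.card F₀ = q₀ ^ 2)
    (σ : F ≃+* F) (j : F₀ →+* F) (hj : ∀ a : F, σ a = a ↔ a ∈ Set.range j)
    (hjq : ∀ a : F₀, j a ^ q = j (a ^ q₀)) (B : ↥(Cfsg.GU n F₀ q₀)) :
    gmapU σ (jmapU hF hF₀ j hjq n B) = jmapU hF hF₀ j hjq n B := by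
  apply Subtype.ext
  apply Units.ext
  ext a b
  exact (hj _).2 ⟨(B.1 : Matrix (Fin n) (Fin n) F₀) a b, rfl⟩

theorem comm_of_smulU (hF : Fintype.card F = q ^ 2) (hF₀ : Fintype.card F₀ = q₀ ^ 2)
    (σ : F ≃+* F) (j : F₀ →+* F) (hj : ∀ a : F, σ a = a ↔ a ∈ Set.range j)
    (hjq : ∀ a : F₀, j a ^ q = j (a ^ q₀)) (A : ↥(Cfsg.GU n F q)) (b : F)
    (B : ↥(Cfsg.GU n F₀ q₀)) (hb : b ≠ 0)
    (e : (A.1 : Matrix (Fin n) (Fin n) F) =
      b • ((jmapU hF hF₀ j hjq n B).1 : Matrix (Fin n) (Fin n) F)) :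
    (PhiU σ : MulAut (Cfsg.PSU n F q)) * iotaU A = iotaU A * PhiU σ := by
  rw [PhiU_mul_iotaU]
  congr 1
  have hσb : σ b ≠ 0 := by
    intro h0
    apply hb
    simpa using h0
  rw [iotaU_eq_of_smul A (jmapU hF hF₀ j hjq n B) b hb e]
  apply iotaU_eq_of_smul (gmapU σ A) (jmapU hF hF₀ j hjq n B) (σ b) hσb
  rw [gmapU_coe, e]
  have h1 := congrArg (fun g : ↥(Cfsg.GU n F q) =>
    ((g.1 : GL (Fin n) F) : Matrix (Fin n) (Fin n) F)) (gmapU_jmapU hF hF₀ σ j hj hjq B)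
  simp only [gmapU_coe] at h1
  ext i k
  have h2 := congrFun (congrFun h1 i) k
  simp only [Matrix.map_apply, Matrix.smul_apply, smul_eq_mul, map_mul] at h2 ⊢
  rw [h2]

/-- the unitary matrices commuting with `PhiU σ` modulo scalars -/
theorem smul_of_commU (hF : Fintype.card F = q ^ 2) (hF₀ : Fintype.card F₀ = q₀ ^ 2)
    (hn : 3 ≤ n) (σ : F ≃+* F) (j : F₀ →+* F) (hj : ∀ a : F, σ a = a ↔ a ∈ Set.range j)
    (hjq : ∀ a : F₀, j a ^ q = j (a ^ q₀)) (A : ↥(Cfsg.GU n F q))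
    (hA : (PhiU σ : MulAut (Cfsg.PSU n F q)) * iotaU A = iotaU A * PhiU σ) :
    ∃ (b : F) (B : ↥(Cfsg.GU n F₀ q₀)), b ≠ 0 ∧
      (A.1 : Matrix (Fin n) (Fin n) F) =
        b • ((jmapU hF hF₀ j hjq n B).1 : Matrix (Fin n) (Fin n) F) := by
  classical
  rw [PhiU_mul_iotaU] at hA
  have h1 : (iotaU (A⁻¹ * gmapU σ A) : MulAut (Cfsg.PSU n F q)) = 1 := by
    rw [map_mul, map_inv, inv_mul_eq_one]
    exact (mul_right_cancel hA).symm
  obtain ⟨c, hc⟩ := (iotaU_eq_one_iff hF hn _).1 h1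
  obtain ⟨hc0, hcq⟩ := scalar_norm_one hF hn _ c hc
  -- `σ(A) = c • A`
  have hσA : (A.1 : Matrix (Fin n) (Fin n) F).map σ = c • (A.1 : Matrix (Fin n) (Fin n) F) := by
    have e1 : gmapU σ A = A * (A⁻¹ * gmapU σ A) := by group
    have e2 := congrArg (fun g : ↥(Cfsg.GU n F q) =>
      ((g.1 : GL (Fin n) F) : Matrix (Fin n) (Fin n) F)) e1
    have e3 : (((A * (A⁻¹ * gmapU σ A)).1 : GL (Fin n) F) : Matrix (Fin n) (Fin n) F) =
        (A.1 : Matrix (Fin n) (Fin n) F) *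
          (((A⁻¹ * gmapU σ A).1 : GL (Fin n) F) : Matrix (Fin n) (Fin n) F) := rfl
    simp only [gmapU_coe] at e2
    rw [e3, hc, Matrix.mul_smul, Matrix.mul_one] at e2
    exact e2
  have hr0 : 0 < orderOf σ := by
    haveI := Fix.finite_ringAut (F := F)
    exact orderOf_pos σ
  have hdetA : (A.1 : Matrix (Fin n) (Fin n) F).det ≠ 0 := by
    intro h0
    have h2 := congrArg Matrix.det (glU_mul_inv A.1)
    rw [Matrix.det_mul, h0, zero_mul, Matrix.det_one] at h2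
    exact zero_ne_one h2
  have hN : H90.nrm σ (orderOf σ) c = 1 := by
    have e := AutPSL.map_pow_eq σ _ _ hσA (orderOf σ)
    rw [pow_orderOf_eq_one] at e
    obtain ⟨a, b, hab⟩ : ∃ a b, (A.1 : Matrix (Fin n) (Fin n) F) a b ≠ 0 := by
      by_contra hcon
      push Not at hcon
      apply hdetA
      have h0 : (A.1 : Matrix (Fin n) (Fin n) F) = 0 := by
        ext a b
        exact hcon a b
      haveI : Nonempty (Fin n) := ⟨⟨0, by omega⟩⟩
      rw [h0, Matrix.det_zero]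
    have e1 := congrFun (congrFun e a) b
    simp only [Matrix.map_apply, Matrix.smul_apply, smul_eq_mul] at e1
    have e2 : (H90.nrm σ (orderOf σ) c - 1) * (A.1 : Matrix (Fin n) (Fin n) F) a b = 0 := by
      rw [sub_mul, one_mul, ← e1]
      exact sub_self _
    rcases mul_eq_zero.1 e2 with h3 | h3
    · exact sub_eq_zero.1 h3
    · exact absurd h3 hab
  obtain ⟨b, hb0, hb⟩ := H90.exists_fixed_scalar σ (orderOf σ) hr0 rfl c hN
  -- `b • A` has entries in the fixed field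
  have hfix : ∀ i k, σ (b * (A.1 : Matrix (Fin n) (Fin n) F) i k) =
      b * (A.1 : Matrix (Fin n) (Fin n) F) i k := by
    intro i k
    have h2 := congrFun (congrFun hσA i) k
    simp only [Matrix.map_apply, Matrix.smul_apply, smul_eq_mul] at h2
    rw [map_mul, h2, ← mul_assoc, mul_comm (σ b), hb]
  choose B₀ hB₀ using fun i k => (hj _).1 (hfix i k)
  -- the norm of `b` lies in the fixed field of `σ` and of the `q`-th power
  have hσd : σ (b ^ (q + 1)) = b ^ (q + 1) := by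
    have h2 : (c * σ b) ^ (q + 1) = b ^ (q + 1) := by rw [hb]
    rw [mul_pow, hcq, one_mul] at h2
    rw [map_pow, h2]
  obtain ⟨d₀, hd₀⟩ := (hj _).1 hσd
  have hd₀0 : d₀ ≠ 0 := by
    rintro rfl
    rw [map_zero] at hd₀
    exact pow_ne_zero _ hb0 hd₀.symm
  have hd₀q : d₀ ^ q₀ = d₀ := by
    apply j.injective
    rw [← hjq, hd₀, herm_norm_fixed hF]
  obtain ⟨t, ht0, ht⟩ := herm_norm_surj hF₀ d₀ hd₀0 hd₀q
  have hjt0 : j t ≠ 0 := by
    intro h0
    apply ht0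
    exact (map_eq_zero j).1 h0
  have hjtq : j t ^ (q + 1) = b ^ (q + 1) := by
    rw [pow_succ, hjq, ← map_mul, ← pow_succ, ht, hd₀]
  -- the matrix over `F₀`
  obtain ⟨B₁, hB₁⟩ : ∃ B₁ : Matrix (Fin n) (Fin n) F₀, B₁ = t⁻¹ • Matrix.of B₀ := ⟨_, rfl⟩
  have hB₁map : B₁.map j = (b / j t) • (A.1 : Matrix (Fin n) (Fin n) F) := by
    ext i k
    rw [hB₁]
    simp only [Matrix.map_apply, Matrix.smul_apply, Matrix.of_apply, smul_eq_mul, map_mul,
      map_inv₀, hB₀]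
    field_simp
  have hAu := (mem_GU_mat hF A.1).1 A.2
  have hunit : (B₁.map j)ᵀ * (B₁.map j).map (· ^ q) = 1 := by
    rw [hB₁map]
    have e1 : ((b / j t) • (A.1 : Matrix (Fin n) (Fin n) F)).map (· ^ q) =
        (b / j t) ^ q • (A.1 : Matrix (Fin n) (Fin n) F).map (· ^ q) := by
      ext i k
      simp only [Matrix.map_apply, Matrix.smul_apply, smul_eq_mul, mul_pow]
    rw [e1, Matrix.transpose_smul, Matrix.smul_mul, Matrix.mul_smul, smul_smul, hAu]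
    have e2 : b / j t * (b / j t) ^ q = 1 := by
      rw [← pow_succ', div_pow, hjtq, div_self (pow_ne_zero _ hb0)]
    rw [e2, one_smul]
  have hB₁u : B₁ᵀ * B₁.map (· ^ q₀) = 1 := by
    apply Matrix.map_injective j.injective
    have e1 : (B₁.map j).map (· ^ q) = (B₁.map (· ^ q₀)).map j := by
      ext a b
      simp only [Matrix.map_apply]
      exact hjq _
    show (B₁ᵀ * B₁.map (· ^ q₀)).map j = (1 : Matrix (Fin n) (Fin n) F₀).map j
    rw [Matrix.map_mul, Matrix.map_one j (map_zero j) (map_one j), Matrix.transpose_map, ← e1]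
    exact hunit
  have hfr : IsFr q₀ n n (colFr B₁) := (isFr_iff_mul B₁).2 hB₁u
  have hU : IsUnit B₁ := isUnit_of_preserves hF₀ _ (preserves_of_isFr hF₀ _ hfr)
  refine ⟨j t / b, ⟨hU.unit, (mem_GU_iff_isFr hF₀ _).mpr hfr⟩, div_ne_zero hjt0 hb0, ?_⟩
  rw [jmapU_coe]
  show (A.1 : Matrix (Fin n) (Fin n) F) = (j t / b) • B₁.map j
  rw [hB₁map, smul_smul]
  have e3 : j t / b * (b / j t) = 1 := by
    field_simp
  rw [e3, one_smul]

/-- the map `GU_n(F₀) → Aut(PSU_n(F))` -/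
noncomputable def ThetaU (hF : Fintype.card F = q ^ 2) (hF₀ : Fintype.card F₀ = q₀ ^ 2)
    (j : F₀ →+* F) (hjq : ∀ a : F₀, j a ^ q = j (a ^ q₀)) (n : ℕ) :
    ↥(Cfsg.GU n F₀ q₀) →* MulAut (Cfsg.PSU n F q) :=
  iotaU.comp (jmapU hF hF₀ j hjq n)

theorem ThetaU_apply (hF : Fintype.card F = q ^ 2) (hF₀ : Fintype.card F₀ = q₀ ^ 2)
    (j : F₀ →+* F) (hjq : ∀ a : F₀, j a ^ q = j (a ^ q₀)) (B : ↥(Cfsg.GU n F₀ q₀)) :
    ThetaU hF hF₀ j hjq n B = iotaU (jmapU hF hF₀ j hjq n B) := rfl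

theorem ThetaU_range (hF : Fintype.card F = q ^ 2) (hF₀ : Fintype.card F₀ = q₀ ^ 2)
    (hn : 3 ≤ n) (σ : F ≃+* F) (j : F₀ →+* F) (hj : ∀ a : F, σ a = a ↔ a ∈ Set.range j)
    (hjq : ∀ a : F₀, j a ^ q = j (a ^ q₀)) :
    (ThetaU hF hF₀ j hjq n).range =
      Cfsg.inndiagPSU n F q ⊓ Subgroup.centralizer {PhiU σ} := by
  apply le_antisymm
  · rintro _ ⟨B, rfl⟩
    refine ⟨(mem_inndiagU _).2 ⟨_, rfl⟩, ?_⟩
    exact (mem_centU_iff _ _).2 (comm_of_smulU hF hF₀ σ j hj hjq _ 1 B one_ne_zero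
      (by rw [one_smul]))
  · rintro β ⟨hβD, hβC⟩
    obtain ⟨A, rfl⟩ := (mem_inndiagU β).1 hβD
    obtain ⟨b, B, hb, e⟩ := smul_of_commU hF hF₀ hn σ j hj hjq A ((mem_centU_iff _ _).1 hβC)
    exact ⟨B, (iotaU_eq_of_smul A _ b hb e).symm⟩

theorem ThetaU_ker (hF : Fintype.card F = q ^ 2) (hF₀ : Fintype.card F₀ = q₀ ^ 2)
    (hn : 3 ≤ n) (j : F₀ →+* F) (hjq : ∀ a : F₀, j a ^ q = j (a ^ q₀)) :
    (ThetaU hF hF₀ j hjq n).ker =
      (Cfsg.Geo.scalars (Fin n) F₀).subgroupOf (Cfsg.GU n F₀ q₀) := by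
  ext B
  rw [MonoidHom.mem_ker, Subgroup.mem_subgroupOf, Cfsg.Geo.mem_scalars_iff, ThetaU_apply]
  constructor
  · intro h
    obtain ⟨l, hl⟩ := (iotaU_eq_one_iff hF hn _).1 h
    obtain ⟨hl0, -⟩ := scalar_norm_one hF hn _ l hl
    have hc' : ∀ a b, j ((B.1 : Matrix (Fin n) (Fin n) F₀) a b) = if a = b then l else 0 := by
      intro a b
      have h2 := congrFun (congrFun hl a) b
      rw [jmapU_coe, Matrix.map_apply] at h2
      rw [h2]
      simp [Matrix.one_apply]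
    obtain ⟨c₀, hc₀⟩ : ∃ c₀ : F₀, c₀ = (B.1 : Matrix (Fin n) (Fin n) F₀) ⟨0, by omega⟩
        ⟨0, by omega⟩ := ⟨_, rfl⟩
    have hjc : j c₀ = l := by
      rw [hc₀, hc', if_pos rfl]
    have hc₀0 : c₀ ≠ 0 := by
      rintro rfl
      rw [map_zero] at hjc
      exact hl0 hjc.symm
    refine ⟨Units.mk0 c₀ hc₀0, ?_⟩
    ext a b
    apply j.injective
    rw [hc' a b]
    by_cases hab : a = b
    · subst hab
      simp [hjc]
    · simp [Matrix.one_apply, hab]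
  · rintro ⟨c, hc⟩
    apply iotaU_scalar _ (j (c : F₀))
    rw [jmapU_coe, hc]
    ext a b
    by_cases hab : a = b
    · subst hab
      simp
    · simp [Matrix.one_apply, hab]

theorem nonempty_centEquivU (hF : Fintype.card F = q ^ 2) (hF₀ : Fintype.card F₀ = q₀ ^ 2)
    (hn : 3 ≤ n) (σ : F ≃+* F) (j : F₀ →+* F) (hj : ∀ a : F, σ a = a ↔ a ∈ Set.range j)
    (hjq : ∀ a : F₀, j a ^ q = j (a ^ q₀)) :
    Nonempty (↥(Cfsg.inndiagPSU n F q ⊓
      Subgroup.centralizer {(PhiU σ : MulAut (Cfsg.PSU n F q))}) ≃* Cfsg.PGU n F₀ q₀) := by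
  have e1 := MulEquiv.subgroupCongr (ThetaU_range hF hF₀ hn σ j hj hjq).symm
  have e2 := QuotientGroup.quotientKerEquivRange (ThetaU hF hF₀ j hjq n)
  have e3 : ↥(Cfsg.GU n F₀ q₀) ⧸ (ThetaU hF hF₀ j hjq n).ker ≃* Cfsg.PGU n F₀ q₀ :=
    QuotientGroup.quotientMulEquivOfEq (ThetaU_ker hF hF₀ hn j hjq)
  exact ⟨e1.trans (e2.symm.trans e3)⟩

end Sub

/-! ### The determinant into the norm-one group -/

/-- the norm-one units -/
abbrev UU (F : Type*) [Field F] (q : ℕ) : Subgroup Fˣ := (powMonoidHom (q + 1) : Fˣ →* Fˣ).ker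

/-- the determinant `GU → U` -/
def detU (hF : Fintype.card F = q ^ 2) (hn : 1 ≤ n) : ↥(Cfsg.GU n F q) →* ↥(UU F q) :=
  (detGU n F q).codRestrict (UU F q) (fun g => by
    show detGU n F q g ∈ (powMonoidHom (q + 1) : Fˣ →* Fˣ).ker
    rw [← detGU_range hF n hn]
    exact ⟨g, rfl⟩)

theorem detU_coe (hF : Fintype.card F = q ^ 2) (hn : 1 ≤ n) (g : ↥(Cfsg.GU n F q)) :
    ((detU hF hn g : ↥(UU F q)) : Fˣ) = detGU n F q g := rfl

theorem detU_surjective (hF : Fintype.card F = q ^ 2) (hn : 1 ≤ n) :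
    Function.Surjective (detU (n := n) hF hn) := by
  intro u
  have h1 : (u.1 : Fˣ) ∈ (detGU n F q).range := by
    rw [detGU_range hF n hn]
    exact u.2
  obtain ⟨g, hg⟩ := h1
  exact ⟨g, Subtype.ext hg⟩

theorem detU_guScal (hF : Fintype.card F = q ^ 2) (hn : 1 ≤ n) (u : ↥(UU F q)) :
    detU hF hn (guScal q n u) = u ^ n := by
  apply Subtype.ext
  apply Units.ext
  rw [detU_coe, detGU_val, guScal_coe, Matrix.det_smul, Matrix.det_one, mul_one,
    Fintype.card_fin]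
  rfl

/-- the determinant modulo `n`-th powers -/
def tauU (hF : Fintype.card F = q ^ 2) (hn : 1 ≤ n) :
    ↥(Cfsg.GU n F q) →* ↥(UU F q) ⧸ (powMonoidHom n : ↥(UU F q) →* ↥(UU F q)).range :=
  (QuotientGroup.mk' _).comp (detU hF hn)

theorem tauU_surjective (hF : Fintype.card F = q ^ 2) (hn : 1 ≤ n) :
    Function.Surjective (tauU (n := n) hF hn) :=
  (QuotientGroup.mk'_surjective _).comp (detU_surjective hF hn)

theorem Inn_eqU (hF : Fintype.card F = q ^ 2) (hn : 3 ≤ n) :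
    Cfsg.Inn (Cfsg.PSU n F q) = (tauU (n := n) hF (by omega)).ker.map iotaU := by
  have hn1 : 1 ≤ n := by omega
  ext k
  rw [mem_InnU, Subgroup.mem_map]
  constructor
  · rintro ⟨s, rfl⟩
    refine ⟨suToGU s, ?_, rfl⟩
    rw [MonoidHom.mem_ker]
    have h1 : detU hF hn1 (suToGU s) = 1 := Subtype.ext (det_suToGU s)
    show (QuotientGroup.mk (detU hF hn1 (suToGU s)) :
      ↥(UU F q) ⧸ (powMonoidHom n : ↥(UU F q) →* ↥(UU F q)).range) = 1
    rw [h1]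
    rfl
  · rintro ⟨g, hg, rfl⟩
    rw [MonoidHom.mem_ker] at hg
    have hg' : detU hF hn1 g ∈ (powMonoidHom n : ↥(UU F q) →* ↥(UU F q)).range :=
      (QuotientGroup.eq_one_iff _).1 hg
    obtain ⟨u, hu⟩ := hg'
    have hu' : u ^ n = detU hF hn1 g := hu
    have hdet : detU hF hn1 (g * (guScal q n u)⁻¹) = 1 := by
      rw [map_mul, map_inv, detU_guScal, hu', mul_inv_cancel]
    have hdet' : GeneralLinearGroup.det ((g * (guScal q n u)⁻¹).1 : GL (Fin n) F) = 1 := by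
      have h2 := congrArg (fun v : ↥(UU F q) => (v : Fˣ)) hdet
      exact h2
    obtain ⟨s, hs⟩ := exists_suToGU _ hdet'
    refine ⟨s, ?_⟩
    rw [hs, map_mul, map_inv, iotaU_scalar (guScal q n u) _ (guScal_coe u), inv_one, mul_one]

section Sub2

variable {F₀ : Type*} [Field F₀] [Fintype F₀] {q₀ : ℕ}

theorem detU_jmapU (hF : Fintype.card F = q ^ 2) (hF₀ : Fintype.card F₀ = q₀ ^ 2)
    (hn : 1 ≤ n) (j : F₀ →+* F) (hjq : ∀ a : F₀, j a ^ q = j (a ^ q₀))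
    (B : ↥(Cfsg.GU n F₀ q₀)) :
    ((detU hF hn (jmapU hF hF₀ j hjq n B) : ↥(UU F q)) : Fˣ) =
      Units.map (j : F₀ →* F) (detGU n F₀ q₀ B) := by
  rw [detU_coe]
  exact GeneralLinearGroup.map_det j B.1

/-- determinants of the centralizer of `PhiU σ` -/
theorem detU_Ctil (hF : Fintype.card F = q ^ 2) (hF₀ : Fintype.card F₀ = q₀ ^ 2)
    (hn : 3 ≤ n) (σ : F ≃+* F) (j : F₀ →+* F) (hj : ∀ a : F, σ a = a ↔ a ∈ Set.range j)
    (hjq : ∀ a : F₀, j a ^ q = j (a ^ q₀)) :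
    ((Subgroup.centralizer {(PhiU σ : MulAut (Cfsg.PSU n F q))}).comap iotaU).map
        (detU hF (by omega : 1 ≤ n)) ⊔ (powMonoidHom n : ↥(UU F q) →* ↥(UU F q)).range =
      (powMonoidHom n : ↥(UU F q) →* ↥(UU F q)).range ⊔
        (powMonoidHom (q₀ + 1) : ↥(UU F q) →* ↥(UU F q)).ker := by
  have hn1 : 1 ≤ n := by omega
  apply le_antisymm
  · rw [sup_le_iff]
    refine ⟨?_, le_sup_left⟩
    rintro _ ⟨A, hA, rfl⟩
    rw [SetLike.mem_coe, mem_centU_iff] at hA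
    obtain ⟨b, B, hb, e⟩ := smul_of_commU hF hF₀ hn σ j hj hjq A hA
    -- the scalar `b` has norm one
    have hz : (((A * (jmapU hF hF₀ j hjq n B)⁻¹).1 : GL (Fin n) F) : Matrix (Fin n) (Fin n) F) =
        b • (1 : Matrix (Fin n) (Fin n) F) := by
      show (A.1 : Matrix (Fin n) (Fin n) F) *
        ((((jmapU hF hF₀ j hjq n B).1)⁻¹ : GL (Fin n) F) : Matrix (Fin n) (Fin n) F) = _
      rw [e, Matrix.smul_mul, glU_mul_inv]
    obtain ⟨-, hbq⟩ := scalar_norm_one hF hn _ b hz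
    obtain ⟨ub, hub⟩ : ∃ ub : ↥(UU F q), ((ub : Fˣ) : F) = b := by
      refine ⟨⟨Units.mk0 b hb, ?_⟩, rfl⟩
      rw [MonoidHom.mem_ker, powMonoidHom_apply]
      apply Units.ext
      simpa using hbq
    have hA' : A = guScal q n ub * jmapU hF hF₀ j hjq n B := by
      apply Subtype.ext
      apply Units.ext
      show (A.1 : Matrix (Fin n) (Fin n) F) =
        (((guScal q n ub).1 : GL (Fin n) F) : Matrix (Fin n) (Fin n) F) *
          (((jmapU hF hF₀ j hjq n B).1 : GL (Fin n) F) : Matrix (Fin n) (Fin n) F)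
      rw [guScal_coe, hub, Matrix.smul_mul, Matrix.one_mul, e]
    rw [hA', map_mul, detU_guScal]
    apply Subgroup.mul_mem_sup
    · exact ⟨ub, rfl⟩
    · rw [MonoidHom.mem_ker, powMonoidHom_apply]
      apply Subtype.ext
      rw [Subgroup.coe_pow, detU_jmapU, ← map_pow]
      have h3 : detGU n F₀ q₀ B ^ (q₀ + 1) = 1 := by
        have h4 : detGU n F₀ q₀ B ∈ (powMonoidHom (q₀ + 1) : F₀ˣ →* F₀ˣ).ker := by
          rw [← detGU_range hF₀ n hn1]
          exact ⟨B, rfl⟩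
        exact h4
      rw [h3, map_one]
      rfl
  · rw [sup_le_iff]
    refine ⟨le_sup_right, ?_⟩
    intro v hv
    rw [MonoidHom.mem_ker, powMonoidHom_apply] at hv
    have hv' : (v : Fˣ) ^ (q₀ + 1) = 1 := by
      have h2 := congrArg (fun w : ↥(UU F q) => (w : Fˣ)) hv
      exact h2
    -- `v` comes from `F₀`
    have hvr : (v : Fˣ) ∈ (Units.map (j : F₀ →* F)).range := by
      rw [AutPSL.range_units_map, MonoidHom.mem_ker, powMonoidHom_apply, hF₀]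
      have e1 : q₀ ^ 2 - 1 = (q₀ + 1) * (q₀ - 1) := by
        have h5 := herm_two_le hF₀
        obtain ⟨k, rfl⟩ : ∃ k, q₀ = k + 1 := ⟨q₀ - 1, by omega⟩
        have e2 : (k + 1) ^ 2 - 1 = (k + 1 + 1) * k := by
          have e3 : (k + 1) ^ 2 = (k + 1 + 1) * k + 1 := by ring
          omega
        rw [e2]
        rfl
      rw [e1, pow_mul, hv', one_pow]
    obtain ⟨v₀, hv₀⟩ := hvr
    have hv₀q : v₀ ^ (q₀ + 1) = 1 := by
      apply Units.map_injective (f := (j : F₀ →* F)) j.injective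
      rw [map_pow, hv₀, hv', map_one]
    have hv₀r : v₀ ∈ (detGU n F₀ q₀).range := by
      rw [detGU_range hF₀ n hn1]
      exact hv₀q
    obtain ⟨B, hB⟩ := hv₀r
    apply Subgroup.mem_sup_left
    refine ⟨jmapU hF hF₀ j hjq n B, ?_, ?_⟩
    · rw [SetLike.mem_coe, mem_centU_iff]
      exact comm_of_smulU hF hF₀ σ j hj hjq _ 1 B one_ne_zero (by rw [one_smul])
    · apply Subtype.ext
      rw [detU_jmapU, hB, hv₀]

theorem card_UU (hF : Fintype.card F = q ^ 2) : Nat.card ↥(UU F q) = q + 1 :=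
  herm_card_ker hF

/-- the class splitting of `PhiU σ` -/
theorem split_PhiU (hF : Fintype.card F = q ^ 2) (hF₀ : Fintype.card F₀ = q₀ ^ 2)
    (hn : 3 ≤ n) (σ : F ≃+* F) (j : F₀ →+* F) (hj : ∀ a : F, σ a = a ↔ a ∈ Set.range j)
    (hjq : ∀ a : F₀, j a ^ q = j (a ^ q₀)) (hdvd : q₀ + 1 ∣ q + 1) :
    Cfsg.splitClassCount (Cfsg.inndiagPSU n F q) (Cfsg.Inn (Cfsg.PSU n F q))
        (PhiU σ : MulAut (Cfsg.PSU n F q)) = Nat.gcd n ((q + 1) / (q₀ + 1)) := by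
  have hn1 : 1 ≤ n := by omega
  have hsplit := SplitAbs.split_abstract
    (A := ↥(UU F q) ⧸ (powMonoidHom n : ↥(UU F q) →* ↥(UU F q)).range)
    (iotaU : ↥(Cfsg.GU n F q) →* MulAut (Cfsg.PSU n F q))
    (tauU hF hn1) (tauU_surjective hF hn1) (PhiU σ)
  rw [← inndiagU_eq_range] at hsplit
  have hInn : Cfsg.Inn (Cfsg.PSU n F q) = (tauU (n := n) hF hn1).ker.map iotaU := Inn_eqU hF hn
  rw [hInn]
  refine hsplit.trans ?_
  have h1 : ((Subgroup.centralizer {(PhiU σ : MulAut (Cfsg.PSU n F q))}).comap iotaU).map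
      (tauU hF hn1) =
      (((Subgroup.centralizer {(PhiU σ : MulAut (Cfsg.PSU n F q))}).comap iotaU).map
        (detU hF hn1)).map (QuotientGroup.mk' _) := by
    rw [Subgroup.map_map]
    rfl
  rw [h1, Subgroup.index_map, QuotientGroup.ker_mk', QuotientGroup.range_mk', Subgroup.index_top,
    mul_one, detU_Ctil hF hF₀ hn σ j hj hjq,
    Cyc.index_range_sup_ker n (q₀ + 1) (by rw [card_UU hF]; exact hdvd) (by omega), card_UU hF]

end Sub2

/-- **The statement S2705.** -/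
theorem field_main_su {p f : ℕ} [Fact p.Prime] (hq : q = p ^ f) (hf : 1 ≤ f)
    (hF : Fintype.card F = q ^ 2) (hn : 3 ≤ n) (hs : ¬ (n = 3 ∧ q = 2))
    (x : MulAut (Cfsg.PSU n F q)) (hx : Cfsg.IsFieldAutClassPSU x) {r : ℕ} (hr : r.Prime)
    (hro : Odd r) (hxr : orderOf x = r) (F₀ : Type*) [Field F₀] [Fintype F₀]
    (hF₀ : Fintype.card F₀ = p ^ (2 * (f / r))) :
    r ∣ f ∧
      Nonempty (↥(Cfsg.inndiagPSU n F q ⊓ Subgroup.centralizer {x}) ≃*
        Cfsg.PGU n F₀ (p ^ (f / r))) ∧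
      Cfsg.splitClassCount (Cfsg.inndiagPSU n F q) (Cfsg.Inn (Cfsg.PSU n F q)) x =
        Nat.gcd n ((q + 1) / (p ^ (f / r) + 1)) := by
  haveI := charP_of_card hq hf hF
  obtain ⟨α, φ, σ, hσ1, hσodd, hφ, e⟩ := hx
  rw [stdFieldU_iff] at hφ
  subst hφ
  have hσord : orderOf σ = r := by
    rw [← orderOf_injective PhiU (PhiU_injective hF hn) σ, ← e]
    rw [AutPSL.orderOf_conj', hxr]
  have hcardF : Fintype.card F = p ^ (2 * f) := by
    rw [hF, hq, ← pow_mul, mul_comm]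
  obtain ⟨hdvd2, -⟩ := Fix.fixed_card hcardF σ hσord
  have hdvd : r ∣ f := by
    have hcop : Nat.Coprime r 2 := by
      rw [Nat.coprime_comm, Nat.coprime_two_left]
      exact hro
    exact hcop.dvd_of_dvd_mul_left hdvd2
  have hdiv : 2 * f / r = 2 * (f / r) := Nat.mul_div_assoc 2 hdvd
  obtain ⟨j, hj⟩ := Fix.exists_embedding hcardF σ hσord F₀ (by rw [hdiv]; exact hF₀)
  obtain ⟨q₀, hq₀⟩ : ∃ q₀ : ℕ, q₀ = p ^ (f / r) := ⟨_, rfl⟩
  have hF₀' : Fintype.card F₀ = q₀ ^ 2 := by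
    rw [hF₀, hq₀, ← pow_mul, mul_comm]
  have hqq : q = q₀ ^ r := by
    rw [hq, hq₀, ← pow_mul, Nat.div_mul_cancel hdvd]
  have hjq : ∀ a : F₀, j a ^ q = j (a ^ q₀) := by
    intro a
    obtain ⟨k, hk⟩ := hro
    rw [← map_pow, hqq, hk, pow_pow_odd hF₀']
  have hdvdq : q₀ + 1 ∣ q + 1 := by
    rw [hqq]
    have h1 := Odd.nat_add_dvd_pow_add_pow q₀ 1 hro
    rwa [one_pow] at h1
  rw [← hq₀]
  have hker := lamU_ker hF hn hs p
  rw [← inndiagU_eq_range] at hker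
  have hnorm : (Cfsg.inndiagPSU n F q).Normal := by
    rw [← hker]
    exact MonoidHom.normal_ker _
  have hH : ∀ h ∈ Cfsg.inndiagPSU n F q, α * h * α⁻¹ ∈ Cfsg.inndiagPSU n F q :=
    fun h hh => hnorm.conj_mem h hh α
  have hH' : ∀ h ∈ Cfsg.inndiagPSU n F q, α⁻¹ * h * α ∈ Cfsg.inndiagPSU n F q := by
    intro h hh
    have h1 := hnorm.conj_mem h hh α⁻¹
    rwa [inv_inv] at h1
  have hK : ∀ h ∈ Cfsg.Inn (Cfsg.PSU n F q), α * h * α⁻¹ ∈ Cfsg.Inn (Cfsg.PSU n F q) :=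
    fun h hh => (Cfsg.innNormal (Cfsg.PSU n F q)).conj_mem h hh α
  have hK' : ∀ h ∈ Cfsg.Inn (Cfsg.PSU n F q), α⁻¹ * h * α ∈ Cfsg.Inn (Cfsg.PSU n F q) := by
    intro h hh
    have h1 := (Cfsg.innNormal (Cfsg.PSU n F q)).conj_mem h hh α⁻¹
    rwa [inv_inv] at h1
  refine ⟨hdvd, ?_, ?_⟩
  · have e1 := SplitAbs.centConj (Cfsg.inndiagPSU n F q) α hH hH' x
    rw [e] at e1
    obtain ⟨e2⟩ := nonempty_centEquivU hF hF₀' hn σ j hj hjq
    exact ⟨e1.trans e2⟩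
  · rw [← SplitAbs.split_conj _ _ α hH hH' hK hK' x, e]
    exact split_PhiU hF hF₀' hn σ j hj hjq hdvdq

end Cfsg.Agent.Lib.Helper53.AutPSU
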