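import Mathlib
import Cfsg.Agent.Lib.Helper53.SUCent
import Cfsg.Agent.Lib.Helper53.GTCent

/-!
# The centraliser of the `q`-Frobenius in `Inndiag(PSU_n(q))` (helper53)

`|F| = q²`, `σ a = a ^ q` of order two, `j : F₀ →+* F` with image the fixed field of `σ`
(`|F₀| = q`), `2 ≠ 0`.  The centraliser of `PhiU σ` in `Inndiag(PSU_n)` is the image of the
similarity group of the dot form over `F₀` (twisted by scalars), hence `≃* PGO F₀ (dot form)`.
-/

set_option autoImplicit false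
set_option linter.unusedSectionVars false
set_option linter.unusedVariables false

namespace Cfsg.Agent.Lib.Helper53.SUGO

open Matrix Cfsg.Agent.Lib.Helper53.AutPSU Cfsg.Agent.Lib.Helper53.GT

variable {F : Type*} [Field F] [Fintype F] {q n : ℕ}
variable {F₀ : Type*} [Field F₀] [Fintype F₀]

theorem map_sigma_j (σ : F ≃+* F) (j : F₀ →+* F) (hj : ∀ a : F, σ a = a ↔ a ∈ Set.range j)
    (M : Matrix (Fin n) (Fin n) F₀) : (M.map j).map σ = M.map j := by
  ext a b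
  exact (hj _).2 ⟨M a b, rfl⟩

theorem map_pow_q (σ : F ≃+* F) (hσ : ∀ a, σ a = a ^ q) (M : Matrix (Fin n) (Fin n) F) :
    M.map (· ^ q) = M.map σ := by
  ext a b
  simp only [Matrix.map_apply]
  exact (hσ _).symm

theorem sigma_sigma (σ : F ≃+* F) (hord : orderOf σ = 2) (a : F) : σ (σ a) = a := by
  have h : σ ^ 2 = 1 := by
    rw [← hord]
    exact pow_orderOf_eq_one σ
  have := congrArg (fun τ : F ≃+* F => τ a) h
  simpa [pow_two] using this

/-- the twisted unitary matrix of a similarity of the dot form over `F₀` -/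
theorem exists_twist (hF : Fintype.card F = q ^ 2) (h2 : (2 : F₀) ≠ 0) (σ : F ≃+* F)
    (hσ : ∀ a, σ a = a ^ q) (hord : orderOf σ = 2) (j : F₀ →+* F)
    (hj : ∀ a : F, σ a = a ↔ a ∈ Set.range j)
    (B : ↥(Cfsg.Geo.quadSimilarityGroup (F := F₀) (dotQ (Fin n) F₀))) :
    ∃ (A : ↥(Cfsg.GU n F q)) (μ : F), μ ≠ 0 ∧ (A.1 : Matrix (Fin n) (Fin n) F) =
      μ • ((B : GL (Fin n) F₀) : Matrix (Fin n) (Fin n) F₀).map j := by
  obtain ⟨c, hc⟩ := (mem_sim_dot h2 (B : GL (Fin n) F₀)).1 B.2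
  have hjc0 : j (c : F₀) ≠ 0 := (map_ne_zero j).2 c.ne_zero
  obtain ⟨ν, hν⟩ := H90.norm_surj σ 2 (by norm_num) hord (j (c : F₀)) hjc0 ((hj _).2 ⟨_, rfl⟩)
  rw [Herm.nrm_two] at hν
  have hν0 : ν ≠ 0 := by
    rintro rfl
    rw [zero_mul] at hν
    exact hjc0 hν.symm
  have hσν0 : σ ν ≠ 0 := (map_ne_zero σ).2 hν0
  let A : GL (Fin n) F := GeneralLinearGroup.scalar (Fin n) (Units.mk0 ν⁻¹ (inv_ne_zero hν0)) *
    GeneralLinearGroup.map j (B : GL (Fin n) F₀)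
  have hA : (A : Matrix (Fin n) (Fin n) F) =
      ν⁻¹ • ((B : GL (Fin n) F₀) : Matrix (Fin n) (Fin n) F₀).map j := by
    show ((GeneralLinearGroup.scalar (Fin n) (Units.mk0 ν⁻¹ (inv_ne_zero hν0)) : GL (Fin n) F) :
      Matrix (Fin n) (Fin n) F) * ((B : GL (Fin n) F₀) : Matrix (Fin n) (Fin n) F₀).map j = _
    have e3 : ((GeneralLinearGroup.scalar (Fin n) (Units.mk0 ν⁻¹ (inv_ne_zero hν0)) :
        GL (Fin n) F) : Matrix (Fin n) (Fin n) F) = ν⁻¹ • (1 : Matrix (Fin n) (Fin n) F) := by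
      ext i k
      simp [Matrix.one_apply, Matrix.diagonal_apply]
    rw [e3, Matrix.smul_mul, Matrix.one_mul]
  refine ⟨⟨A, ?_⟩, ν⁻¹, inv_ne_zero hν0, hA⟩
  rw [mem_GU_mat hF, map_pow_q σ hσ, hA]
  have e1 : (ν⁻¹ • ((B : GL (Fin n) F₀) : Matrix (Fin n) (Fin n) F₀).map j).map σ =
      σ ν⁻¹ • ((B : GL (Fin n) F₀) : Matrix (Fin n) (Fin n) F₀).map j := by
    conv_rhs => rw [← map_sigma_j σ j hj]
    ext a b
    simp
  rw [e1, Matrix.transpose_smul, Matrix.smul_mul, Matrix.mul_smul, smul_smul,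
    ← Matrix.transpose_map, ← Matrix.map_mul, hc]
  have e2 : ((c : F₀) • (1 : Matrix (Fin n) (Fin n) F₀)).map j =
      j (c : F₀) • (1 : Matrix (Fin n) (Fin n) F) := by
    ext a b
    by_cases hab : a = b
    · subst hab
      simp
    · simp [Matrix.one_apply, hab]
  rw [e2, smul_smul, ← hν, map_inv₀]
  have : ν⁻¹ * (σ ν)⁻¹ * (ν * σ ν) = 1 := by
    field_simp
  rw [this, one_smul]

/-- the chosen twist -/
noncomputable def twist (hF : Fintype.card F = q ^ 2) (h2 : (2 : F₀) ≠ 0) (σ : F ≃+* F)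
    (hσ : ∀ a, σ a = a ^ q) (hord : orderOf σ = 2) (j : F₀ →+* F)
    (hj : ∀ a : F, σ a = a ↔ a ∈ Set.range j)
    (B : ↥(Cfsg.Geo.quadSimilarityGroup (F := F₀) (dotQ (Fin n) F₀))) : ↥(Cfsg.GU n F q) :=
  Classical.choose (exists_twist hF h2 σ hσ hord j hj B)

theorem twist_spec (hF : Fintype.card F = q ^ 2) (h2 : (2 : F₀) ≠ 0) (σ : F ≃+* F)
    (hσ : ∀ a, σ a = a ^ q) (hord : orderOf σ = 2) (j : F₀ →+* F)
    (hj : ∀ a : F, σ a = a ↔ a ∈ Set.range j)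
    (B : ↥(Cfsg.Geo.quadSimilarityGroup (F := F₀) (dotQ (Fin n) F₀))) :
    ∃ μ : F, μ ≠ 0 ∧ ((twist hF h2 σ hσ hord j hj B).1 : Matrix (Fin n) (Fin n) F) =
      μ • ((B : GL (Fin n) F₀) : Matrix (Fin n) (Fin n) F₀).map j :=
  Classical.choose_spec (exists_twist hF h2 σ hσ hord j hj B)

theorem iotaU_twist_eq (hF : Fintype.card F = q ^ 2) (h2 : (2 : F₀) ≠ 0) (σ : F ≃+* F)
    (hσ : ∀ a, σ a = a ^ q) (hord : orderOf σ = 2) (j : F₀ →+* F)
    (hj : ∀ a : F, σ a = a ↔ a ∈ Set.range j)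
    (B : ↥(Cfsg.Geo.quadSimilarityGroup (F := F₀) (dotQ (Fin n) F₀)))
    (A : ↥(Cfsg.GU n F q)) (μ : F) (hμ : μ ≠ 0)
    (hA : (A.1 : Matrix (Fin n) (Fin n) F) =
      μ • ((B : GL (Fin n) F₀) : Matrix (Fin n) (Fin n) F₀).map j) :
    (iotaU A : MulAut (Cfsg.PSU n F q)) = iotaU (twist hF h2 σ hσ hord j hj B) := by
  obtain ⟨μ', hμ', hT⟩ := twist_spec hF h2 σ hσ hord j hj B
  apply iotaU_eq_of_smul A _ (μ / μ') (div_ne_zero hμ hμ')
  rw [hA, hT, smul_smul, div_mul_cancel₀ _ hμ']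

/-- the map `GO_n(F₀) → Aut(PSU_n(F))` -/
noncomputable def ThetaGO (hF : Fintype.card F = q ^ 2) (h2 : (2 : F₀) ≠ 0) (σ : F ≃+* F)
    (hσ : ∀ a, σ a = a ^ q) (hord : orderOf σ = 2) (j : F₀ →+* F)
    (hj : ∀ a : F, σ a = a ↔ a ∈ Set.range j) (n : ℕ) :
    ↥(Cfsg.Geo.quadSimilarityGroup (F := F₀) (dotQ (Fin n) F₀)) →* MulAut (Cfsg.PSU n F q) :=
  MonoidHom.mk' (fun B => iotaU (twist hF h2 σ hσ hord j hj B)) (by
    intro B B'
    obtain ⟨μ, hμ, hT⟩ := twist_spec hF h2 σ hσ hord j hj B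
    obtain ⟨μ', hμ', hT'⟩ := twist_spec hF h2 σ hσ hord j hj B'
    rw [← map_mul]
    symm
    apply iotaU_twist_eq hF h2 σ hσ hord j hj (B * B') _ (μ * μ') (mul_ne_zero hμ hμ')
    show ((twist hF h2 σ hσ hord j hj B).1 : Matrix (Fin n) (Fin n) F) *
      ((twist hF h2 σ hσ hord j hj B').1 : Matrix (Fin n) (Fin n) F) = _
    rw [hT, hT', Matrix.smul_mul, Matrix.mul_smul, smul_smul, ← Matrix.map_mul]
    rfl)

theorem ThetaGO_apply (hF : Fintype.card F = q ^ 2) (h2 : (2 : F₀) ≠ 0) (σ : F ≃+* F)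
    (hσ : ∀ a, σ a = a ^ q) (hord : orderOf σ = 2) (j : F₀ →+* F)
    (hj : ∀ a : F, σ a = a ↔ a ∈ Set.range j)
    (B : ↥(Cfsg.Geo.quadSimilarityGroup (F := F₀) (dotQ (Fin n) F₀))) :
    ThetaGO hF h2 σ hσ hord j hj n B = iotaU (twist hF h2 σ hσ hord j hj B) := rfl

theorem ThetaGO_range (hF : Fintype.card F = q ^ 2) (h2 : (2 : F₀) ≠ 0) (hn : 3 ≤ n)
    (σ : F ≃+* F) (hσ : ∀ a, σ a = a ^ q) (hord : orderOf σ = 2) (j : F₀ →+* F)
    (hj : ∀ a : F, σ a = a ↔ a ∈ Set.range j) :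
    (ThetaGO hF h2 σ hσ hord j hj n).range =
      Cfsg.inndiagPSU n F q ⊓ Subgroup.centralizer {PhiU σ} := by
  apply le_antisymm
  · rintro _ ⟨B, rfl⟩
    rw [ThetaGO_apply]
    refine ⟨(mem_inndiagU _).2 ⟨_, rfl⟩, ?_⟩
    refine (mem_centU_iff _ _).2 ?_
    obtain ⟨μ, hμ, hT⟩ := twist_spec hF h2 σ hσ hord j hj B
    rw [PhiU_mul_iotaU]
    congr 1
    have hσμ : σ μ ≠ 0 := (map_ne_zero σ).2 hμ
    apply iotaU_eq_of_smul _ _ (σ μ / μ) (div_ne_zero hσμ hμ)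
    rw [gmapU_coe, hT, smul_smul, div_mul_cancel₀ _ hμ]
    conv_rhs => rw [← map_sigma_j σ j hj]
    ext a b
    simp
  · rintro β ⟨hβD, hβC⟩
    obtain ⟨A, rfl⟩ := (mem_inndiagU β).1 hβD
    have hA := (mem_centU_iff _ _).1 hβC
    rw [PhiU_mul_iotaU] at hA
    have h1 : (iotaU (A⁻¹ * gmapU σ A) : MulAut (Cfsg.PSU n F q)) = 1 := by
      rw [map_mul, map_inv, inv_mul_eq_one]
      exact (mul_right_cancel hA).symm
    obtain ⟨c, hc⟩ := (iotaU_eq_one_iff hF hn _).1 h1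
    obtain ⟨hc0, hcq⟩ := scalar_norm_one hF hn _ c hc
    -- `σ(A) = c • A`
    have hσA : (A.1 : Matrix (Fin n) (Fin n) F).map σ = c • (A.1 : Matrix (Fin n) (Fin n) F) := by
      have e1 : gmapU σ A = A * (A⁻¹ * gmapU σ A) := by group
      have e2 := congrArg (fun g : ↥(Cfsg.GU n F q) =>
        ((g.1 : GL (Fin n) F) : Matrix (Fin n) (Fin n) F)) e1
      have e3 : (((A * (A⁻¹ * gmapU σ A)).1 : GL (Fin n) F) : Matrix (Fin n) (Fin n) F) =
          (A.1 : Matrix (Fin n) (Fin n) F) *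
            (((A⁻¹ * gmapU σ A).1 : GL (Fin n) F) : Matrix (Fin n) (Fin n) F) := rfl
      simp only [gmapU_coe] at e2
      rw [e3, hc, Matrix.mul_smul, Matrix.mul_one] at e2
      exact e2
    have hN : H90.nrm σ 2 c = 1 := by
      rw [Herm.nrm_two, hσ, ← pow_succ']
      exact hcq
    obtain ⟨b, hb0, hb⟩ := H90.exists_fixed_scalar σ 2 (by norm_num) hord c hN
    -- `b • A` has entries in the fixed field
    have hfix : ∀ i k, σ (b * (A.1 : Matrix (Fin n) (Fin n) F) i k) =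
        b * (A.1 : Matrix (Fin n) (Fin n) F) i k := by
      intro i k
      have h2' := congrFun (congrFun hσA i) k
      simp only [Matrix.map_apply, Matrix.smul_apply, smul_eq_mul] at h2'
      rw [map_mul, h2', ← mul_assoc, mul_comm (σ b), hb]
    choose B₀ hB₀ using fun i k => (hj _).1 (hfix i k)
    have hB₁map : (Matrix.of B₀).map j = b • (A.1 : Matrix (Fin n) (Fin n) F) := by
      ext i k
      simp only [Matrix.map_apply, Matrix.of_apply, Matrix.smul_apply, smul_eq_mul, hB₀]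
    -- `Aᵀ A = c⁻¹`
    have hAu := (mem_GU_mat hF A.1).1 A.2
    rw [map_pow_q σ hσ, hσA, Matrix.mul_smul] at hAu
    have hAA : (A.1 : Matrix (Fin n) (Fin n) F).transpose * (A.1 : Matrix (Fin n) (Fin n) F) =
        c⁻¹ • (1 : Matrix (Fin n) (Fin n) F) := by
      rw [← hAu, smul_smul, inv_mul_cancel₀ hc0, one_smul]
    -- the multiplier lies in the fixed field
    have hσb : σ b = b / c := by
      rw [eq_div_iff hc0, mul_comm]
      exact hb
    have hσc : σ c = c⁻¹ := by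
      rw [hσ]
      apply eq_inv_of_mul_eq_one_left
      rw [← pow_succ]
      exact hcq
    have hσd : σ (b ^ 2 * c⁻¹) = b ^ 2 * c⁻¹ := by
      rw [map_mul, map_pow, map_inv₀, hσb, hσc]
      field_simp
    obtain ⟨d₀, hd₀⟩ := (hj _).1 hσd
    have hd₀0 : d₀ ≠ 0 := by
      rintro rfl
      rw [map_zero] at hd₀
      exact mul_ne_zero (pow_ne_zero _ hb0) (inv_ne_zero hc0) hd₀.symm
    have hBB : (Matrix.of B₀).transpose * Matrix.of B₀ =
        d₀ • (1 : Matrix (Fin n) (Fin n) F₀) := by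
      apply Matrix.map_injective j.injective
      have e2 : (d₀ • (1 : Matrix (Fin n) (Fin n) F₀)).map j =
          j d₀ • (1 : Matrix (Fin n) (Fin n) F) := by
        ext a b
        by_cases hab : a = b
        · subst hab
          simp
        · simp [Matrix.one_apply, hab]
      show ((Matrix.of B₀).transpose * Matrix.of B₀).map j = (d₀ • (1 : Matrix (Fin n) (Fin n) F₀)).map j
      rw [Matrix.map_mul, Matrix.transpose_map, hB₁map, e2, Matrix.transpose_smul,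
        Matrix.smul_mul, Matrix.mul_smul, smul_smul, hAA, smul_smul, hd₀]
      congr 1
      ring
    have hdet : (Matrix.of B₀ : Matrix (Fin n) (Fin n) F₀).det ≠ 0 := by
      intro h0
      have := congrArg Matrix.det hBB
      rw [Matrix.det_mul, h0, mul_zero, Matrix.det_smul, Matrix.det_one, mul_one] at this
      exact pow_ne_zero _ hd₀0 this.symm
    let Bg : GL (Fin n) F₀ := GeneralLinearGroup.mkOfDetNeZero (Matrix.of B₀) hdet
    have hBg : Bg ∈ Cfsg.Geo.quadSimilarityGroup (F := F₀) (dotQ (Fin n) F₀) :=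
      (mem_sim_dot h2 Bg).2 ⟨Units.mk0 d₀ hd₀0, hBB⟩
    refine ⟨⟨Bg, hBg⟩, ?_⟩
    rw [ThetaGO_apply]
    symm
    apply iotaU_twist_eq hF h2 σ hσ hord j hj ⟨Bg, hBg⟩ A b⁻¹ (inv_ne_zero hb0)
    show (A.1 : Matrix (Fin n) (Fin n) F) = b⁻¹ • (Matrix.of B₀).map j
    rw [hB₁map, smul_smul, inv_mul_cancel₀ hb0, one_smul]

theorem ThetaGO_ker (hF : Fintype.card F = q ^ 2) (h2 : (2 : F₀) ≠ 0) (hn : 3 ≤ n)
    (σ : F ≃+* F) (hσ : ∀ a, σ a = a ^ q) (hord : orderOf σ = 2) (j : F₀ →+* F)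
    (hj : ∀ a : F, σ a = a ↔ a ∈ Set.range j) :
    (ThetaGO hF h2 σ hσ hord j hj n).ker =
      (Cfsg.Geo.scalars (Fin n) F₀).subgroupOf
        (Cfsg.Geo.quadSimilarityGroup (F := F₀) (dotQ (Fin n) F₀)) := by
  ext B
  rw [MonoidHom.mem_ker, Subgroup.mem_subgroupOf, Cfsg.Geo.mem_scalars_iff, ThetaGO_apply]
  obtain ⟨μ, hμ, hT⟩ := twist_spec hF h2 σ hσ hord j hj B
  constructor
  · intro h
    obtain ⟨l, hl⟩ := (iotaU_eq_one_iff hF hn _).1 h
    rw [hT] at hl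
    have hc' : ∀ a b, j (((B : GL (Fin n) F₀) : Matrix (Fin n) (Fin n) F₀) a b) =
        if a = b then l / μ else 0 := by
      intro a b
      have h2' := congrFun (congrFun hl a) b
      simp only [Matrix.smul_apply, Matrix.map_apply, smul_eq_mul, Matrix.one_apply] at h2'
      by_cases hab : a = b
      · rw [if_pos hab] at h2' ⊢
        rw [eq_div_iff hμ, mul_comm, h2', mul_one]
      · rw [if_neg hab] at h2' ⊢
        rw [mul_zero] at h2'
        exact (mul_eq_zero.1 h2').resolve_left hμ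
    obtain ⟨c₀, hc₀⟩ : ∃ c₀ : F₀, c₀ = ((B : GL (Fin n) F₀) : Matrix (Fin n) (Fin n) F₀)
        ⟨0, by omega⟩ ⟨0, by omega⟩ := ⟨_, rfl⟩
    have hjc : j c₀ = l / μ := by
      rw [hc₀, hc', if_pos rfl]
    have hBeq : ((B : GL (Fin n) F₀) : Matrix (Fin n) (Fin n) F₀) =
        c₀ • (1 : Matrix (Fin n) (Fin n) F₀) := by
      ext a b
      apply j.injective
      rw [hc' a b]
      by_cases hab : a = b
      · subst hab
        simp [hjc]
      · simp [Matrix.one_apply, hab]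
    have hc₀0 : c₀ ≠ 0 := by
      rintro rfl
      rw [zero_smul] at hBeq
      have h1 := AutPSL.gl_det_ne_zero (B : GL (Fin n) F₀)
      haveI : Nonempty (Fin n) := ⟨⟨0, by omega⟩⟩
      rw [hBeq, Matrix.det_zero] at h1
      exact h1 rfl
    exact ⟨Units.mk0 c₀ hc₀0, hBeq⟩
  · rintro ⟨c, hc⟩
    apply iotaU_scalar _ (μ * j (c : F₀))
    rw [hT, hc]
    ext a b
    by_cases hab : a = b
    · subst hab
      simp
    · simp [Matrix.one_apply, hab]

/-- the centraliser of the `q`-Frobenius in `Inndiag(PSU_n(q))` is `PGO_n(q)` of the dot form -/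
theorem nonempty_centEquivGO (hF : Fintype.card F = q ^ 2) (h2 : (2 : F₀) ≠ 0) (hn : 3 ≤ n)
    (σ : F ≃+* F) (hσ : ∀ a, σ a = a ^ q) (hord : orderOf σ = 2) (j : F₀ →+* F)
    (hj : ∀ a : F, σ a = a ↔ a ∈ Set.range j) :
    Nonempty (↥(Cfsg.inndiagPSU n F q ⊓
      Subgroup.centralizer {(PhiU σ : MulAut (Cfsg.PSU n F q))}) ≃*
        Cfsg.PGO F₀ (dotQ (Fin n) F₀)) := by
  have e1 := MulEquiv.subgroupCongr (ThetaGO_range hF h2 hn σ hσ hord j hj).symm
  have e2 := QuotientGroup.quotientKerEquivRange (ThetaGO hF h2 σ hσ hord j hj n)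
  have e3 : ↥(Cfsg.Geo.quadSimilarityGroup (F := F₀) (dotQ (Fin n) F₀)) ⧸
      (ThetaGO hF h2 σ hσ hord j hj n).ker ≃* Cfsg.PGO F₀ (dotQ (Fin n) F₀) :=
    QuotientGroup.quotientMulEquivOfEq (ThetaGO_ker hF h2 hn σ hσ hord j hj)
  exact ⟨e1.trans (e2.symm.trans e3)⟩

end Cfsg.Agent.Lib.Helper53.SUGO
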