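import Mathlib
import Cfsg.Agent.Lib.Helper53.SUGO
import Cfsg.Agent.Lib.Helper53.Hermitian

/-!
# Descent data for graph involutions of `PSU_n(q)` (helper53)

`|F| = q²`, `σ` the `q`-Frobenius (order two), `j : F₀ →+* F` with image the fixed field.
A unitary matrix `g` (`gᵀ σ(g) = 1`) with `g σ(g)` scalar defines the graph involution
`x ↦ g σ(x) g⁻¹` of `PSU_n`.  `Desc σ j g B g₀` records a base change `B` to the fixed points of
the semilinear map `v ↦ g σ(v)` (up to a scalar) in which the Hermitian form becomes a scalar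
multiple of the inverse of the matrix `g₀` over `F₀`.
-/

set_option autoImplicit false

namespace Cfsg.Agent.Lib.Helper53.GT6

open Matrix

variable {F : Type*} [Field F] {F₀ : Type*} [Field F₀] {n : ℕ}

/-- descent datum: `g σ(B) = c B` and `Bᵀ σ(B) j(g₀) = ω` -/
def Desc (σ : F ≃+* F) (j : F₀ →+* F) (g B : Matrix (Fin n) (Fin n) F)
    (g₀ : Matrix (Fin n) (Fin n) F₀) : Prop :=
  B.det ≠ 0 ∧ (∃ c : F, c ≠ 0 ∧ g * B.map σ = c • B) ∧
    ∃ ω : F, ω ≠ 0 ∧ B.transpose * B.map σ * g₀.map j = ω • (1 : Matrix (Fin n) (Fin n) F)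

/-- `σ(σ(M)) = M` -/
theorem map_map_sigma (σ : F ≃+* F) (hσ2 : ∀ x, σ (σ x) = x) (M : Matrix (Fin n) (Fin n) F) :
    (M.map σ).map σ = M := by
  ext a b
  simp [hσ2]

theorem map_sigma_mul (σ : F ≃+* F) (M N : Matrix (Fin n) (Fin n) F) :
    (M * N).map σ = M.map σ * N.map σ := by
  exact Matrix.map_mul (f := (σ : F →+* F))

theorem map_sigma_smul (σ : F ≃+* F) (c : F) (M : Matrix (Fin n) (Fin n) F) :
    (c • M).map σ = σ c • M.map σ := by
  ext a b
  simp

/-- a descent datum forces `g σ(g)` to be a nonzero scalar -/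
theorem desc_sq (σ : F ≃+* F) (hσ2 : ∀ x, σ (σ x) = x) (j : F₀ →+* F)
    (g B : Matrix (Fin n) (Fin n) F) (g₀ : Matrix (Fin n) (Fin n) F₀) (hD : Desc σ j g B g₀) :
    ∃ c : F, c ≠ 0 ∧ g * g.map σ = c • (1 : Matrix (Fin n) (Fin n) F) := by
  obtain ⟨hB, ⟨c, hc0, hc⟩, -⟩ := hD
  refine ⟨σ c * c, mul_ne_zero ((map_ne_zero σ).2 hc0) hc0, ?_⟩
  have h1 : g.map σ * B = σ c • B.map σ := by
    have := congrArg (fun M : Matrix (Fin n) (Fin n) F => M.map σ) hc
    simp only [map_sigma_mul, map_sigma_smul, map_map_sigma σ hσ2] at this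
    exact this
  have h2 : g * g.map σ * B = (σ c * c) • B := by
    rw [Matrix.mul_assoc, h1, Matrix.mul_smul, hc, smul_smul]
  have hBu : IsUnit B.det := isUnit_iff_ne_zero.2 hB
  have h3 := congrArg (fun M : Matrix (Fin n) (Fin n) F => M * B⁻¹) h2
  simp only [Matrix.smul_mul] at h3
  rw [Matrix.mul_assoc, Matrix.mul_nonsing_inv _ hBu, Matrix.mul_one] at h3
  exact h3

end Cfsg.Agent.Lib.Helper53.GT6
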