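import Mathlib
import Cfsg.Agent.Lib.Helper53.SUCent
import Cfsg.Agent.Lib.Helper53.Hilbert90Gen

/-!
# Conjugacy of field automorphisms of `PSU_n(q)` under `Inndiag` (helper53)

* `exists_twist_su`: Lang's theorem for the unitary group, for an automorphism of odd order;
* `field_conj_su`, `order_iff_conjU`: the statement S2711.
-/

set_option autoImplicit false
set_option linter.unusedSectionVars false
set_option linter.unusedVariables false

namespace Cfsg.Agent.Lib.Helper53.AutPSU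

open Matrix Cfsg.Agent.Lib.Helper7 Cfsg.Agent.Lib.Helper18 Cfsg.Agent.Lib.Helper87

variable {F : Type*} [Field F] [Fintype F] {q n : ℕ}

/-- the fixed field of `σ` -/
def fixSubU (σ : F ≃+* F) : Subfield F where
  carrier := {x | σ x = x}
  mul_mem' := fun {a b} ha hb => by
    show σ (a * b) = a * b
    rw [map_mul, (ha : σ a = a), (hb : σ b = b)]
  one_mem' := map_one σ
  add_mem' := fun {a b} ha hb => by
    show σ (a + b) = a + b
    rw [map_add, (ha : σ a = a), (hb : σ b = b)]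
  zero_mem' := map_zero σ
  neg_mem' := fun {a} ha => by
    show σ (-a) = -a
    rw [map_neg, (ha : σ a = a)]
  inv_mem' := fun a ha => by
    show σ a⁻¹ = a⁻¹
    rw [map_inv₀, (ha : σ a = a)]

theorem mem_fixSubU (σ : F ≃+* F) (x : F) : x ∈ fixSubU σ ↔ σ x = x := Iff.rfl

/-- the Galois group of `F` over the fixed field of `σ` is generated by `σ` -/
theorem mem_zpowers_of_fixU (σ τ : F ≃+* F) (h : ∀ a, σ a = a → τ a = a) :
    τ ∈ Subgroup.zpowers σ := by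
  haveI : Finite (F ≃+* F) :=
    Finite.of_injective (fun e : F ≃+* F => (e : F → F)) DFunLike.coe_injective
  let f : F ≃ₐ[FixedPoints.subfield (Subgroup.zpowers σ) F] F :=
    AlgEquiv.ofRingEquiv (f := τ) (fun x => h x ((Fix.mem_fixed_iff σ x).1 x.2))
  obtain ⟨g, hg⟩ := FixedPoints.toAlgAut_surjective (Subgroup.zpowers σ) F f
  have e : τ = g.1 := by
    ext a
    have := congrArg (fun f' : F ≃ₐ[FixedPoints.subfield (Subgroup.zpowers σ) F] F => f' a) hg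
    exact this.symm
  rw [e]
  exact g.2

/-- the `q`-th power map as an automorphism -/
noncomputable def frobE (hF : Fintype.card F = q ^ 2) : F ≃+* F :=
  RingEquiv.ofBijective (frobq hF)
    ((Finite.injective_iff_bijective).1 (frobq hF).injective)

theorem frobE_apply (hF : Fintype.card F = q ^ 2) (x : F) : frobE hF x = x ^ q := rfl

/-- an automorphism of odd order does not fix the `q`-th power map's moving elements -/
theorem exists_fixed_not_frob (hF : Fintype.card F = q ^ 2) (σ : F ≃+* F)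
    (hodd : Odd (orderOf σ)) : ∃ θ : F, σ θ = θ ∧ θ ^ q ≠ θ := by
  by_contra hcon
  push Not at hcon
  have h1 : frobE hF ∈ Subgroup.zpowers σ := mem_zpowers_of_fixU σ (frobE hF) hcon
  have h2 : orderOf (frobE hF) ∣ orderOf σ := orderOf_dvd_of_mem_zpowers h1
  have h3 : orderOf (frobE hF) ∣ 2 := by
    apply orderOf_dvd_of_pow_eq_one
    ext x
    show frobE hF (frobE hF x) = x
    rw [frobE_apply, frobE_apply, herm_pow_pow hF]
  have h4 : orderOf (frobE hF) = 1 := by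
    have h5 : orderOf (frobE hF) ∣ Nat.gcd (orderOf σ) 2 := Nat.dvd_gcd h2 h3
    have h6 : Nat.gcd (orderOf σ) 2 = 1 := by
      rw [Nat.coprime_comm.1 (Nat.coprime_two_left.2 hodd)]
    rw [h6] at h5
    exact Nat.dvd_one.1 h5
  have h7 : frobE hF = 1 := orderOf_eq_one_iff.1 h4
  obtain ⟨θ, hθ⟩ := exists_not_fixed' hF
  apply hθ
  have h8 := congrArg (fun e : F ≃+* F => e θ) h7
  exact h8

/-- the `q`-th power map on the fixed field of `σ` -/
noncomputable def frobFix (hF : Fintype.card F = q ^ 2) (σ : F ≃+* F) :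
    ↥(fixSubU σ) ≃+* ↥(fixSubU σ) :=
  RingEquiv.ofBijective
    (((frobq hF).comp (fixSubU σ).subtype).codRestrict (fixSubU σ) (fun x => by
      show σ ((x : F) ^ q) = (x : F) ^ q
      rw [map_pow, (x.2 : σ (x : F) = x)]))
    ((Finite.injective_iff_bijective).1 (RingHom.injective _))

theorem frobFix_coe (hF : Fintype.card F = q ^ 2) (σ : F ≃+* F) (x : ↥(fixSubU σ)) :
    ((frobFix hF σ x : ↥(fixSubU σ)) : F) = (x : F) ^ q := rfl

theorem map_frob_mul (hF : Fintype.card F = q ^ 2) {l m k : ℕ}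
    (M : Matrix (Fin l) (Fin m) F) (N : Matrix (Fin m) (Fin k) F) :
    (M * N).map (· ^ q) = M.map (· ^ q) * N.map (· ^ q) :=
  Matrix.map_mul (f := frobq hF)

theorem map_frob_smul (c : F) {l m : ℕ} (M : Matrix (Fin l) (Fin m) F) :
    (c • M).map (· ^ q) = c ^ q • M.map (· ^ q) := by
  ext i j
  simp only [Matrix.map_apply, Matrix.smul_apply, smul_eq_mul, mul_pow]

theorem map_frob_sigma (σ : F ≃+* F) {l m : ℕ} (M : Matrix (Fin l) (Fin m) F) :
    (M.map σ).map (· ^ q) = (M.map (· ^ q)).map σ := by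
  ext i j
  simp only [Matrix.map_apply, map_pow]

/-- Lang's theorem for the unitary group and an automorphism of odd order -/
theorem exists_twist_su (hF : Fintype.card F = q ^ 2) (hn : 1 ≤ n) (σ : F ≃+* F) (r : ℕ)
    (hr0 : 0 < r) (hσ : orderOf σ = r) (hodd : Odd r) (A : ↥(Cfsg.GU n F q)) (l : F)
    (hl : l ≠ 0)
    (hT : ∀ v, (H90.slG σ (A.1 : Matrix (Fin n) (Fin n) F))^[r] v = l • v) :
    ∃ (B : ↥(Cfsg.GU n F q)) (c : F), c ≠ 0 ∧
      (A.1 : Matrix (Fin n) (Fin n) F) * (B.1 : Matrix (Fin n) (Fin n) F).map σ =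
        c • (B.1 : Matrix (Fin n) (Fin n) F) := by
  classical
  haveI : Nonempty (Fin n) := ⟨⟨0, hn⟩⟩
  obtain ⟨B₁, c₁, hB₁, hc₁, hAB⟩ := H90.exists_twistG σ r hr0 hσ
    (A.1 : Matrix (Fin n) (Fin n) F) l hl hT
  have hAu := (mem_GU_mat hF A.1).1 A.2
  obtain ⟨K, hK⟩ : ∃ K : Matrix (Fin n) (Fin n) F, K = B₁ᵀ * B₁.map (· ^ q) := ⟨_, rfl⟩
  have hKdet : K.det ≠ 0 := by
    have h1 : (B₁.map (· ^ q)).det = B₁.det ^ q := (RingHom.map_det (frobq hF) B₁).symm
    rw [hK, Matrix.det_mul, Matrix.det_transpose, h1]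
    exact mul_ne_zero hB₁.ne_zero (pow_ne_zero _ hB₁.ne_zero)
  have hKherm : ∀ i j, (K j i) ^ q = K i j := by
    intro i j
    rw [hK]
    simp only [Matrix.mul_apply, Matrix.transpose_apply, Matrix.map_apply]
    rw [herm_sum_pow hF]
    refine Finset.sum_congr rfl (fun k _ => ?_)
    rw [mul_pow, herm_pow_pow hF, mul_comm]
  -- `σ(K) = κ K`
  have hKσ : K.map σ = c₁ ^ (q + 1) • K := by
    have e1 : K.map σ = (B₁.map σ)ᵀ * (B₁.map σ).map (· ^ q) := by
      rw [hK, Matrix.map_mul, map_frob_sigma, Matrix.transpose_map]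
    have e2 : ((A.1 : Matrix (Fin n) (Fin n) F) * B₁.map σ)ᵀ *
        ((A.1 : Matrix (Fin n) (Fin n) F) * B₁.map σ).map (· ^ q) = K.map σ := by
      rw [e1, Matrix.transpose_mul, map_frob_mul hF]
      calc (B₁.map σ)ᵀ * (A.1 : Matrix (Fin n) (Fin n) F)ᵀ *
            ((A.1 : Matrix (Fin n) (Fin n) F).map (· ^ q) * (B₁.map σ).map (· ^ q))
          = (B₁.map σ)ᵀ * ((A.1 : Matrix (Fin n) (Fin n) F)ᵀ *
              (A.1 : Matrix (Fin n) (Fin n) F).map (· ^ q)) * (B₁.map σ).map (· ^ q) := by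
            simp only [Matrix.mul_assoc]
        _ = _ := by rw [hAu, Matrix.mul_one]
    rw [← e2, hAB, map_frob_smul, Matrix.transpose_smul, Matrix.smul_mul, Matrix.mul_smul,
      smul_smul, ← hK, pow_succ']
  obtain ⟨κ, hκ⟩ : ∃ κ : F, κ = c₁ ^ (q + 1) := ⟨_, rfl⟩
  rw [← hκ] at hKσ
  have hκq : κ ^ q = κ := by
    rw [hκ]
    exact herm_norm_fixed hF c₁
  have hσr : σ ^ r = 1 := by
    rw [← hσ]
    exact pow_orderOf_eq_one σ
  have hN : H90.nrm σ r κ = 1 := by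
    have e := AutPSL.map_pow_eq σ K κ hKσ r
    rw [hσr] at e
    obtain ⟨i, j, hij⟩ : ∃ i j, K i j ≠ 0 := by
      by_contra hcon
      push Not at hcon
      apply hKdet
      have h0 : K = 0 := by
        ext i j
        exact hcon i j
      rw [h0, Matrix.det_zero]
    have e1 := congrFun (congrFun e i) j
    simp only [Matrix.map_apply, Matrix.smul_apply, smul_eq_mul] at e1
    have e2 : (H90.nrm σ r κ - 1) * K i j = 0 := by
      rw [sub_mul, one_mul, ← e1]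
      exact sub_self _
    rcases mul_eq_zero.1 e2 with h3 | h3
    · exact sub_eq_zero.1 h3
    · exact absurd h3 hij
  obtain ⟨e₀, he₀0, he₀⟩ := H90.exists_fixed_scalar σ r hr0 hσ κ hN
  obtain ⟨θ, hθσ, hθq⟩ := exists_fixed_not_frob hF σ (by rw [hσ]; exact hodd)
  -- a solution in the fixed field of the `q`-th power map
  obtain ⟨e, he0, he, heq⟩ : ∃ e : F, e ≠ 0 ∧ κ * σ e = e ∧ e ^ q = e := by
    have hq' : κ * σ (e₀ ^ q) = e₀ ^ q := by
      rw [map_pow]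
      calc κ * σ e₀ ^ q = κ ^ q * σ e₀ ^ q := by rw [hκq]
        _ = (κ * σ e₀) ^ q := (mul_pow _ _ _).symm
        _ = e₀ ^ q := by rw [he₀]
    by_cases h1 : e₀ + e₀ ^ q = 0
    · refine ⟨(θ - θ ^ q) * e₀, mul_ne_zero (sub_ne_zero.2 (Ne.symm hθq)) he₀0, ?_, ?_⟩
      · rw [map_mul, map_sub, map_pow, hθσ]
        calc κ * ((θ - θ ^ q) * σ e₀) = (θ - θ ^ q) * (κ * σ e₀) := by ring
          _ = _ := by rw [he₀]
      · have h2 : e₀ ^ q = -e₀ := by linear_combination h1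
        rw [mul_pow, herm_sub_pow hF, herm_pow_pow hF, h2]
        ring
    · refine ⟨e₀ + e₀ ^ q, h1, ?_, ?_⟩
      · rw [map_add, mul_add, he₀, hq']
      · rw [herm_add_pow hF, herm_pow_pow hF, add_comm]
  have hfix : ∀ i j, σ (e * K i j) = e * K i j := by
    intro i j
    have h2 := congrFun (congrFun hKσ i) j
    simp only [Matrix.map_apply, Matrix.smul_apply, smul_eq_mul] at h2
    rw [map_mul, h2, ← mul_assoc, mul_comm (σ e), he]
  -- the Hermitian matrix over the fixed field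
  obtain ⟨K₀, hK₀⟩ : ∃ K₀ : Matrix (Fin n) (Fin n) ↥(fixSubU σ),
      K₀ = Matrix.of fun i j => (⟨e * K i j, hfix i j⟩ : ↥(fixSubU σ)) := ⟨_, rfl⟩
  have hK₀map : K₀.map (fixSubU σ).subtype = e • K := by
    rw [hK₀]
    ext i j
    rfl
  have hσ₁1 : frobFix hF σ ≠ 1 := by
    intro h1
    apply hθq
    have h2 := congrArg (fun τ : ↥(fixSubU σ) ≃+* ↥(fixSubU σ) =>
      ((τ ⟨θ, hθσ⟩ : ↥(fixSubU σ)) : F)) h1
    exact h2
  have hσ₁2 : ∀ x, frobFix hF σ (frobFix hF σ x) = x := by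
    intro x
    apply Subtype.ext
    rw [frobFix_coe, frobFix_coe, herm_pow_pow hF]
  have hH₀ : ∀ i j, frobFix hF σ (K₀ j i) = K₀ i j := by
    intro i j
    apply Subtype.ext
    rw [frobFix_coe, hK₀]
    show (e * K j i) ^ q = e * K i j
    rw [mul_pow, heq, hKherm]
  have hdet₀ : K₀.det ≠ 0 := by
    intro h0
    have h3 : (K₀.map (fixSubU σ).subtype).det = (fixSubU σ).subtype K₀.det :=
      (RingHom.map_det _ _).symm
    rw [h0, map_zero, hK₀map, Matrix.det_smul] at h3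
    rcases mul_eq_zero.1 h3 with h4 | h4
    · exact he0 (pow_eq_zero_iff (Fintype.card_ne_zero) |>.1 h4)
    · exact hKdet h4
  obtain ⟨B₀, hB₀det, hB₀⟩ := Herm.exists_factor (frobFix hF σ) hσ₁1 hσ₁2 K₀ hH₀ hdet₀
  -- `P₀ * K₀ * (P₀^σ₁)ᵀ = 1` with `P₀ = B₀⁻¹`
  have hP₀ : B₀⁻¹ * K₀ * ((B₀⁻¹).map (frobFix hF σ))ᵀ = 1 := by
    rw [hB₀, ← Matrix.mul_assoc, Matrix.nonsing_inv_mul B₀ hB₀det, Matrix.one_mul,
      ← Matrix.transpose_mul, ← Matrix.map_mul, Matrix.nonsing_inv_mul B₀ hB₀det,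
      Matrix.map_one _ (map_zero _) (map_one _), Matrix.transpose_one]
  obtain ⟨P, hP⟩ : ∃ P : Matrix (Fin n) (Fin n) F, P = (B₀⁻¹).map (fixSubU σ).subtype := ⟨_, rfl⟩
  have hPσ : P.map σ = P := by
    rw [hP]
    ext i j
    exact ((B₀⁻¹) i j).2
  have hPq : P.map (· ^ q) = ((B₀⁻¹).map (frobFix hF σ)).map (fixSubU σ).subtype := by
    rw [hP]
    ext i j
    rfl
  have hPK : P * (e • K) * (P.map (· ^ q))ᵀ = 1 := by
    have h5 := congrArg (fun M : Matrix (Fin n) (Fin n) ↥(fixSubU σ) =>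
      M.map (fixSubU σ).subtype) hP₀
    simp only [Matrix.map_mul] at h5
    rw [hK₀map, ← hP, Matrix.transpose_map, ← hPq,
      Matrix.map_one _ (map_zero _) (map_one _)] at h5
    exact h5
  -- the scalar
  obtain ⟨t, ht0, ht⟩ := herm_norm_surj hF e he0 heq
  obtain ⟨B, hBdef⟩ : ∃ B : Matrix (Fin n) (Fin n) F, B = t • (B₁ * Pᵀ) := ⟨_, rfl⟩
  have hBu : Bᵀ * B.map (· ^ q) = 1 := by
    have e1 : (Pᵀ).map (· ^ q) = (P.map (· ^ q))ᵀ := by
      ext i j
      rfl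
    rw [hBdef, map_frob_smul, map_frob_mul hF, e1, Matrix.transpose_smul, Matrix.transpose_mul,
      Matrix.transpose_transpose, Matrix.smul_mul, Matrix.mul_smul, smul_smul]
    have h9 : P * K * (P.map (· ^ q))ᵀ = e⁻¹ • (1 : Matrix (Fin n) (Fin n) F) := by
      rw [← hPK, Matrix.mul_smul, Matrix.smul_mul, smul_smul, inv_mul_cancel₀ he0, one_smul]
    calc (t * t ^ q) • (P * B₁ᵀ * (B₁.map (· ^ q) * (P.map (· ^ q))ᵀ))
        = (t * t ^ q) • (P * (B₁ᵀ * B₁.map (· ^ q)) * (P.map (· ^ q))ᵀ) := by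
          simp only [Matrix.mul_assoc]
      _ = 1 := by
          rw [← hK, h9, smul_smul, ← pow_succ', ht, mul_inv_cancel₀ he0, one_smul]
  have hfr : IsFr q n n (colFr B) := (isFr_iff_mul B).2 hBu
  have hU : IsUnit B := isUnit_of_preserves hF _ (preserves_of_isFr hF _ hfr)
  have hσt : σ t ≠ 0 := by
    intro h0
    apply ht0
    simpa using h0
  refine ⟨⟨hU.unit, (mem_GU_iff_isFr hF _).mpr hfr⟩, σ t * c₁ / t,
    div_ne_zero (mul_ne_zero hσt hc₁) ht0, ?_⟩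
  show (A.1 : Matrix (Fin n) (Fin n) F) * B.map σ = (σ t * c₁ / t) • B
  have e3 : B.map σ = σ t • (B₁.map σ * Pᵀ) := by
    rw [hBdef]
    have e4 : (Pᵀ).map σ = Pᵀ := by
      rw [Matrix.transpose_map, hPσ]
    have e5 : (B₁ * Pᵀ).map σ = B₁.map σ * (Pᵀ).map σ := Matrix.map_mul
    have e6 : (t • (B₁ * Pᵀ)).map σ = σ t • (B₁ * Pᵀ).map σ := by
      ext i j
      simp only [Matrix.map_apply, Matrix.smul_apply, smul_eq_mul, map_mul]
    rw [e6, e5, e4]
  rw [e3, Matrix.mul_smul, ← Matrix.mul_assoc, hAB, Matrix.smul_mul, smul_smul, hBdef, smul_smul]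
  congr 1
  field_simp

/-- the twisted norm `A σ(A) ⋯ σ^{k-1}(A)` -/
def NkU (σ : F ≃+* F) : ℕ → ↥(Cfsg.GU n F q) → ↥(Cfsg.GU n F q)
  | 0, _ => 1
  | (k + 1), A => A * gmapU σ (NkU σ k A)

theorem NkU_zero (σ : F ≃+* F) (A : ↥(Cfsg.GU n F q)) : NkU σ 0 A = 1 := rfl

theorem NkU_succ (σ : F ≃+* F) (k : ℕ) (A : ↥(Cfsg.GU n F q)) :
    NkU σ (k + 1) A = A * gmapU σ (NkU σ k A) := rfl

theorem pow_iotaU_PhiU (σ : F ≃+* F) (A : ↥(Cfsg.GU n F q)) (k : ℕ) :
    (iotaU A * PhiU σ : MulAut (Cfsg.PSU n F q)) ^ k = iotaU (NkU σ k A) * PhiU σ ^ k := by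
  induction k with
  | zero => simp [NkU_zero]
  | succ k ih =>
    rw [pow_succ', ih, NkU_succ, map_mul, pow_succ']
    calc (iotaU A * PhiU σ * (iotaU (NkU σ k A) * PhiU σ ^ k) : MulAut (Cfsg.PSU n F q))
        = iotaU A * (PhiU σ * iotaU (NkU σ k A)) * PhiU σ ^ k := by group
      _ = iotaU A * (iotaU (gmapU σ (NkU σ k A)) * PhiU σ) * PhiU σ ^ k := by
          rw [PhiU_mul_iotaU]
      _ = _ := by group

theorem map_mulVecU (σ : F ≃+* F) (N : Matrix (Fin n) (Fin n) F) (w : Fin n → F) :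
    (fun i => σ ((N *ᵥ w) i)) = (N.map σ) *ᵥ (fun i => σ (w i)) := by
  funext i
  simp [Matrix.mulVec, dotProduct, map_sum]

theorem slG_iterU (σ : F ≃+* F) (A : ↥(Cfsg.GU n F q)) (k : ℕ) (v : Fin n → F) :
    (H90.slG σ (A.1 : Matrix (Fin n) (Fin n) F))^[k] v =
      ((NkU σ k A).1 : Matrix (Fin n) (Fin n) F) *ᵥ (fun i => (σ ^ k : F ≃+* F) (v i)) := by
  induction k with
  | zero =>
    simp only [Function.iterate_zero, id, NkU_zero, pow_zero]
    show v = (1 : Matrix (Fin n) (Fin n) F) *ᵥ _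
    rw [Matrix.one_mulVec]
    rfl
  | succ k ih =>
    rw [Function.iterate_succ_apply', ih, H90.slG, map_mulVecU, Matrix.mulVec_mulVec, NkU_succ]
    show _ = ((A.1 : Matrix (Fin n) (Fin n) F) *
      ((NkU σ k A).1 : Matrix (Fin n) (Fin n) F).map σ) *ᵥ _
    congr 1
    funext i
    rw [H90.pow_succ_apply]

theorem field_conj_su (hF : Fintype.card F = q ^ 2) (hn : 3 ≤ n) (σ : F ≃+* F) (r : ℕ)
    (hr0 : 0 < r) (hσ : orderOf σ = r) (hodd : Odd r) (A : ↥(Cfsg.GU n F q))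
    (hA : (iotaU A * PhiU σ : MulAut (Cfsg.PSU n F q)) ^ r = 1) :
    ∃ B : ↥(Cfsg.GU n F q),
      (iotaU A * PhiU σ : MulAut (Cfsg.PSU n F q)) = iotaU B * PhiU σ * (iotaU B)⁻¹ := by
  have hσr : σ ^ r = 1 := by
    rw [← hσ]
    exact pow_orderOf_eq_one σ
  rw [pow_iotaU_PhiU, ← map_pow, hσr, map_one, mul_one] at hA
  obtain ⟨l, hl⟩ := (iotaU_eq_one_iff hF hn _).1 hA
  obtain ⟨hl0, -⟩ := scalar_norm_one hF hn _ l hl
  have hT : ∀ v, (H90.slG σ (A.1 : Matrix (Fin n) (Fin n) F))^[r] v = l • v := by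
    intro v
    rw [slG_iterU, hl, hσr, Matrix.smul_mulVec, Matrix.one_mulVec]
    rfl
  obtain ⟨B, c, hc0, hAB⟩ := exists_twist_su hF (by omega) σ r hr0 hσ hodd A l hl0 hT
  refine ⟨B, ?_⟩
  have h1 : (iotaU (A * gmapU σ B) : MulAut (Cfsg.PSU n F q)) = iotaU B :=
    iotaU_eq_of_smul _ _ c hc0 hAB
  rw [map_mul] at h1
  have h2 : (PhiU σ * (iotaU B)⁻¹ : MulAut (Cfsg.PSU n F q)) =
      (iotaU (gmapU σ B))⁻¹ * PhiU σ := by
    rw [eq_inv_mul_iff_mul_eq, ← mul_assoc, ← PhiU_mul_iotaU, mul_inv_cancel_right]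
  rw [mul_assoc, h2, ← mul_assoc, ← h1, mul_inv_cancel_right]

/-- **The statement S2711.** -/
theorem order_iff_conjU {p f : ℕ} [Fact p.Prime] (hq : q = p ^ f) (hf : 1 ≤ f)
    (hF : Fintype.card F = q ^ 2) (hn : 3 ≤ n) (hs : ¬ (n = 3 ∧ q = 2))
    (x δ : MulAut (Cfsg.PSU n F q)) (hx : Cfsg.IsFieldAutClassPSU x) {r : ℕ} (hr : r.Prime)
    (hxr : orderOf x = r) (hδ : δ ∈ Cfsg.inndiagPSU n F q) :
    orderOf (δ * x) = r ↔ Cfsg.IsConjUnder (Cfsg.inndiagPSU n F q) x (δ * x) := by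
  haveI := charP_of_card hq hf hF
  constructor
  swap
  · rintro ⟨h, hh, e⟩
    rw [e, ← hxr]
    exact AutPSL.orderOf_conj' h x
  intro hord
  obtain ⟨α, φ, σ, hσ1, hσodd, hφ, e⟩ := hx
  rw [stdFieldU_iff] at hφ
  subst hφ
  have hker := lamU_ker hF hn hs p
  rw [← inndiagU_eq_range] at hker
  have hnorm : (Cfsg.inndiagPSU n F q).Normal := by
    rw [← hker]
    exact MonoidHom.normal_ker _
  obtain ⟨A, hA⟩ := (mem_inndiagU _).1 (hnorm.conj_mem δ hδ α)
  have h1 : α * (δ * x) * α⁻¹ = iotaU A * PhiU σ := by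
    rw [← hA, ← e]
    group
  have hσord : orderOf σ = r := by
    rw [← orderOf_injective PhiU (PhiU_injective hF hn) σ, ← e, AutPSL.orderOf_conj', hxr]
  have h2 : (iotaU A * PhiU σ : MulAut (Cfsg.PSU n F q)) ^ r = 1 := by
    rw [← h1, ← hord, ← AutPSL.orderOf_conj' α (δ * x)]
    exact pow_orderOf_eq_one _
  obtain ⟨B, hB⟩ := field_conj_su hF hn σ r hr.pos hσord (by rw [← hσord]; exact hσodd) A h2
  have hB' : α⁻¹ * iotaU B * α⁻¹⁻¹ ∈ Cfsg.inndiagPSU n F q :=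
    hnorm.conj_mem _ ((mem_inndiagU _).2 ⟨B, rfl⟩) α⁻¹
  rw [inv_inv] at hB'
  refine ⟨α⁻¹ * iotaU B * α, hB', ?_⟩
  have h3 : δ * x = α⁻¹ * (iotaU A * PhiU σ) * α := by
    rw [← h1]
    group
  rw [h3, hB, ← e]
  group

end Cfsg.Agent.Lib.Helper53.AutPSU
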