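import Cfsg.Agent.Lib.Helper96.PiDefs
import Cfsg.Agent.Lib.Helper96.PiGlueB
import Cfsg.Agent.Lib.Helper96.PiOmega
import Cfsg.Agent.Lib.Helper9.HeUNIPPOW

/-!
Project PI (S5989, helper96), piece U3: for a unipotent isometry `T` with `(T - 1)^3 = 0` the
rank of `T - 1` on an invariant nondegenerate subspace is even (`M = N - N²/2` is skew-adjoint).
-/

set_option autoImplicit false
set_option linter.unusedSectionVars false
set_option linter.unusedVariables false

namespace Cfsg.Agent.Lib.Helper53.Pi

open Module Cfsg.Agent.Lib.Helper96.Sp Cfsg.Agent.Lib.Helper96.BG Cfsg.Agent.Lib.Helper96.Hy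
  Cfsg.Agent.Lib.Helper96.Pi Cfsg.Agent.Lib.Helper47

universe u

section Abstract

variable {F : Type u} [Field F] [Fintype F] {V : Type u} [AddCommGroup V] [Module F V]
  [FiniteDimensional F V] {B : LinearMap.BilinForm F V}

-- PIECE U3
theorem even_rank_unip (hS : B.IsSymm) (h2 : (2 : F) ≠ 0) (T : Module.End F V) (hT : Isom B T)
    (hN3 : (T - 1) ^ 3 = 0) (W : Submodule F V) (hW : ND B W) (hWT : W.map T ≤ W) :
    Even (finrank F (W.map (T - 1))) := by
  obtain ⟨N, hNdef⟩ : ∃ N : Module.End F V, N = T - 1 := ⟨_, rfl⟩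
  rw [← hNdef] at hN3 ⊢
  have hTN : ∀ v, T v = v + N v := by
    intro v; rw [hNdef]; simp
  have hN3' : ∀ v, N (N (N v)) = 0 := by
    intro v
    have h := congrArg (fun f : Module.End F V => f v) hN3
    simpa [pow_succ, Module.End.mul_apply] using h
  have I1 : ∀ u v, B (N u) v + B u (N v) + B (N u) (N v) = 0 := by
    intro u v
    have h := hT u v
    rw [hTN, hTN] at h
    simp only [map_add, LinearMap.add_apply] at h
    linear_combination h
  have I2 : ∀ u v, B (N (N u)) (N (N v)) = 0 := by
    intro u v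
    have h := I1 (N u) (N (N v))
    simp only [hN3', map_zero, add_zero] at h
    exact h
  have I3 : ∀ u v, B (N (N u)) (N v) + B (N u) (N (N v)) = 0 := by
    intro u v
    have h := I1 (N u) (N v)
    rw [I2 u v, add_zero] at h
    exact h
  have I4 : ∀ u v, B (N (N u)) v + B u (N (N v)) = -2 * B (N u) (N v) := by
    intro u v
    linear_combination I1 (N u) v + I1 u (N v) - I3 u v
  have h2i : (2⁻¹ : F) * 2 = 1 := inv_mul_cancel₀ h2
  obtain ⟨M, hMdef⟩ : ∃ M : Module.End F V, M = N - (2⁻¹ : F) • (N * N) := ⟨_, rfl⟩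
  have hMv : ∀ v, M v = N v - (2⁻¹ : F) • N (N v) := by
    intro v; rw [hMdef]; simp [Module.End.mul_apply]
  have hskew : ∀ u v, B (M u) v + B u (M v) = 0 := by
    intro u v
    rw [hMv, hMv]
    simp only [map_sub, map_smul, LinearMap.sub_apply, LinearMap.smul_apply, smul_eq_mul]
    linear_combination I1 u v - (2⁻¹ : F) * I4 u v + B (N u) (N v) * h2i
  have hMalt : ∀ v, B v (M v) = 0 := by
    intro v
    have h := hskew v v
    rw [hS.eq (M v) v] at h
    have h' : (2 : F) * B v (M v) = 0 := by linear_combination h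
    rcases mul_eq_zero.mp h' with h0 | h0
    · exact absurd h0 h2
    · exact h0
  have hMN : ∀ v, M v = 0 ↔ N v = 0 := by
    intro v
    constructor
    · intro h
      rw [hMv, sub_eq_zero] at h
      have h' : N (N v) = 0 := by
        have := congrArg N h
        rw [map_smul, hN3', smul_zero] at this
        exact this
      rw [h, h', smul_zero]
    · intro h
      rw [hMv, h, map_zero, smul_zero, sub_zero]
  have hNW : ∀ w ∈ W, N w ∈ W := by
    intro w hw
    have h1 : T w ∈ W := hWT (Submodule.mem_map_of_mem hw)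
    have h2' : N w = T w - w := by rw [hTN]; abel
    rw [h2']
    exact W.sub_mem h1 hw
  have hMW : ∀ w ∈ W, M w ∈ W := by
    intro w hw
    rw [hMv]
    exact W.sub_mem (hNW w hw) (W.smul_mem _ (hNW _ (hNW w hw)))
  -- restrictions to W
  have hker : LinearMap.ker (M.domRestrict W) = LinearMap.ker (N.domRestrict W) := by
    ext w
    rw [LinearMap.mem_ker, LinearMap.mem_ker, LinearMap.domRestrict_apply,
      LinearMap.domRestrict_apply]
    exact hMN w
  have hrk := LinearMap.finrank_range_add_finrank_ker (N.domRestrict W)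
  rw [LinearMap.range_domRestrict, ← hker] at hrk
  obtain ⟨C, hC⟩ := exists_isCompl (LinearMap.ker (M.domRestrict W))
  have hcompl := Submodule.finrank_add_eq_of_isCompl hC
  have heq : finrank F (W.map N) = finrank F C := by omega
  rw [heq]
  -- the alternating form on W
  obtain ⟨A, hAdef⟩ : ∃ A : LinearMap.BilinForm F ↥W,
      A = LinearMap.compl₁₂ B W.subtype (M ∘ₗ W.subtype) := ⟨_, rfl⟩
  have hAv : ∀ x y : ↥W, A x y = B (x : V) (M (y : V)) := by
    intro x y; rw [hAdef]; rfl
  have hAalt : A.IsAlt := by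
    intro x
    rw [hAv]
    exact hMalt _
  apply even_finrank_of_nd hAalt C
  intro c hc h
  have hMc : M (c : V) = 0 := by
    apply hW _ (hMW _ c.2)
    intro w' hw'
    have hdec : (⟨w', hw'⟩ : ↥W) ∈ LinearMap.ker (M.domRestrict W) ⊔ C := by
      rw [hC.sup_eq_top]; exact Submodule.mem_top
    obtain ⟨r, hr, c', hc', hsum⟩ := Submodule.mem_sup.mp hdec
    have hw'eq : w' = (r : V) + (c' : V) := by
      have := congrArg Subtype.val hsum
      simpa using this.symm
    have hMr : M (r : V) = 0 := by
      have := LinearMap.mem_ker.mp hr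
      rwa [LinearMap.domRestrict_apply] at this
    have h1 : B (M (c : V)) w' = - B (c : V) (M w') := by
      linear_combination hskew (c : V) w'
    rw [h1, hw'eq, map_add, hMr, zero_add]
    have h3 := h c' hc'
    rw [hAv] at h3
    rw [h3, neg_zero]
  have hcker : c ∈ LinearMap.ker (M.domRestrict W) := by
    rw [LinearMap.mem_ker, LinearMap.domRestrict_apply]
    exact hMc
  have hbot : c ∈ LinearMap.ker (M.domRestrict W) ⊓ C := ⟨hcker, hc⟩
  rw [hC.inf_eq_bot] at hbot
  exact (Submodule.mem_bot F).mp hbot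

end Abstract

end Cfsg.Agent.Lib.Helper53.Pi
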