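import Mathlib
import Cfsg.Agent.Lib.Helper51.OutOdd

/-!
# Base change for the odd-dimensional form (helper53)

`e : F₀ →+* F` a field embedding.  The form `QOdd` commutes with `e`; similarities, isometries
and reflections over `F₀` map to similarities, isometries and reflections over `F`.
-/

set_option autoImplicit false
set_option linter.unusedSectionVars false

namespace Cfsg.Agent.Lib.Helper53.OddF

open Module QuadraticMap Matrix
open Cfsg Cfsg.Agent.Lib.Helper51

section Gram

variable {ι : Type} [Fintype ι] [DecidableEq ι] {F : Type*} [Field F]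
variable (Q : QuadraticForm F (ι → F))

theorem bil_gram (M G : Matrix ι ι F) (x y : ι → F) :
    (M *ᵥ x) ⬝ᵥ (G *ᵥ (M *ᵥ y)) = x ⬝ᵥ ((Mᵀ * G * M) *ᵥ y) := by
  rw [← Matrix.vecMul_transpose, ← Matrix.dotProduct_mulVec, Matrix.mulVec_mulVec,
    Matrix.mulVec_mulVec, Matrix.mul_assoc]

/-- a matrix is a similarity iff it scales the Gram matrix (odd characteristic) -/
theorem sim_iff_gram (h2 : (2 : F) ≠ 0) (M : Matrix ι ι F) (c : F) :
    (∀ v, Q (M *ᵥ v) = c * Q v) ↔ Mᵀ * gram Q * M = c • gram Q := by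
  constructor
  · intro h
    have hpol : ∀ x y, polar ⇑Q (M *ᵥ x) (M *ᵥ y) = c * polar ⇑Q x y := by
      intro x y
      unfold polar
      rw [← Matrix.mulVec_add, h, h, h]
      ring
    ext a b
    have h1 := hpol (Pi.single a 1) (Pi.single b 1)
    rw [polar_eq_gram, polar_eq_gram, bil_gram] at h1
    simpa using h1
  · intro h v
    have h1 : polar ⇑Q (M *ᵥ v) (M *ᵥ v) = c * polar ⇑Q v v := by
      rw [polar_eq_gram, polar_eq_gram, bil_gram, h, Matrix.smul_mulVec, dotProduct_smul,
        smul_eq_mul]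
    rw [Cfsg.Agent.Lib.Helper51.polar_self, Cfsg.Agent.Lib.Helper51.polar_self] at h1
    have h3 : (2 : F) * Q (M *ᵥ v) = 2 * (c * Q v) := by
      rw [h1]
      ring
    exact mul_left_cancel₀ h2 h3

end Gram

section BaseChange

variable {F₀ : Type*} [Field F₀] {F : Type*} [Field F] (e : F₀ →+* F) (m : ℕ)

local notation "Idx" => Unit ⊕ (Fin m ⊕ Fin m)

theorem QOdd_map (v : Idx → F₀) : QOdd m F (fun i => e (v i)) = e (QOdd m F₀ v) := by
  rw [QOdd_apply, QOdd_apply]
  simp only [map_add, map_pow, map_sum, map_mul]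

theorem polar_map (u v : Idx → F₀) :
    polar ⇑(QOdd m F) (fun i => e (u i)) (fun i => e (v i)) = e (polar ⇑(QOdd m F₀) u v) := by
  unfold polar
  have h : ((fun i => e (u i)) + fun i => e (v i) : Idx → F) = fun i => e ((u + v) i) := by
    funext i
    simp
  rw [h, QOdd_map, QOdd_map, QOdd_map, map_sub, map_sub]

theorem map_single (i : Idx) (c : F₀) :
    (fun j => e ((Pi.single i c : Idx → F₀) j)) = Pi.single i (e c) := by
  funext j
  by_cases h : j = i
  · subst h
    simp
  · simp [Pi.single_eq_of_ne h]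

theorem gram_map : gram (QOdd m F) = (gram (QOdd m F₀)).map e := by
  ext a b
  rw [Matrix.map_apply, Cfsg.Agent.Lib.Helper51.gram_apply, Cfsg.Agent.Lib.Helper51.gram_apply,
    ← polar_map, map_single, map_single, map_one]

theorem map_mulVec_e (M : Matrix Idx Idx F₀) (v : Idx → F₀) :
    (M.map e) *ᵥ (fun i => e (v i)) = fun i => e ((M *ᵥ v) i) := by
  funext i
  exact (RingHom.map_mulVec e M v i).symm

/-- similarities go up -/
theorem sim_up (h2 : (2 : F) ≠ 0) (M : Matrix Idx Idx F₀) (c : F₀)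
    (h : ∀ v, QOdd m F₀ (M *ᵥ v) = c * QOdd m F₀ v) :
    ∀ v, QOdd m F ((M.map e) *ᵥ v) = e c * QOdd m F v := by
  have h2' : (2 : F₀) ≠ 0 := by
    intro h0
    apply h2
    have := congrArg e h0
    rwa [map_ofNat, map_zero] at this
  rw [sim_iff_gram _ h2] 
  have h1 := (sim_iff_gram (QOdd m F₀) h2' M c).mp h
  have h3 := congrArg (fun A : Matrix Idx Idx F₀ => A.map e) h1
  rw [Matrix.map_mul, Matrix.map_mul, Matrix.transpose_map] at h3
  rw [gram_map e m, h3]
  ext a b
  simp [Matrix.map_apply, Matrix.smul_apply]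

/-- similarities go down -/
theorem sim_down (M : Matrix Idx Idx F₀) (c : F₀)
    (h : ∀ v, QOdd m F ((M.map e) *ᵥ v) = e c * QOdd m F v) :
    ∀ v, QOdd m F₀ (M *ᵥ v) = c * QOdd m F₀ v := by
  intro v
  apply e.injective
  rw [← QOdd_map, ← map_mulVec_e, h, QOdd_map, map_mul]

/-- base change of similarities -/
noncomputable def simMap (h2 : (2 : F) ≠ 0) :
    ↥(Geo.quadSimilarityGroup (F := F₀) ⇑(QOdd m F₀)) →*
      ↥(Geo.quadSimilarityGroup (F := F) ⇑(QOdd m F)) where
  toFun g := ⟨Matrix.GeneralLinearGroup.map e (g : Matrix.GeneralLinearGroup Idx F₀), by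
    obtain ⟨c, hc⟩ := g.2
    exact ⟨Units.map e.toMonoidHom c, fun v => sim_up e m h2 _ c hc v⟩⟩
  map_one' := Subtype.ext (map_one _)
  map_mul' a b := Subtype.ext (map_mul _ _ _)

theorem simMap_coe (h2 : (2 : F) ≠ 0)
    (g : ↥(Geo.quadSimilarityGroup (F := F₀) ⇑(QOdd m F₀))) :
    (((simMap e m h2 g : ↥(Geo.quadSimilarityGroup (F := F) ⇑(QOdd m F))) :
      Matrix.GeneralLinearGroup Idx F) : Matrix Idx Idx F) =
      ((g : Matrix.GeneralLinearGroup Idx F₀) : Matrix Idx Idx F₀).map e := rfl

/-- base change of reflections -/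
theorem reflMat_map (v : Idx → F₀) :
    (reflectionMatrix ⇑(QOdd m F₀) v).map e = reflectionMatrix ⇑(QOdd m F) (fun i => e (v i)) := by
  unfold reflectionMatrix polarVec
  ext i j
  rw [Matrix.map_apply, Matrix.sub_apply, Matrix.sub_apply, Matrix.smul_apply, Matrix.smul_apply,
    Matrix.vecMulVec_apply, Matrix.vecMulVec_apply, map_sub, smul_eq_mul, smul_eq_mul, map_mul,
    map_mul, map_inv₀, QOdd_map, ← polar_map, map_single, map_one]
  congr 1
  by_cases h : i = j
  · subst h
    simp
  · simp [Matrix.one_apply_ne h]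

theorem refl_prod_map (vs : List (Idx → F₀)) :
    ((vs.map (fun v => reflectionMatrix ⇑(QOdd m F₀) v)).prod).map e =
      ((vs.map (fun v : Idx → F₀ => (fun i => e (v i)))).map
        (fun v => reflectionMatrix ⇑(QOdd m F) v)).prod := by
  induction vs with
  | nil =>
    simp only [List.map_nil, List.prod_nil]
    ext i j
    by_cases h : i = j
    · subst h
      simp
    · simp [Matrix.one_apply_ne h]
  | cons v vs ih =>
    rw [List.map_cons, List.prod_cons, Matrix.map_mul, ih, reflMat_map, List.map_cons,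
      List.map_cons, List.prod_cons]

end BaseChange

end Cfsg.Agent.Lib.Helper53.OddF
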