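import Mathlib
import Cfsg.Agent.Lib.Helper53.OddFC
import Cfsg.Agent.Lib.Helper53.OddFB
import Cfsg.Agent.Lib.Helper53.FixField

/-!
# Field automorphisms of `Ω_{2m+1}(q)`: the centralizer (helper53)

`e : F₀ →+* F` with image the fixed field of `σ`.  The centralizer of the standard field
automorphism in `PGO_{2m+1}(F)` is the image of `GO_{2m+1}(F₀)`, isomorphic to `PGO_{2m+1}(F₀)`.
-/

set_option autoImplicit false
set_option linter.unusedSectionVars false

namespace Cfsg.Agent.Lib.Helper53.OddF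

open Module QuadraticMap Matrix
open Cfsg Cfsg.Agent.Lib.Helper51 Cfsg.Agent.Lib.Helper51.GammaO Cfsg.Agent.Lib.Helper52
  Cfsg.Agent.Lib.Helper52.OA Cfsg.Agent.Lib.Helper51.OutSpin Cfsg.Agent.Lib.Helper51.OutOdd
  Cfsg.Agent.Lib.Helper54

section Cent

variable {F₀ : Type*} [Field F₀] [Fintype F₀] {F : Type*} [Field F] [Fintype F] (e : F₀ →+* F)
  (m : ℕ)

local notation "Idx" => Unit ⊕ (Fin m ⊕ Fin m)
local notation "mt(" g ")" => ((g : Matrix.GeneralLinearGroup Idx F) : Matrix Idx Idx F)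
local notation "mt₀(" g ")" => ((g : Matrix.GeneralLinearGroup Idx F₀) : Matrix Idx Idx F₀)

theorem two_ne_zero_down {F₁ : Type*} [Field F₁] {F₂ : Type*} [Field F₂] (j : F₁ →+* F₂)
    (h2 : (2 : F₂) ≠ 0) : (2 : F₁) ≠ 0 := by
  intro h0
  apply h2
  have := congrArg j h0
  rwa [map_ofNat, map_zero] at this

theorem polarSep_QOdd (h2 : (2 : F) ≠ 0) : PolarSep (QOdd m F) := by
  intro x hx
  exact (Cfsg.Agent.Lib.Helper51.OTransportOdd.QOdd_nondeg h2 m).2 x hx

/-- the composite `GO(F₀) → GO(F) → Aut(PΩ(F))` -/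
noncomputable def psi (h2 : (2 : F) ≠ 0) :
    ↥(Geo.quadSimilarityGroup (F := F₀) ⇑(QOdd m F₀)) →* MulAut (POmega F ⇑(QOdd m F)) :=
  (iotaO (QOdd m F)).comp (simMap e m h2)

theorem map_map_fixed (σ : RingAut F) (hσ : ∀ a : F₀, σ (e a) = e a) (M : Matrix Idx Idx F₀) :
    (M.map e).map (σ : F ≃+* F) = M.map e := by
  ext i j
  simp only [Matrix.map_apply]
  exact hσ _

/-- a similarity whose matrix is an eigenvector of `σ` is proportional to one over the fixed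
field -/
theorem descend (h2 : (2 : F) ≠ 0) (σ : RingAut F) (r : ℕ) (hr0 : 0 < r) (hr : orderOf σ = r)
    (he : ∀ a : F, σ a = a ↔ a ∈ Set.range e)
    (g : ↥(Geo.quadSimilarityGroup (F := F) ⇑(QOdd m F))) (c : F)
    (hc : (mt((g : Matrix.GeneralLinearGroup Idx F))).map (σ : F ≃+* F) =
      c • mt((g : Matrix.GeneralLinearGroup Idx F))) :
    ∃ (g₀ : ↥(Geo.quadSimilarityGroup (F := F₀) ⇑(QOdd m F₀))) (b : F), b ≠ 0 ∧
      mt(((simMap e m h2 g₀ : ↥(Geo.quadSimilarityGroup (F := F) ⇑(QOdd m F))) :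
        Matrix.GeneralLinearGroup Idx F)) = b • mt((g : Matrix.GeneralLinearGroup Idx F)) := by
  have hM : mt((g : Matrix.GeneralLinearGroup Idx F)) ≠ 0 := by
    intro h0
    have h1 : mt((g : Matrix.GeneralLinearGroup Idx F)) *
        mt(((g : Matrix.GeneralLinearGroup Idx F))⁻¹) = 1 := by
      rw [← Units.val_mul, mul_inv_cancel, Units.val_one]
    rw [h0, Matrix.zero_mul] at h1
    exact zero_ne_one h1
  obtain ⟨b, hb0, hb⟩ := exists_fixed_smul (σ : F ≃+* F) r hr0 hr _ hM c hc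
  have hfix : ∀ i j, ∃ a : F₀, e a = (b • mt((g : Matrix.GeneralLinearGroup Idx F))) i j := by
    intro i j
    have h1 := congrFun (congrFun hb i) j
    rw [Matrix.map_apply] at h1
    exact (he _).1 h1
  choose M₀ hM₀ using hfix
  have hmap : (Matrix.of M₀).map e = b • mt((g : Matrix.GeneralLinearGroup Idx F)) := by
    ext i j
    exact hM₀ i j
  obtain ⟨cg, hcg⟩ := g.2
  have hv1 : QOdd m F (Pi.single (Sum.inl ()) 1) = 1 := by
    rw [QOdd_apply]
    simp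
  have hsim : ∀ v, QOdd m F (((Matrix.of M₀).map e) *ᵥ v) = (b ^ 2 * cg) * QOdd m F v := by
    intro v
    rw [hmap, Matrix.smul_mulVec, QuadraticMap.map_smul, hcg v, smul_eq_mul]
    ring
  have hs : (Pi.single (Sum.inl ()) 1 : Idx → F) =
      fun j => e ((Pi.single (Sum.inl ()) 1 : Idx → F₀) j) := by
    rw [map_single, map_one]
  have hc₀ : e (QOdd m F₀ ((Matrix.of M₀) *ᵥ Pi.single (Sum.inl ()) 1)) = b ^ 2 * cg := by
    have h1 := hsim (Pi.single (Sum.inl ()) 1)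
    rw [hv1, mul_one, hs, map_mulVec_e, QOdd_map] at h1
    exact h1
  have hc₀0 : QOdd m F₀ ((Matrix.of M₀) *ᵥ Pi.single (Sum.inl ()) 1) ≠ 0 := by
    intro h0
    rw [h0, map_zero] at hc₀
    exact (mul_ne_zero (pow_ne_zero 2 hb0) cg.ne_zero) hc₀.symm
  have hsim₀ := sim_down e m (Matrix.of M₀) _ (by
    intro v
    rw [hc₀]
    exact hsim v)
  refine ⟨simOfMatrix (QOdd m F₀) (polarSep_QOdd m (two_ne_zero_down e h2)) (Matrix.of M₀) _ hc₀0
    hsim₀, b, hb0, ?_⟩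
  rw [simMap_coe]
  exact hmap

theorem psi_range (h2 : (2 : F) ≠ 0) (hQ : (polarBilin (QOdd m F)).Nondegenerate)
    (hn : 7 ≤ Fintype.card Idx) (σ : RingAut F) (r : ℕ) (hr0 : 0 < r) (hr : orderOf σ = r)
    (he : ∀ a : F, σ a = a ↔ a ∈ Set.range e) :
    (psi e m h2).range = pgoAut F ⇑(QOdd m F) ⊓
      Subgroup.centralizer {Theta ⇑(QOdd m F) (inrG (QOdd m F) (inr_mem m) σ)} := by
  apply le_antisymm
  · rintro _ ⟨g₀, rfl⟩
    refine ⟨?_, ?_⟩
    · show psi e m h2 g₀ ∈ pgoAut F ⇑(QOdd m F)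
      rw [pgo_eq]
      exact ⟨_, rfl⟩
    · show psi e m h2 g₀ ∈ Subgroup.centralizer _
      rw [Subgroup.mem_centralizer_iff]
      intro y hy
      rw [Set.mem_singleton_iff.1 hy]
      symm
      show iotaO (QOdd m F) (simMap e m h2 g₀) * _ = _ * iotaO (QOdd m F) (simMap e m h2 g₀)
      rw [comm_iff (QOdd m F) hQ hn (inr_mem m) σ]
      refine ⟨1, one_ne_zero, ?_⟩
      rw [simMap_coe, one_smul]
      exact map_map_fixed e m σ (fun a => (he _).2 ⟨a, rfl⟩) _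
  · rintro β ⟨hβ1, hβ2⟩
    have hβ1' : β ∈ pgoAut F ⇑(QOdd m F) := hβ1
    rw [pgo_eq] at hβ1'
    obtain ⟨g, rfl⟩ := hβ1'
    have hcomm : iotaO (QOdd m F) g * Theta ⇑(QOdd m F) (inrG (QOdd m F) (inr_mem m) σ) =
        Theta ⇑(QOdd m F) (inrG (QOdd m F) (inr_mem m) σ) * iotaO (QOdd m F) g :=
      ((Subgroup.mem_centralizer_iff.1 hβ2) _ rfl).symm
    obtain ⟨c, -, hc⟩ := (comm_iff (QOdd m F) hQ hn (inr_mem m) σ g).1 hcomm
    obtain ⟨g₀, b, hb0, hb⟩ := descend e m h2 σ r hr0 hr he g c hc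
    exact ⟨g₀, iotaO_eq_of_smul (QOdd m F) hQ hn g _ b hb0 hb⟩

theorem psi_ker (h2 : (2 : F) ≠ 0) (hQ : (polarBilin (QOdd m F)).Nondegenerate)
    (hn : 7 ≤ Fintype.card Idx) :
    (psi e m h2).ker = (iotaO (QOdd m F₀)).ker := by
  have h2₀ := two_ne_zero_down e h2
  have hQ₀ := Cfsg.Agent.Lib.Helper51.OTransportOdd.QOdd_nondeg h2₀ m
  ext g₀
  rw [MonoidHom.mem_ker, MonoidHom.mem_ker, iotaO_eq_one_iff (QOdd m F₀) hQ₀ hn]
  show iotaO (QOdd m F) (simMap e m h2 g₀) = 1 ↔ _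
  rw [iotaO_eq_one_iff (QOdd m F) hQ hn, simMap_coe]
  constructor
  · rintro ⟨c, hc0, hc⟩
    have hent : ∀ i j, e (mt₀((g₀ : Matrix.GeneralLinearGroup Idx F₀)) i j) =
        if i = j then c else 0 := by
      intro i j
      have := congrFun (congrFun hc i) j
      rw [Matrix.map_apply] at this
      rw [this]
      simp [Matrix.one_apply]
    have h00 := hent (Sum.inl ()) (Sum.inl ())
    rw [if_pos rfl] at h00
    refine ⟨mt₀((g₀ : Matrix.GeneralLinearGroup Idx F₀)) (Sum.inl ()) (Sum.inl ()), ?_, ?_⟩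
    · intro h0
      rw [h0, map_zero] at h00
      exact hc0 h00.symm
    · ext i j
      apply e.injective
      rw [hent i j]
      by_cases hij : i = j
      · subst hij
        simp [h00]
      · simp [Matrix.one_apply, hij]
  · rintro ⟨c₀, hc0, hc⟩
    refine ⟨e c₀, ?_, ?_⟩
    · intro h0
      exact hc0 (e.injective (by rw [h0, map_zero]))
    · rw [hc]
      ext i j
      by_cases hij : i = j
      · subst hij
        simp
      · simp [Matrix.one_apply, hij]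

theorem nonempty_cent (h2 : (2 : F) ≠ 0) (hQ : (polarBilin (QOdd m F)).Nondegenerate)
    (hn : 7 ≤ Fintype.card Idx) (σ : RingAut F) (r : ℕ) (hr0 : 0 < r) (hr : orderOf σ = r)
    (he : ∀ a : F, σ a = a ↔ a ∈ Set.range e) :
    Nonempty (↥(pgoAut F ⇑(QOdd m F) ⊓
      Subgroup.centralizer {Theta ⇑(QOdd m F) (inrG (QOdd m F) (inr_mem m) σ)}) ≃*
        ↥(pgoAut F₀ ⇑(QOdd m F₀))) := by
  have e1 := MulEquiv.subgroupCongr (psi_range e m h2 hQ hn σ r hr0 hr he).symm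
  have e2 := QuotientGroup.quotientKerEquivRange (psi e m h2)
  have e3 : ↥(Geo.quadSimilarityGroup (F := F₀) ⇑(QOdd m F₀)) ⧸ (psi e m h2).ker ≃*
      ↥(Geo.quadSimilarityGroup (F := F₀) ⇑(QOdd m F₀)) ⧸ (iotaO (QOdd m F₀)).ker :=
    QuotientGroup.quotientMulEquivOfEq (psi_ker e m h2 hQ hn)
  have e4 := QuotientGroup.quotientKerEquivRange (iotaO (QOdd m F₀))
  have e5 := MulEquiv.subgroupCongr (pgo_eq (QOdd m F₀)).symm
  exact ⟨e1.trans (e2.symm.trans (e3.trans (e4.trans e5)))⟩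

end Cent

end Cfsg.Agent.Lib.Helper53.OddF
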