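import Mathlib
import Cfsg.Agent.Lib.Helper53.OddFD

/-!
# Field automorphisms of `Ω_{2m+1}(q)`: class splitting (helper53)

The spinor character on the centralizer of a field automorphism of prime order `r`: it takes the
value `-1` when `r` is odd and is trivial when `r = 2`.
-/

set_option autoImplicit false
set_option linter.unusedSectionVars false

namespace Cfsg.Agent.Lib.Helper53.OddF

open Module QuadraticMap Matrix
open Cfsg Cfsg.Agent.Lib.Helper51 Cfsg.Agent.Lib.Helper51.GammaO Cfsg.Agent.Lib.Helper52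
  Cfsg.Agent.Lib.Helper52.OA Cfsg.Agent.Lib.Helper51.OutSpin Cfsg.Agent.Lib.Helper51.OutOdd
  Cfsg.Agent.Lib.Helper54 Cfsg.Agent.Lib.Helper53.H90

section One

variable {K : Type*} [Field K] [Fintype K] (m : ℕ)

local notation "Idx" => Unit ⊕ (Fin m ⊕ Fin m)
local notation "mt(" g ")" => ((g : Matrix.GeneralLinearGroup Idx K) : Matrix Idx Idx K)

theorem ringChar_ne_two (h2 : (2 : K) ≠ 0) : ringChar K ≠ 2 := by
  intro h
  apply h2
  have := ringChar.Nat.cast_ringChar (R := K)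
  rw [h] at this
  exact_mod_cast this

theorem neg_one_ne_one_units (h2 : (2 : K) ≠ 0) : (-1 : Kˣ) ≠ 1 := by
  intro h
  have h3 := congrArg (fun u : Kˣ => (u : K)) h
  simp only [Units.val_neg, Units.val_one] at h3
  exact h2 (by linear_combination (-1 : K) * h3)

theorem detO_negO_odd : detO (QOdd m K) (negO (QOdd m K)) = -1 := by
  apply Units.ext
  show ((Matrix.GeneralLinearGroup.det ((negO (QOdd m K) : ↥(isometryGroup K ⇑(QOdd m K))) :
    GL Idx K) : Kˣ) : K) = _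
  rw [Matrix.GeneralLinearGroup.val_det_apply, coe_negO, Matrix.det_neg, Matrix.det_one,
    card_idx, pow_succ, pow_mul]
  simp

/-- every similarity is proportional to a product of an even number of reflections -/
theorem exists_even_refl (h2 : (2 : K) ≠ 0)
    (g : ↥(Geo.quadSimilarityGroup (F := K) ⇑(QOdd m K))) :
    ∃ (h : ↥(isometryGroup K ⇑(QOdd m K))) (d : K), d ≠ 0 ∧
      mt((g : Matrix.GeneralLinearGroup Idx K)) = d • mt((h : Matrix.GeneralLinearGroup Idx K)) ∧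
      ∃ (vs : List (Idx → K)) (hvs : ∀ v ∈ vs, QOdd m K v ≠ 0),
        h = reflList (QOdd m K) vs hvs ∧ Even vs.length := by
  obtain ⟨h₀, d₀, hd₀, e₀⟩ := dec_odd m h2 (simG (QOdd m K) g)
  have e₀' : mt((g : Matrix.GeneralLinearGroup Idx K)) =
      d₀ • mt((h₀ : Matrix.GeneralLinearGroup Idx K)) := e₀
  obtain ⟨vs, hvs, hrefl⟩ :=
    Cfsg.Agent.Lib.Helper54.exists_reflList (QOdd m K) h2 (polarSep_QOdd m h2) h₀
  by_cases hev : Even vs.length
  · exact ⟨h₀, d₀, hd₀, e₀', vs, hvs, hrefl, hev⟩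
  · obtain ⟨vs', hvs', hrefl'⟩ :=
      Cfsg.Agent.Lib.Helper54.exists_reflList (QOdd m K) h2 (polarSep_QOdd m h2)
        (negO (QOdd m K) * h₀)
    refine ⟨negO (QOdd m K) * h₀, -d₀, neg_ne_zero.2 hd₀, ?_, vs', hvs', hrefl', ?_⟩
    · rw [e₀', coe_mul', coe_negO]
      simp
    · have hd := detO_reflList (QOdd m K) vs' hvs'
      rw [← hrefl', map_mul, detO_negO_odd, hrefl, detO_reflList,
        (Nat.not_even_iff_odd.1 hev).neg_one_pow] at hd
      by_contra hodd'
      rw [(Nat.not_even_iff_odd.1 hodd').neg_one_pow] at hd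
      apply neg_one_ne_one_units h2
      have h5 : (-1 : Kˣ) * -1 = 1 := by simp
      rw [← hd, h5]

end One

section Split

variable {F₀ : Type*} [Field F₀] [Fintype F₀] {F : Type*} [Field F] [Fintype F] (e : F₀ →+* F)
  (m : ℕ)

local notation "Idx" => Unit ⊕ (Fin m ⊕ Fin m)
local notation "mt(" g ")" => ((g : Matrix.GeneralLinearGroup Idx F) : Matrix Idx Idx F)
local notation "mt₀(" g ")" => ((g : Matrix.GeneralLinearGroup Idx F₀) : Matrix Idx Idx F₀)

/-- non-squares of the fixed field of an automorphism of odd order stay non-squares -/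
theorem not_isSquare_up (h2 : (2 : F) ≠ 0) (σ : RingAut F) (r : ℕ) (hrodd : Odd r)
    (hσr : σ ^ r = 1) (he : ∀ a : F, σ a = a ↔ a ∈ Set.range e) (δ₀ : F₀)
    (hδ : ¬ IsSquare δ₀) : ¬ IsSquare (e δ₀) := by
  rintro ⟨a, ha⟩
  have h1 : σ a * σ a = a * a := by
    rw [← map_mul, ← ha]
    exact (he _).2 ⟨δ₀, rfl⟩
  rcases mul_self_eq_mul_self_iff.1 h1 with h3 | h3
  · obtain ⟨a₀, rfl⟩ := (he a).1 h3
    apply hδ
    exact ⟨a₀, e.injective (by rw [ha, map_mul])⟩
  · have hk : ∀ k : ℕ, (σ ^ k) a = (-1) ^ k * a := by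
      intro k
      induction k with
      | zero => simp
      | succ k ih =>
        rw [pow_succ_apply, ih, map_mul, map_pow, map_neg, map_one, h3]
        ring
    have h4 := hk r
    rw [hσr, hrodd.neg_one_pow] at h4
    have h5 : (1 : RingAut F) a = a := rfl
    rw [h5] at h4
    have h6 : (2 : F) * a = 0 := by linear_combination h4
    have h7 : a = 0 := (mul_eq_zero.1 h6).resolve_left h2
    apply hδ
    refine ⟨0, e.injective ?_⟩
    rw [ha, h7, mul_zero, mul_zero, map_zero]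

/-- elements of a subfield of index two are squares -/
theorem isSquare_up (h2 : (2 : F) ≠ 0) (hodd : Odd (Fintype.card F₀))
    (hcard : Fintype.card F = Fintype.card F₀ ^ 2) (a₀ : F₀) : IsSquare (e a₀) := by
  by_cases ha : a₀ = 0
  · subst ha
    exact ⟨0, by rw [map_zero, mul_zero]⟩
  · have ha' : e a₀ ≠ 0 := by
      intro h0
      exact ha (e.injective (by rw [h0, map_zero]))
    rw [FiniteField.isSquare_iff (ringChar_ne_two h2) ha']
    obtain ⟨k, hk⟩ := hodd
    have h1 : Fintype.card F / 2 = (Fintype.card F₀ - 1) * (k + 1) := by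
      rw [hcard, hk]
      have h3 : (2 * k + 1) ^ 2 = 2 * ((2 * k + 1 - 1) * (k + 1)) + 1 := by
        rw [Nat.add_sub_cancel]
        ring
      rw [h3]
      generalize (2 * k + 1 - 1) * (k + 1) = X
      omega
    rw [h1, ← map_pow, pow_mul, FiniteField.pow_card_sub_one_eq_one a₀ ha, one_pow, map_one]

theorem map_add_fun (u v : Idx → F₀) :
    (fun i => e ((u + v) i)) = (fun i => e (u i)) + (fun i => e (v i)) := by
  funext i
  simp

/-- odd order: an element of the centralizer with spinor character `-1` -/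
theorem exists_comm_neg (h2 : (2 : F) ≠ 0) (hQ : (polarBilin (QOdd m F)).Nondegenerate)
    (hn : 7 ≤ Fintype.card Idx) (hm : 1 ≤ m) (σ : RingAut F) (r : ℕ) (hrodd : Odd r)
    (hσr : σ ^ r = 1) (he : ∀ a : F, σ a = a ↔ a ∈ Set.range e)
    (lamb : ↥(isometryGroup F ⇑(QOdd m F)) →* ℤˣ)
    (hlam : ∀ h, lamb h = 1 ↔
      (h ∈ Omega F ⇑(QOdd m F) ∨ negO (QOdd m F) * h ∈ Omega F ⇑(QOdd m F)))
    (θ : ↥(GO ⇑(QOdd m F)) →* ℤˣ)
    (hθ : ∀ (γ : ↥(GO ⇑(QOdd m F))) (h : ↥(isometryGroup F ⇑(QOdd m F))) (d : F), d ≠ 0 →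
      mt(γ.1.left) = d • mt((h : Matrix.GeneralLinearGroup Idx F)) → θ γ = lamb h) :
    ∃ g : ↥(Geo.quadSimilarityGroup (F := F) ⇑(QOdd m F)),
      iotaO (QOdd m F) g * Theta ⇑(QOdd m F) (inrG (QOdd m F) (inr_mem m) σ) =
        Theta ⇑(QOdd m F) (inrG (QOdd m F) (inr_mem m) σ) * iotaO (QOdd m F) g ∧
      θ (simG (QOdd m F) g) = -1 := by
  have h2₀ : (2 : F₀) ≠ 0 := two_ne_zero_down e h2
  obtain ⟨δ₀, hδ₀⟩ := FiniteField.exists_nonsquare (ringChar_ne_two h2₀)
  have hδ := not_isSquare_up e h2 σ r hrodd hσr he δ₀ hδ₀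
  have hδ0 : e δ₀ ≠ 0 := by
    intro h0
    apply hδ
    rw [h0]
    exact ⟨0, by rw [mul_zero]⟩
  have hσδ : σ (e δ₀) = e δ₀ := (he _).2 ⟨δ₀, rfl⟩
  let i₀ : Fin m := ⟨0, hm⟩
  let v : Idx → F := Pi.single (Sum.inl ()) 1
  let w : Idx → F := Pi.single (Sum.inr (Sum.inl i₀)) 1 + Pi.single (Sum.inr (Sum.inr i₀)) (e δ₀)
  have hQv : QOdd m F v = 1 := by
    rw [QOdd_apply]
    simp [v]
  have hQw : QOdd m F w = e δ₀ := by
    rw [QOdd_apply]
    simp [w, Pi.single_apply]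
  have hv : QOdd m F v ≠ 0 := by
    rw [hQv]
    exact one_ne_zero
  have hw : QOdd m F w ≠ 0 := by
    rw [hQw]
    exact hδ0
  obtain ⟨hdet, hnot⟩ := exists_special_not_commutator (QOdd m F) (ringChar_ne_two h2) v w hv hw
    (by rw [hQv]; exact ⟨1, by rw [mul_one]⟩) (by rw [hQw]; exact hδ)
  have hfv : (fun i => (σ : F →+* F) (v i)) = v := by
    show (fun i => (σ : F →+* F) ((Pi.single (Sum.inl ()) 1 : Idx → F) i)) = _
    rw [map_single, map_one]
  have hfw : (fun i => (σ : F →+* F) (w i)) = w := by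
    show (fun i => (σ : F →+* F) ((Pi.single (Sum.inr (Sum.inl i₀)) 1 +
      Pi.single (Sum.inr (Sum.inr i₀)) (e δ₀) : Idx → F) i)) = _
    rw [map_add_fun, map_single, map_single, map_one]
    show _ + (Pi.single (Sum.inr (Sum.inr i₀)) (σ (e δ₀)) : Idx → F) = _
    rw [hσδ]
  refine ⟨isoSim (QOdd m F) (refl (QOdd m F) v hv * refl (QOdd m F) w hw), ?_, ?_⟩
  · rw [comm_iff (QOdd m F) hQ hn (inr_mem m) σ]
    refine ⟨1, one_ne_zero, ?_⟩
    rw [one_smul, coe_isoSim, coe_mul', coe_refl, coe_refl]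
    show (reflectionMatrix ⇑(QOdd m F) v * reflectionMatrix ⇑(QOdd m F) w).map
      ((σ : F →+* F)) = _
    rw [Matrix.map_mul, reflMat_map, reflMat_map, hfv, hfw]
  · rw [hθ (simG (QOdd m F) (isoSim (QOdd m F) (refl (QOdd m F) v hv * refl (QOdd m F) w hw)))
      (refl (QOdd m F) v hv * refl (QOdd m F) w hw) 1 one_ne_zero (by rw [one_smul]; rfl)]
    have hne : lamb (refl (QOdd m F) v hv * refl (QOdd m F) w hw) ≠ 1 := by
      rw [Ne, hlam]
      rintro (h1 | h1)
      · exact hnot h1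
      · have h3 := detO_of_mem_commutator (QOdd m F) _ h1
        rw [map_mul, hdet, detO_negO_odd, mul_one] at h3
        exact neg_one_ne_one_units h2 h3
    rcases Int.units_eq_one_or (lamb (refl (QOdd m F) v hv * refl (QOdd m F) w hw)) with h1 | h1
    · exact absurd h1 hne
    · exact h1

/-- order two: the spinor character is trivial on the centralizer -/
theorem all_comm_one (h2 : (2 : F) ≠ 0) (hQ : (polarBilin (QOdd m F)).Nondegenerate)
    (hn : 7 ≤ Fintype.card Idx) (σ : RingAut F) (hσ2 : orderOf σ = 2)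
    (he : ∀ a : F, σ a = a ↔ a ∈ Set.range e) (hsq : ∀ a₀ : F₀, IsSquare (e a₀))
    (lamb : ↥(isometryGroup F ⇑(QOdd m F)) →* ℤˣ)
    (hlam : ∀ h, lamb h = 1 ↔
      (h ∈ Omega F ⇑(QOdd m F) ∨ negO (QOdd m F) * h ∈ Omega F ⇑(QOdd m F)))
    (θ : ↥(GO ⇑(QOdd m F)) →* ℤˣ)
    (hθ : ∀ (γ : ↥(GO ⇑(QOdd m F))) (h : ↥(isometryGroup F ⇑(QOdd m F))) (d : F), d ≠ 0 →
      mt(γ.1.left) = d • mt((h : Matrix.GeneralLinearGroup Idx F)) → θ γ = lamb h)
    (g : ↥(Geo.quadSimilarityGroup (F := F) ⇑(QOdd m F)))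
    (hg : iotaO (QOdd m F) g * Theta ⇑(QOdd m F) (inrG (QOdd m F) (inr_mem m) σ) =
        Theta ⇑(QOdd m F) (inrG (QOdd m F) (inr_mem m) σ) * iotaO (QOdd m F) g) :
    θ (simG (QOdd m F) g) = 1 := by
  obtain ⟨c, -, hc⟩ := (comm_iff (QOdd m F) hQ hn (inr_mem m) σ g).1 hg
  obtain ⟨g₀, b, hb0, hb⟩ := descend e m h2 σ 2 (by norm_num) hσ2 he g c hc
  have h2₀ : (2 : F₀) ≠ 0 := two_ne_zero_down e h2
  obtain ⟨h₁, d₁, hd₁, e₁, vs, hvs, hrefl, heven⟩ := exists_even_refl m h2₀ g₀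
  have hvs' : ∀ w ∈ vs.map (fun v : Idx → F₀ => (fun i => e (v i))), QOdd m F w ≠ 0 := by
    intro w hw
    obtain ⟨v, hv, rfl⟩ := List.mem_map.1 hw
    rw [QOdd_map]
    intro h0
    exact hvs v hv (e.injective (by rw [h0, map_zero]))
  have hH : mt((reflList (QOdd m F) _ hvs' : ↥(isometryGroup F ⇑(QOdd m F)))) =
      (mt₀((h₁ : Matrix.GeneralLinearGroup Idx F₀))).map e := by
    rw [coe_reflList, hrefl, coe_reflList, refl_prod_map]
  have hmem : reflList (QOdd m F) _ hvs' ∈ Omega F ⇑(QOdd m F) := by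
    rw [reflList_mem_commutator_iff (QOdd m F) h2]
    refine ⟨by rw [List.length_map]; exact heven, ?_⟩
    have h5 : ((vs.map (fun v : Idx → F₀ => (fun i => e (v i)))).map
        (fun v => QOdd m F v)).prod = e ((vs.map (fun v => QOdd m F₀ v)).prod) := by
      rw [List.map_map, map_list_prod, List.map_map]
      congr 1
      apply List.map_congr_left
      intro v _
      exact QOdd_map e m v
    rw [h5]
    exact hsq _
  have hd₁' : e d₁ ≠ 0 := by
    intro h0
    exact hd₁ (e.injective (by rw [h0, map_zero]))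
  rw [hθ (simG (QOdd m F) g) (reflList (QOdd m F) _ hvs') (b⁻¹ * e d₁)
    (mul_ne_zero (inv_ne_zero hb0) hd₁') ?_, hlam]
  · left
    exact hmem
  · show mt((g : Matrix.GeneralLinearGroup Idx F)) = _
    rw [hH, ← smul_smul]
    have h6 : (e d₁) • (mt₀((h₁ : Matrix.GeneralLinearGroup Idx F₀))).map e =
        (mt₀((g₀ : Matrix.GeneralLinearGroup Idx F₀))).map e := by
      rw [e₁]
      ext i j
      simp
    rw [h6, ← simMap_coe e m h2, hb, smul_smul, inv_mul_cancel₀ hb0, one_smul]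

end Split

end Cfsg.Agent.Lib.Helper53.OddF
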