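import Mathlib
import Cfsg.Agent.Lib.Helper18.Darboux

set_option autoImplicit false

/-! Alternating matrices (helper53; after Helper69.GTSKEW): an invertible alternating matrix is
congruent to the (reindexed) standard symplectic matrix `Matrix.J`, in every characteristic; it
has even size; in characteristic two a symmetric matrix with zero diagonal is alternating. -/

namespace Cfsg.Agent.Lib.Helper53.GTALT

open Module Cfsg.Agent.Lib.Helper18

/-- the congruence entries are values of the bilinear form on the rows -/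
theorem congr_entry {F : Type*} [Field F] {n : ℕ}
    (h g : Matrix (Fin n) (Fin n) F) (a b : Fin n) :
    (h * g * h.transpose) a b = Matrix.toBilin' g (h a) (h b) := by
  rw [Matrix.toBilin'_apply', Matrix.mul_apply]
  simp only [Matrix.mul_apply, Matrix.transpose_apply, dotProduct, Matrix.mulVec,
    Finset.sum_mul, Finset.mul_sum, mul_assoc]
  exact Finset.sum_comm

theorem nondeg_of_det {F : Type*} [Field F] {n : ℕ} (g : Matrix (Fin n) (Fin n) F)
    (hdet : g.det ≠ 0) : ∀ u ∈ (⊤ : Submodule F (Fin n → F)),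
      (∀ v ∈ (⊤ : Submodule F (Fin n → F)), Matrix.toBilin' g u v = 0) → u = 0 := by
  intro u _ hu
  have h1 : Matrix.vecMul u g = 0 := by
    apply dotProduct_eq_zero
    intro w
    rw [← Matrix.dotProduct_mulVec, ← Matrix.toBilin'_apply']
    exact hu w Submodule.mem_top
  exact Matrix.eq_zero_of_vecMul_eq_zero hdet h1

/-- an invertible alternating matrix has even size -/
theorem alt_even {F : Type*} [Field F] {n : ℕ} (g : Matrix (Fin n) (Fin n) F)
    (hAlt : (Matrix.toBilin' g).IsAlt) (hdet : g.det ≠ 0) : Even n := by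
  classical
  obtain ⟨k, e, f, hD⟩ := exists_darboux (Matrix.toBilin' g) hAlt
    (finrank F (⊤ : Submodule F (Fin n → F))) ⊤ rfl (nondeg_of_det g hdet)
  have hk : finrank F (⊤ : Submodule F (Fin n → F)) = 2 * k := hD.finrank_eq hAlt
  rw [finrank_top, Module.finrank_fin_fun] at hk
  exact ⟨k, by omega⟩

theorem alt_congr {F : Type*} [Field F] (m : ℕ)
    (τ : Fin m ⊕ Fin m ≃ Fin (2 * m))
    (g : Matrix (Fin (2 * m)) (Fin (2 * m)) F) (hAlt : (Matrix.toBilin' g).IsAlt)
    (hdet : g.det ≠ 0) :
    ∃ h : GL (Fin (2 * m)) F, (h : Matrix (Fin (2 * m)) (Fin (2 * m)) F) * g *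
      (h : Matrix (Fin (2 * m)) (Fin (2 * m)) F).transpose =
        Matrix.reindex τ τ (Matrix.J (Fin m) F) := by
  classical
  obtain ⟨k, e, f, hD⟩ := exists_darboux (Matrix.toBilin' g) hAlt
    (finrank F (⊤ : Submodule F (Fin (2 * m) → F))) ⊤ rfl (nondeg_of_det g hdet)
  have hk : finrank F (⊤ : Submodule F (Fin (2 * m) → F)) = 2 * k := hD.finrank_eq hAlt
  have hk' : k = m := by
    rw [finrank_top, Module.finrank_fin_fun] at hk
    omega
  subst hk'
  -- the matrix with rows `e i` (at `τ (inl i)`) and `f i` (at `τ (inr i)`)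
  set h : Matrix (Fin (2 * k)) (Fin (2 * k)) F :=
    Matrix.of (fun a => Sum.elim e f (τ.symm a)) with hh
  have hrow : ∀ a, h a = Sum.elim e f (τ.symm a) := fun a => rfl
  have hmain : h * g * h.transpose = Matrix.reindex τ τ (Matrix.J (Fin k) F) := by
    ext a b
    rw [congr_entry, hrow, hrow, Matrix.reindex_apply, Matrix.submatrix_apply]
    rcases hA : τ.symm a with i | i <;> rcases hB : τ.symm b with j | j
    · simp [Matrix.J, hD.ee]
    · simp only [Sum.elim_inl, Sum.elim_inr, hD.ef, Matrix.J, Matrix.fromBlocks_apply₁₂,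
        Matrix.neg_apply, Matrix.one_apply]
      by_cases hij : i = j <;> simp [hij]
    · simp only [Sum.elim_inl, Sum.elim_inr, hD.fe hAlt, Matrix.J, Matrix.fromBlocks_apply₂₁,
        Matrix.one_apply]
    · simp [Matrix.J, hD.ff]
  have hJdet : (Matrix.reindex τ τ (Matrix.J (Fin k) F)).det ≠ 0 := by
    rw [Matrix.det_reindex_self]
    exact (Matrix.isUnit_det_J (Fin k) F).ne_zero
  have hhdet : h.det ≠ 0 := by
    intro h0
    apply hJdet
    rw [← hmain, Matrix.det_mul, Matrix.det_mul, h0, zero_mul, zero_mul]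
  refine ⟨Matrix.GeneralLinearGroup.mkOfDetNeZero h hhdet, ?_⟩
  exact hmain

/-- in characteristic two a symmetric matrix with zero diagonal is alternating -/
theorem isAlt_of_diag {F : Type*} [Field F] (h20 : (2 : F) = 0) {n : ℕ}
    (g : Matrix (Fin n) (Fin n) F) (hg : g.transpose = g) (hd : ∀ i, g i i = 0) :
    (Matrix.toBilin' g).IsAlt := by
  classical
  intro v
  rw [Matrix.toBilin'_apply']
  have e1 : v ⬝ᵥ g.mulVec v = ∑ x ∈ (Finset.univ : Finset (Fin n × Fin n)),
      v x.1 * (g x.1 x.2 * v x.2) := by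
    simp only [dotProduct, Matrix.mulVec, Finset.mul_sum]
    rw [← Finset.sum_product']
    rfl
  rw [e1]
  apply Finset.sum_involution (fun x _ => (x.2, x.1))
  · intro x _
    have hsym : g x.2 x.1 = g x.1 x.2 := by
      have := congrFun (congrFun hg x.1) x.2
      rw [Matrix.transpose_apply] at this
      exact this
    show v x.1 * (g x.1 x.2 * v x.2) + v x.2 * (g x.2 x.1 * v x.1) = 0
    rw [hsym]
    have : v x.1 * (g x.1 x.2 * v x.2) + v x.2 * (g x.1 x.2 * v x.1) =
        2 * (v x.1 * (g x.1 x.2 * v x.2)) := by ring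
    rw [this, h20, zero_mul]
  · intro x _ hx hxx
    apply hx
    have h1 : x.2 = x.1 := congrArg Prod.fst hxx
    rw [h1, hd, zero_mul, mul_zero]
  · intro x _
    exact Finset.mem_univ _
  · intro x _
    rfl

/-- in characteristic two an invertible symmetric matrix of odd size has a non-zero diagonal
entry -/
theorem diag_ne_zero {F : Type*} [Field F] (h20 : (2 : F) = 0) (m : ℕ)
    (g : Matrix (Fin (2 * m + 1)) (Fin (2 * m + 1)) F) (hg : g.transpose = g)
    (hdet : g.det ≠ 0) : ∃ i, g i i ≠ 0 := by
  by_contra hcon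
  push Not at hcon
  obtain ⟨k, hk⟩ := alt_even g (isAlt_of_diag h20 g hg hcon) hdet
  omega

/-- the diagonal of a congruence transform of an alternating matrix vanishes -/
theorem congr_diag {F : Type*} [Field F] {n : ℕ} (h g : Matrix (Fin n) (Fin n) F)
    (hAlt : (Matrix.toBilin' g).IsAlt) (a : Fin n) : (h * g * h.transpose) a a = 0 := by
  rw [congr_entry]
  exact hAlt (h a)

end Cfsg.Agent.Lib.Helper53.GTALT
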