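import Mathlib
import Cfsg.Agent.Lib.Helper53.MinusDefs
import Cfsg.Agent.Lib.Helper53.FixField
import Cfsg.Agent.Lib.Helper54.OrthInnMinus
import Cfsg.Agent.Lib.Helper21.MFABS
import Cfsg.Agent.Lib.Helper6.MFROOT
import Cfsg.Agent.Lib.Helper88.MFBIN
import Cfsg.Agent.Lib.Helper21.MFISO
import Cfsg.Agent.Lib.Helper66.MFNORM
import Cfsg.Agent.Lib.Helper12.MFTRANS
import Cfsg.Agent.Lib.Helper54.MFCHI
import Cfsg.Agent.Lib.Helper18.MFC2A
import Cfsg.Agent.Lib.Helper53.MFCENTO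
import Cfsg.Agent.Lib.Helper57.MFCOVER
import Cfsg.Agent.Lib.Helper86.MFCENTE

set_option autoImplicit false
set_option linter.unusedSectionVars false
set_option linter.unusedVariables false

namespace Cfsg.Agent.Lib.Helper53.MinusMain

open Module QuadraticMap Matrix
open Cfsg Cfsg.Agent.Lib.Helper51 Cfsg.Agent.Lib.Helper51.GammaO Cfsg.Agent.Lib.Helper52
  Cfsg.Agent.Lib.Helper52.OA Cfsg.Agent.Lib.Helper51.OutSpin Cfsg.Agent.Lib.Helper53.OddF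
  Cfsg.Agent.Lib.Helper53.MinusF Cfsg.Agent.Lib.Helper54

universe u v

/-! ## PIECE MF-ABS : abstract group theory -/

/-! ## PIECE MF-ROOT : roots of quadratics in quadratic extensions of finite fields -/

/-! ## PIECE MF-BIN : two anisotropic binary forms over a finite field are isometric -/

/-! ## PIECE MF-ISO : an isometry induces an isomorphism of the groups `PΩ` -/

/-! ## PIECE MF-NORM : in odd characteristic `Inndiag(PΩ⁻)` is normal in the automorphism group -/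

/-! ## PIECE MF-TRANS : in odd characteristic an isometry carries `Inndiag` into `Inndiag` -/

/-! ## PIECE MF-CHI : the class character of the minus form over a quadratic extension -/

/-! ## PIECE MF-C2A : in characteristic two `Inndiag(PΩ⁻) = Inn` -/

/-! ## PIECE MF-CENTO : odd characteristic, the centralizer of the standard field automorphism -/

/-! ## PIECE MF-COVER : odd characteristic, odd order: `Inndiag = Inn · C_Inndiag(φ)` -/

/-! ## PIECE MF-CENTE : characteristic two, the centralizer of the standard field automorphism -/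

/-! # ASSEMBLY (helper53) -/

/-- characteristic two: `Inndiag = Inn` -/
theorem inndiag_eq_inn {F : Type u} [Field F] [Fintype F] (h2 : (2 : F) = 0) {m : ℕ}
    (hm : 3 ≤ m) (a b : F)
    (hab : ∀ z₁ z₂ : F, z₁ ^ 2 + a * z₁ * z₂ + b * z₂ ^ 2 = 0 → z₁ = 0 ∧ z₂ = 0) :
    Cfsg.inndiagPOmegaMinus m F a b = Cfsg.Inn (Cfsg.POmega F (Cfsg.quadFormMinus m F a b)) :=
  Cfsg.Agent.Lib.Helper18.MFC2A.inndiag_minus_eq_inn h2 hm a b hab (fun K _ _ hK2 => by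
    obtain ⟨r, hr⟩ := Cfsg.Agent.Lib.Helper6.MFROOT.exists_root_quadratic_ext a b K hK2
    exact Cfsg.Agent.Lib.Helper54.MFCHI.chiData_of_root a b hab K hK2 r hr)

theorem congr_eq {G H : Type*} [Group G] [Group H] (ψ ψT : G ≃* H) (β : MulAut G) :
    MulAut.congr ψ β =
      MulAut.congr ψT ((ψ.trans ψT.symm : MulAut G) * β * (ψ.trans ψT.symm : MulAut G)⁻¹) := by
  ext k
  simp [MulAut.congr, MulAut.mul_apply, MulAut.inv_apply]

/-- the front end: any isomorphism between two minus-type groups carries `Inndiag` to `Inndiag` -/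
theorem inndiag_map_congr {F : Type u} [Field F] [Fintype F] {m : ℕ} (hm : 3 ≤ m)
    (a b a' b' : F)
    (hab : ∀ z₁ z₂ : F, z₁ ^ 2 + a * z₁ * z₂ + b * z₂ ^ 2 = 0 → z₁ = 0 ∧ z₂ = 0)
    (hab' : ∀ z₁ z₂ : F, z₁ ^ 2 + a' * z₁ * z₂ + b' * z₂ ^ 2 = 0 → z₁ = 0 ∧ z₂ = 0)
    (ψ : Cfsg.POmega F (Cfsg.quadFormMinus m F a b) ≃*
      Cfsg.POmega F (Cfsg.quadFormMinus m F a' b')) :
    (Cfsg.inndiagPOmegaMinus m F a b).map (MulAut.congr ψ).toMonoidHom =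
      Cfsg.inndiagPOmegaMinus m F a' b' := by
  by_cases h2 : (2 : F) = 0
  · rw [inndiag_eq_inn h2 hm a b hab, inndiag_eq_inn h2 hm a' b' hab']
    exact Cfsg.Agent.Lib.Helper21.MFABS.inn_map_congr ψ
  · obtain ⟨T, hT⟩ := Cfsg.Agent.Lib.Helper88.MFBIN.exists_isometry_minus m a b a' b' hab hab'
    obtain ⟨ψT, hψ1, hψ2⟩ := Cfsg.Agent.Lib.Helper21.MFISO.exists_iso_of_isometry (Cfsg.quadFormMinus m F a b)
      (Cfsg.quadFormMinus m F a' b') T hT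
    have hT' : ∀ v : (Fin m ⊕ Fin m) ⊕ Fin 2 → F, Cfsg.quadFormMinus m F a b
        (((T⁻¹ : GL ((Fin m ⊕ Fin m) ⊕ Fin 2) F) :
          Matrix ((Fin m ⊕ Fin m) ⊕ Fin 2) ((Fin m ⊕ Fin m) ⊕ Fin 2) F) *ᵥ v) =
        Cfsg.quadFormMinus m F a' b' v := by
      intro v
      rw [← hT, Matrix.mulVec_mulVec, ← Units.val_mul, mul_inv_cancel, Units.val_one,
        Matrix.one_mulVec]
    apply le_antisymm
    · rintro _ ⟨β, hβ, rfl⟩
      show MulAut.congr ψ β ∈ _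
      rw [congr_eq ψ ψT β]
      exact Cfsg.Agent.Lib.Helper12.MFTRANS.inndiag_map_le h2 a b a' b' hab hab' T hT (MulAut.congr ψT).toMonoidHom hψ1 _
        (Cfsg.Agent.Lib.Helper66.MFNORM.inndiag_minus_conj h2 hm a b hab _ β hβ)
    · intro β' hβ'
      have h1 := Cfsg.Agent.Lib.Helper12.MFTRANS.inndiag_map_le h2 a' b' a b hab' hab T⁻¹ hT'
        (MulAut.congr ψT).symm.toMonoidHom (fun g β hβ => by
          have := hψ2 g β hβ
          rw [inv_inv]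
          exact this) β' hβ'
      have h3 := Cfsg.Agent.Lib.Helper66.MFNORM.inndiag_minus_conj h2 hm a b hab (ψ.trans ψT.symm : MulAut _)⁻¹ _ h1
      refine ⟨_, h3, ?_⟩
      show MulAut.congr ψ _ = β'
      rw [congr_eq ψ ψT]
      have h4 : (ψ.trans ψT.symm : MulAut (Cfsg.POmega F (Cfsg.quadFormMinus m F a b))) *
          ((ψ.trans ψT.symm : MulAut (Cfsg.POmega F (Cfsg.quadFormMinus m F a b)))⁻¹ *
            (MulAut.congr ψT).symm.toMonoidHom β' *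
            (ψ.trans ψT.symm : MulAut (Cfsg.POmega F (Cfsg.quadFormMinus m F a b)))⁻¹⁻¹) *
          (ψ.trans ψT.symm : MulAut (Cfsg.POmega F (Cfsg.quadFormMinus m F a b)))⁻¹ =
          (MulAut.congr ψT).symm.toMonoidHom β' := by group
      rw [h4]
      exact (MulAut.congr ψT).apply_symm_apply β'

theorem order_sigma {F : Type u} [Field F] [Fintype F] {m : ℕ} (hm : 3 ≤ m) (a b : F)
    (hab : ∀ z₁ z₂ : F, z₁ ^ 2 + a * z₁ * z₂ + b * z₂ ^ 2 = 0 → z₁ = 0 ∧ z₂ = 0)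
    (Q' : ((Fin m ⊕ Fin m) ⊕ Fin 2 → F) → F) (hQ' : ⇑(QMinus m F a b) = Q')
    (σ : F ≃+* F) (hσne : σ ≠ RingEquiv.refl F) (hσa : σ a = a) (hσb : σ b = b)
    (φ : MulAut (POmega F Q')) (hφ : IsFieldAutPOmegaOf Q' σ φ) {r : ℕ} (hr : r.Prime)
    (hφr : orderOf φ = r) : orderOf (σ : RingAut F) = r := by
  subst hQ'
  obtain ⟨Q, hQc, hQ, hn, -⟩ := OAF.minus_data hm a b hab
  have hQeq : Q = QMinus m F a b := DFunLike.coe_injective (hQc.trans (coe_QMinus m F a b).symm)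
  subst hQeq
  have hσ := inr_mem_minus m a b σ hσa hσb
  have hφ' := (field_iffS (QMinus m F a b) σ hσ φ).mp hφ
  haveI : Fact r.Prime := ⟨hr⟩
  have hσr : (σ : RingAut F) ^ r = 1 := by
    have h1 : Theta ⇑(QMinus m F a b) (inrS (QMinus m F a b) ((σ : RingAut F) ^ r)
        (inr_pow_mem _ σ hσ r)) = 1 := by
      rw [inrS_pow (QMinus m F a b) σ hσ r, map_pow, ← hφ', ← hφr]
      exact pow_orderOf_eq_one φ
    exact ((ker_Theta (QMinus m F a b) hQ hn _).1 h1).1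
  have hσne' : (σ : RingAut F) ≠ 1 := hσne
  exact orderOf_eq_prime hσr hσne'

/-- the statement in the standard model -/
theorem std_model {F : Type u} [Field F] [Fintype F] {p f : ℕ} [Fact p.Prime]
    (hF : Fintype.card F = p ^ f) {m : ℕ} (hm : 3 ≤ m) (a' b' : F)
    (hab' : ∀ z₁ z₂ : F, z₁ ^ 2 + a' * z₁ * z₂ + b' * z₂ ^ 2 = 0 → z₁ = 0 ∧ z₂ = 0)
    (σ : F ≃+* F) (hσne : σ ≠ RingEquiv.refl F) (hσa : σ a' = a') (hσb : σ b' = b')
    (φ : MulAut (Cfsg.POmega F (Cfsg.quadFormMinus m F a' b')))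
    (hφ : Cfsg.IsFieldAutPOmegaOf (Cfsg.quadFormMinus m F a' b') σ φ) {r : ℕ} (hr : r.Prime)
    (hφr : orderOf φ = r) (F₀ : Type v) [Field F₀] [Fintype F₀]
    (hF₀ : Fintype.card F₀ = p ^ (f / r)) :
    Odd r ∧ r ∣ f ∧
      (∃ a₀ b₀ : F₀, (∀ z₁ z₂ : F₀, z₁ ^ 2 + a₀ * z₁ * z₂ + b₀ * z₂ ^ 2 = 0 → z₁ = 0 ∧ z₂ = 0) ∧
        Nonempty (↥(Cfsg.inndiagPOmegaMinus m F a' b' ⊓ Subgroup.centralizer {φ}) ≃*
          ↥(Cfsg.inndiagPOmegaMinus m F₀ a₀ b₀))) ∧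
      Cfsg.splitClassCount (Cfsg.inndiagPOmegaMinus m F a' b')
        (Cfsg.Inn (Cfsg.POmega F (Cfsg.quadFormMinus m F a' b'))) φ = 1 := by
  have hσord : orderOf (σ : RingAut F) = r :=
    order_sigma hm a' b' hab' _ (coe_QMinus m F a' b') σ hσne hσa hσb φ hφ hr hφr
  obtain ⟨hdvd, -⟩ := Fix.fixed_card hF σ hσord
  obtain ⟨e, he⟩ := Fix.exists_embedding hF σ hσord F₀ hF₀
  obtain ⟨a₀, rfl⟩ := (he a').1 hσa
  obtain ⟨b₀, rfl⟩ := (he b').1 hσb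
  have hrodd : Odd r := by
    rcases hr.eq_two_or_odd' with h | h
    · exfalso
      subst h
      obtain ⟨t, ht⟩ := Cfsg.Agent.Lib.Helper6.MFROOT.exists_root_of_order_two σ hσord (e a₀) (e b₀) hσa hσb
      have := (hab' t 1 (by linear_combination ht)).2
      exact one_ne_zero this
    · exact h
  have hab₀ : ∀ z₁ z₂ : F₀, z₁ ^ 2 + a₀ * z₁ * z₂ + b₀ * z₂ ^ 2 = 0 → z₁ = 0 ∧ z₂ = 0 := by
    intro z₁ z₂ h
    have h1 := congrArg e h
    simp only [map_add, map_mul, map_pow, map_zero] at h1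
    obtain ⟨h3, h4⟩ := hab' (e z₁) (e z₂) h1
    exact ⟨e.injective (by rw [h3, map_zero]), e.injective (by rw [h4, map_zero])⟩
  refine ⟨hrodd, hdvd, ⟨a₀, b₀, hab₀, ?_⟩, ?_⟩
  · by_cases h2 : (2 : F) = 0
    · have h2₀ : (2 : F₀) = 0 := e.injective (by rw [map_ofNat, h2, map_zero])
      rw [inndiag_eq_inn h2 hm _ _ hab', inndiag_eq_inn h2₀ hm a₀ b₀ hab₀]
      exact Cfsg.Agent.Lib.Helper86.MFCENTE.cent_even h2 hm e a₀ b₀ hab' σ he φ hφ
    · exact Cfsg.Agent.Lib.Helper53.MFCENTO.cent_odd h2 hm e a₀ b₀ hab' σ r hr.pos hσord he φ hφ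
  · by_cases h2 : (2 : F) = 0
    · rw [inndiag_eq_inn h2 hm _ _ hab']
      exact Cfsg.Agent.Lib.Helper21.MFABS.split_self _ φ
    · exact Cfsg.Agent.Lib.Helper21.MFABS.split_eq_one_of_cover _ _ φ
        (Cfsg.Agent.Lib.Helper57.MFCOVER.cover_odd h2 hm e a₀ b₀ hab' σ r hrodd hσord he φ hφ)

/-- the statement S2716 -/
theorem main_minus {F : Type u} [Field F] [Fintype F] {p f : ℕ} [Fact p.Prime]
    (hF : Fintype.card F = p ^ f) {m : ℕ} (hm : 3 ≤ m) (a b : F)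
    (hab : ∀ z₁ z₂ : F, z₁ ^ 2 + a * z₁ * z₂ + b * z₂ ^ 2 = 0 → z₁ = 0 ∧ z₂ = 0)
    (x : MulAut (Cfsg.POmega F (Cfsg.quadFormMinus m F a b)))
    (hx : Cfsg.IsFieldAutClassPOmegaMinus m x) {r : ℕ} (hr : r.Prime) (hxr : orderOf x = r)
    (F₀ : Type v) [Field F₀] [Fintype F₀] (hF₀ : Fintype.card F₀ = p ^ (f / r)) :
    Odd r ∧ r ∣ f ∧
      (∃ a₀ b₀ : F₀, (∀ z₁ z₂ : F₀, z₁ ^ 2 + a₀ * z₁ * z₂ + b₀ * z₂ ^ 2 = 0 → z₁ = 0 ∧ z₂ = 0) ∧
        Nonempty (↥(Cfsg.inndiagPOmegaMinus m F a b ⊓ Subgroup.centralizer {x}) ≃*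
          ↥(Cfsg.inndiagPOmegaMinus m F₀ a₀ b₀))) ∧
      Cfsg.splitClassCount (Cfsg.inndiagPOmegaMinus m F a b)
        (Cfsg.Inn (Cfsg.POmega F (Cfsg.quadFormMinus m F a b))) x = 1 := by
  obtain ⟨a', b', ψ, σ, hab', hσne, hσa, hσb, hφ⟩ := hx
  have hφ' : Cfsg.IsFieldAutPOmegaOf (Cfsg.quadFormMinus m F a' b') σ (MulAut.congr ψ x) := hφ
  have hord : orderOf (MulAut.congr ψ x) = r := by
    rw [MulEquiv.orderOf_eq, hxr]
  obtain ⟨hrodd, hdvd, ⟨a₀, b₀, hab₀, ⟨e1⟩⟩, hsplit⟩ :=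
    std_model hF hm a' b' hab' σ hσne hσa hσb _ hφ' hr hord F₀ hF₀
  have hI := inndiag_map_congr hm a b a' b' hab hab' ψ
  have hInn := Cfsg.Agent.Lib.Helper21.MFABS.inn_map_congr ψ
  refine ⟨hrodd, hdvd, ⟨a₀, b₀, hab₀, ?_⟩, ?_⟩
  · obtain ⟨e2⟩ := Cfsg.Agent.Lib.Helper21.MFABS.cent_map (MulAut.congr ψ) (Cfsg.inndiagPOmegaMinus m F a b) x
    rw [hI] at e2
    exact ⟨e2.trans e1⟩
  · have h := Cfsg.Agent.Lib.Helper21.MFABS.split_map (MulAut.congr ψ) (Cfsg.inndiagPOmegaMinus m F a b)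
      (Cfsg.Inn (Cfsg.POmega F (Cfsg.quadFormMinus m F a b))) x
    rw [hI, hInn] at h
    rw [← h]
    exact hsplit

end Cfsg.Agent.Lib.Helper53.MinusMain
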