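import Mathlib

set_option autoImplicit false

/-! An auxiliary quadratic form in odd dimension (helper53, for S2699). -/

namespace Cfsg.Agent.Lib.Helper53.GT5Def

/-- the quadratic form `Σ_{i<j} vᵢ vⱼ + (m+1) Σ vᵢ²` on `F^(2m+1)` -/
def Qhat (m : ℕ) (F : Type*) [Field F] (v : Fin (2 * m + 1) → F) : F :=
  (∑ i, ∑ j, if i < j then v i * v j else 0) + ((m : F) + 1) * ∑ i, v i ^ 2

theorem Qhat_smul (m : ℕ) (F : Type*) [Field F] (c : F) (v : Fin (2 * m + 1) → F) :
    Qhat m F (c • v) = c ^ 2 * Qhat m F v := by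
  unfold Qhat
  simp only [Pi.smul_apply, smul_eq_mul, mul_add, Finset.mul_sum]
  congr 1
  · apply Finset.sum_congr rfl
    intro i _
    apply Finset.sum_congr rfl
    intro j _
    split_ifs
    · ring
    · ring
  · apply Finset.sum_congr rfl
    intro i _
    ring

end Cfsg.Agent.Lib.Helper53.GT5Def
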