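import Mathlib
import Cfsg.Agent.Lib.Helper51.GGMain
import Cfsg.Agent.Lib.Helper54.OrthInnMinus

/-!
# S2719 (helper53), part A: abstract counting and the square-multiplier lemma
-/

set_option autoImplicit false
set_option linter.unusedSectionVars false
set_option linter.unusedVariables false

namespace Cfsg.Agent.Lib.Helper53.GMA

open Module QuadraticMap Matrix
open Cfsg Cfsg.Agent.Lib.Helper51 Cfsg.Agent.Lib.Helper54 Cfsg.Agent.Lib.Helper51.GGRefl
  Cfsg.Agent.Lib.Helper51.GF Cfsg.Agent.Lib.Helper51.GGMain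

/-! ## abstract counting -/

theorem count_two_of_cent {X : Type*} [Group X] (D N : Subgroup X) (hND : N ≤ D) {A : Type*}
    [CommGroup A] (hA : Nat.card A = 2) (φ : ↥D →* A) (hφ : Function.Surjective φ)
    (hker : φ.ker = N.subgroupOf D) (x : X)
    (h1 : ∀ c ∈ D ⊓ Subgroup.centralizer {x}, c ∈ N) :
    splitClassCount D N x = 2 := by
  have key := Cfsg.Agent.Lib.Helper53.SplitAbs.split_abstract D.subtype φ hφ x
  rw [Subgroup.range_subtype, hker, Subgroup.subgroupOf_map_subtype, inf_eq_left.mpr hND] at key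
  have : Finite A := Nat.finite_of_card_ne_zero (by rw [hA]; norm_num)
  obtain ⟨S, hS⟩ : ∃ S : Subgroup A, S = ((Subgroup.centralizer {x}).comap D.subtype).map φ :=
    ⟨_, rfl⟩
  rw [← hS] at key
  have hbot : S = ⊥ := by
    rw [eq_bot_iff]
    intro y hy
    rw [hS] at hy
    obtain ⟨c, hc, rfl⟩ := hy
    have hcN : (c : X) ∈ N := h1 c ⟨c.2, hc⟩
    have : c ∈ φ.ker := by
      rw [hker]
      exact Subgroup.mem_subgroupOf.mpr hcN
    exact MonoidHom.mem_ker.mp this
  rw [key, hbot, Subgroup.index_bot, hA]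

/-! ## the multiplier of a commuting similarity -/

section Cent

variable {ι : Type} [Fintype ι] [DecidableEq ι] {F : Type*} [Field F] [Fintype F]
variable (Q : QuadraticForm F (ι → F))

set_option maxHeartbeats 1600000 in
/-- `sq_of_cent` of helper51 with the commutator given as an element of `Ω`. -/
theorem sq_of_comm (hF : ringChar F ≠ 2) (hQ : PolarSep Q) (hv : ∃ v, Q v ≠ 0) (m : ℕ)
    (hcard : Fintype.card ι = 2 * m)
    (g h : ↥(Geo.quadSimilarityGroup (F := F) ⇑Q))
    (hh : simSgn Q hv m h = 1) (hg : simSgn Q hv m g ≠ 1)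
    (hkiso : ∃ s₀ : ↥(isometryGroup F ⇑Q), s₀ ∈ commutator ↥(isometryGroup F ⇑Q) ∧
      h * g * h⁻¹ * g⁻¹ = isoSim Q s₀) :
    IsSquare (simMul Q hv h) := by
  by_contra hns
  obtain ⟨s₀, hs₀, hks₀⟩ := hkiso
  by_cases hsq : IsSquare (simMul Q hv g)
  · obtain ⟨c, s, hgs⟩ := exists_scalar_iso Q hv g hsq
    have hs : detO Q s ≠ 1 := by
      intro h1
      apply hg
      rw [hgs, map_mul, simSgn_of_scalar Q hv m hcard (scalarSim Q c) (c : F) (coe_scalarSim Q c),
        simSgn_isoSim, h1, one_mul]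
    obtain ⟨s', hs', heq⟩ := comm_not_mem Q hF hQ hv h
      (fun hh' => hns ((unit_isSquare_iff _).mpr hh')) s hs
    have e1 : h * g * h⁻¹ * g⁻¹ = isoSim Q s' := by
      rw [hgs, central_cancel (scalarSim Q c) (scalar_comm Q c), heq]
    rw [hks₀] at e1
    have e2 : s₀ = s' := GGMain.isoSim_injective Q e1
    exact hs' (e2 ▸ hs₀)
  · have hsq' : IsSquare (simMul Q hv (h * g⁻¹)) := by
      rw [map_mul, map_inv]
      exact unit_sq_of_not_not hF _ _ hns hsq
    obtain ⟨c, s, hgs⟩ := exists_scalar_iso Q hv (h * g⁻¹) hsq'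
    have hh' : h = scalarSim Q c * isoSim Q s * g := by
      rw [← hgs]
      group
    have hs : detO Q s ≠ 1 := by
      intro h1
      apply hg
      have h3 : simSgn Q hv m (h * g⁻¹) = 1 := by
        rw [hgs, map_mul, simSgn_of_scalar Q hv m hcard (scalarSim Q c) (c : F)
          (coe_scalarSim Q c), simSgn_isoSim, h1, one_mul]
      rw [map_mul, map_inv, hh, one_mul, inv_eq_one] at h3
      exact h3
    obtain ⟨s', hs', heq⟩ := comm_not_mem Q hF hQ hv g
      (fun hh' => hsq ((unit_isSquare_iff _).mpr hh')) s hs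
    have e1 : (h * g * h⁻¹ * g⁻¹)⁻¹ = isoSim Q s' := by
      have e0 : (h * g * h⁻¹ * g⁻¹)⁻¹ = g * h * g⁻¹ * h⁻¹ := by group
      rw [e0, hh', central_cancel' (scalarSim Q c) (scalar_comm Q c), heq]
    rw [hks₀, ← isoSim_inv] at e1
    have e2 : s₀⁻¹ = s' := GGMain.isoSim_injective Q e1
    exact hs' (e2 ▸ inv_mem hs₀)

end Cent

end Cfsg.Agent.Lib.Helper53.GMA
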