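import Mathlib
import Cfsg.Agent.Lib.Helper51.GGMain
import Cfsg.Agent.Lib.Helper54.OrthInnMinus
import Cfsg.Agent.Lib.Helper51.GammaOKer
import Cfsg.Agent.Lib.Helper53.Hermitian
import Cfsg.Agent.Lib.Helper53.OddFB

/-!
# S2719 (helper53), part B: an involution of `PΓO⁻` has no field part
-/

set_option autoImplicit false
set_option linter.unusedSectionVars false
set_option linter.unusedVariables false

namespace Cfsg.Agent.Lib.Helper53.GMB

open Module QuadraticMap Matrix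
open Cfsg Cfsg.Agent.Lib.Helper51 Cfsg.Agent.Lib.Helper54 Cfsg.Agent.Lib.Helper51.GammaO

section NoSemi

variable {F : Type*} [Field F] [Fintype F] {m : ℕ}

local notation "Idx" => (Fin m ⊕ Fin m) ⊕ Fin 2

theorem det_map_sigma {ι : Type} [Fintype ι] [DecidableEq ι] (σ : F ≃+* F) (M : Matrix ι ι F) :
    (M.map σ).det = σ M.det := by
  have h := RingHom.map_det (σ : F →+* F) M
  exact h.symm

set_option maxHeartbeats 1600000 in
/-- the minus-type form has no semisimilarity `v ↦ A σ(v)` of order two modulo scalars with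
`σ` an involution of the field -/
theorem no_semi (h2 : (2 : F) ≠ 0) (a b : F)
    (hab : ∀ z₁ z₂ : F, z₁ ^ 2 + a * z₁ * z₂ + b * z₂ ^ 2 = 0 → z₁ = 0 ∧ z₂ = 0)
    (σ : F ≃+* F) (hσ2 : ∀ x, σ (σ x) = x) (hord : orderOf σ = 2)
    (hfs : ∀ x : F, σ x = x → IsSquare x)
    (A : Matrix Idx Idx F) (κ l : F) (hκ : κ ≠ 0) (hl : l ≠ 0)
    (hA : ∀ v : Idx → F, QMinus m F a b (A *ᵥ (fun i => σ (v i))) = κ * σ (QMinus m F a b v))
    (hAA : A * A.map σ = l • (1 : Matrix Idx Idx F)) : False := by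
  classical
  obtain ⟨Q, hQ⟩ : ∃ Q : QuadraticForm F (Idx → F), Q = QMinus m F a b := ⟨_, rfl⟩
  rw [← hQ] at hA
  obtain ⟨M, hM⟩ : ∃ M : Matrix Idx Idx F, M = gram Q := ⟨_, rfl⟩
  have hpol : ∀ x y : Idx → F, polar ⇑Q (A *ᵥ (fun i => σ (x i))) (A *ᵥ (fun i => σ (y i)))
      = κ * σ (polar ⇑Q x y) := by
    intro x y
    unfold polar
    have h1 : (fun i => σ ((x + y) i)) = (fun i => σ (x i)) + (fun i => σ (y i)) := by
      funext i
      simp
    rw [← Matrix.mulVec_add, ← h1, hA, hA, hA, map_sub, map_sub]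
    ring
  have hgram : Aᵀ * M * A = κ • M.map σ := by
    ext i j
    have h1 := hpol (Pi.single i 1) (Pi.single j 1)
    have hs : ∀ k : Idx, (fun i' => σ ((Pi.single k (1 : F) : Idx → F) i')) = Pi.single k 1 := by
      intro k
      funext i'
      by_cases h : i' = k
      · subst h
        simp
      · simp [h]
    rw [hs, hs, polar_eq_gram, Cfsg.Agent.Lib.Helper53.OddF.bil_gram, single_one_dotProduct,
      Matrix.mulVec_single_one, Matrix.col_apply, ← hM] at h1
    rw [h1, Matrix.smul_apply, Matrix.map_apply, smul_eq_mul, hM, Helper51.gram_apply]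
  have hdet : A.det ^ 2 * M.det = κ ^ (2 * (m + 1)) * σ M.det := by
    have h := congrArg Matrix.det hgram
    rw [Matrix.det_mul, Matrix.det_mul, Matrix.det_transpose, Matrix.det_smul, card_minus,
      det_map_sigma] at h
    linear_combination h
  obtain ⟨v, hv⟩ := hv_minus (m := m) a b
  rw [← hQ] at hv
  have hl2 : l ^ 2 = κ * σ κ := by
    have h1 := hA (A *ᵥ (fun i => σ (v i)))
    have h3 : (fun i => σ ((A *ᵥ (fun i => σ (v i))) i)) = (A.map σ) *ᵥ v := by
      funext i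
      simp only [Matrix.mulVec, dotProduct, map_sum, map_mul, Matrix.map_apply, hσ2]
    rw [h3, Matrix.mulVec_mulVec, hAA, Matrix.smul_mulVec, Matrix.one_mulVec,
      QuadraticMap.map_smul, hA, map_mul, hσ2, smul_eq_mul] at h1
    exact mul_right_cancel₀ hv (by linear_combination h1)
  have hdetAA : A.det * σ A.det = l ^ (2 * (m + 1)) := by
    have h := congrArg Matrix.det hAA
    rw [Matrix.det_mul, Matrix.det_smul, Matrix.det_one, mul_one, card_minus, det_map_sigma] at h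
    exact h
  have hσκ : σ κ ≠ 0 := (map_ne_zero σ).mpr hκ
  obtain ⟨ρ, hρdef⟩ : ∃ ρ : F, ρ = A.det / κ ^ (m + 1) := ⟨_, rfl⟩
  have hρ : ρ * σ ρ = 1 := by
    rw [hρdef, map_div₀, map_pow, div_mul_div_comm, hdetAA, ← mul_pow, ← hl2, ← pow_mul]
    exact div_self (pow_ne_zero _ hl)
  obtain ⟨ν, hν0, hν⟩ := H90.exists_fixed_scalar σ 2 (by norm_num) hord ρ
    (by rw [Herm.nrm_two]; exact hρ)
  have hd : σ M.det = ρ ^ 2 * M.det := by
    rw [hρdef]
    field_simp
    linear_combination -hdet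
  have hfix : σ (M.det * ν ^ 2) = M.det * ν ^ 2 := by
    rw [map_mul, map_pow, hd]
    calc ρ ^ 2 * M.det * σ ν ^ 2 = M.det * (ρ * σ ν) ^ 2 := by ring
      _ = M.det * ν ^ 2 := by rw [hν]
  obtain ⟨r, hr⟩ := hfs _ hfix
  obtain ⟨i, hi⟩ := hfs (-1) (by rw [map_neg, map_one])
  have hdM : M.det = (-1) ^ m * (4 * b - a ^ 2) := by
    rw [hM, hQ]
    exact det_gram_QMinus m a b
  apply aniso_disc_not_square h2 a b hab
  refine ⟨i ^ (m + 1) * r / ν, ?_⟩
  have h5 : a ^ 2 - 4 * b = (-1) ^ (m + 1) * M.det := by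
    rw [hdM, pow_succ]
    have h6 : ((-1 : F) ^ m) * ((-1) ^ m) = 1 := by
      rw [← mul_pow]
      simp
    linear_combination (4 * b - a ^ 2) * h6
  have h7 : M.det = (r / ν) * (r / ν) := by
    field_simp
    linear_combination hr
  rw [h5, h7, hi, mul_pow]
  field_simp

set_option maxHeartbeats 1600000 in
/-- an involution in the image of the semisimilarity group of a minus-type form is induced by
a similarity -/
theorem no_field (hodd : Odd (Fintype.card F)) (hm : 3 ≤ m) (a b : F)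
    (hab : ∀ z₁ z₂ : F, z₁ ^ 2 + a * z₁ * z₂ + b * z₂ ^ 2 = 0 → z₁ = 0 ∧ z₂ = 0)
    (hfs : ∀ σ : F ≃+* F, (∀ x, σ (σ x) = x) → ∀ y, σ y ≠ y → ∀ x, σ x = x → IsSquare x)
    (γ : MulAut (POmega F ⇑(QMinus m F a b)))
    (hγ : γ ∈ gammaPOmega F ⇑(QMinus m F a b)) (hγ2 : orderOf γ = 2) :
    ∃ g : ↥(Geo.quadSimilarityGroup (F := F) ⇑(QMinus m F a b)),
      γ = simAut ⇑(QMinus m F a b) g := by
  classical
  have hF := ringChar_ne_two_of_odd hodd
  have h2 : (2 : F) ≠ 0 := Ring.two_ne_zero hF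
  rw [gamma_eq_range] at hγ
  obtain ⟨p, rfl⟩ := hγ
  have hpp : Theta ⇑(QMinus m F a b) (p * p) = 1 := by
    rw [map_mul, ← pow_two]
    have h := pow_orderOf_eq_one (Theta ⇑(QMinus m F a b) p)
    rw [hγ2] at h
    exact h
  have hnd : (polarBilin (QMinus m F a b)).Nondegenerate :=
    nondeg_of_polarSep _ (polarSep_minus h2 a b hab)
  obtain ⟨hr, c, hc0, hc⟩ := (ker_Theta (QMinus m F a b) hnd (by rw [card_minus]; omega)
    (p * p)).mp hpp
  obtain ⟨κ, hκ⟩ := (mem_GO ⇑(QMinus m F a b) p.1).mp p.2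
  by_cases hσ : p.1.right = 1
  · have hsim : p.1.left ∈ Geo.quadSimilarityGroup (F := F) ⇑(QMinus m F a b) := by
      refine ⟨κ, fun v => ?_⟩
      have h := hκ v
      rw [hσ] at h
      unfold sact at h
      rw [hσ] at h
      exact h
    refine ⟨⟨p.1.left, hsim⟩, ?_⟩
    apply (Cfsg.Agent.Lib.Helper54.induced_iff ⇑(QMinus m F a b) ⟨p.1.left, hsim⟩ _).mp
    have h := (Cfsg.Agent.Lib.Helper51.GammaO.induced_iff ⇑(QMinus m F a b) p
      (Theta ⇑(QMinus m F a b) p)).mpr rfl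
    rw [hσ] at h
    exact h
  · exfalso
    obtain ⟨σ, hσdef⟩ : ∃ σ : F ≃+* F, σ = p.1.right := ⟨_, rfl⟩
    have hσσ : ∀ x, σ (σ x) = x := by
      intro x
      have h1 : (p * p).1.right = p.1.right * p.1.right := rfl
      rw [h1] at hr
      have h3 := congrArg (fun τ : RingAut F => τ x) hr
      rw [hσdef]
      exact h3
    have hσ1 : σ ≠ 1 := by
      rw [hσdef]
      exact hσ
    have hord : orderOf σ = 2 := by
      have : Fact (Nat.Prime 2) := ⟨Nat.prime_two⟩
      refine orderOf_eq_prime ?_ hσ1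
      ext x
      rw [pow_two]
      exact hσσ x
    obtain ⟨y, hy⟩ : ∃ y, σ y ≠ y := by
      by_contra h
      push Not at h
      exact hσ1 (RingEquiv.ext h)
    apply no_semi h2 a b hab σ hσσ hord (hfs σ hσσ y hy)
      ((p.1.left : GL ((Fin m ⊕ Fin m) ⊕ Fin 2) F) :
        Matrix ((Fin m ⊕ Fin m) ⊕ Fin 2) ((Fin m ⊕ Fin m) ⊕ Fin 2) F) κ c κ.ne_zero hc0
    · intro v
      rw [hσdef]
      exact hκ v
    · have h1 : (p * p).1.left = p.1.left * glMap p.1.right p.1.left := rfl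
      rw [h1, Units.val_mul, glMap_coe] at hc
      rw [hσdef]
      exact hc

end NoSemi

end Cfsg.Agent.Lib.Helper53.GMB
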