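import Mathlib
import Cfsg.Agent.Lib.Helper51.GGMain
import Cfsg.Agent.Lib.Helper54.OrthInnMinus

/-!
# S2719 (helper53), part C: an element of the centraliser outside `Ω`, minus type

Adaptation of helper51's `GGMain.exists_cent` (plus type) to the form `QMinus m F a b`; the
quadratic-extension lemma is taken as a hypothesis.
-/

set_option autoImplicit false
set_option linter.unusedSectionVars false
set_option linter.unusedVariables false

namespace Cfsg.Agent.Lib.Helper53.GMC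

open Module QuadraticMap Matrix
open Cfsg Cfsg.Agent.Lib.Helper51 Cfsg.Agent.Lib.Helper54 Cfsg.Agent.Lib.Helper51.GGRefl
  Cfsg.Agent.Lib.Helper51.GF Cfsg.Agent.Lib.Helper51.GGMain

section Minus

variable {F : Type*} [Field F] [Fintype F] {m : ℕ}

set_option maxHeartbeats 1600000 in
theorem exists_cent_minus (hF : ringChar F ≠ 2) (hm : 3 ≤ m) (a b : F)
    (hab : ∀ z₁ z₂ : F, z₁ ^ 2 + a * z₁ * z₂ + b * z₂ ^ 2 = 0 → z₁ = 0 ∧ z₂ = 0)
    (hqext : ∀ (G : Matrix ((Fin m ⊕ Fin m) ⊕ Fin 2) ((Fin m ⊕ Fin m) ⊕ Fin 2) F) (μ : F),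
      ¬ IsSquare μ →
      G * G = μ • (1 : Matrix ((Fin m ⊕ Fin m) ⊕ Fin 2) ((Fin m ⊕ Fin m) ⊕ Fin 2) F) →
      (∀ v, QMinus m F a b (G *ᵥ v) = μ * QMinus m F a b v) →
      ∃ u : (Fin m ⊕ Fin m) ⊕ Fin 2 → F, QMinus m F a b u = 1 ∧
        QuadraticMap.polar ⇑(QMinus m F a b) u (G *ᵥ u) = 0)
    (g : ↥(Geo.quadSimilarityGroup (F := F) ⇑(QMinus m F a b)))
    (hg : simSgn (QMinus m F a b) (hv_minus a b) (m + 1) g ≠ 1)
    (hgg : simAut ⇑(QMinus m F a b) (g * g) = 1) :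
    ∃ s : ↥(isometryGroup F ⇑(QMinus m F a b)), detO (QMinus m F a b) s = 1 ∧
      s ∉ commutator ↥(isometryGroup F ⇑(QMinus m F a b)) ∧
      g * isoSim (QMinus m F a b) s = isoSim (QMinus m F a b) s * g := by
  have h2 : (2 : F) ≠ 0 := Ring.two_ne_zero hF
  have hv := hv_minus (m := m) a b
  obtain ⟨G, hGdef⟩ : ∃ G : Matrix ((Fin m ⊕ Fin m) ⊕ Fin 2) ((Fin m ⊕ Fin m) ⊕ Fin 2) F,
      G = ((g : GL ((Fin m ⊕ Fin m) ⊕ Fin 2) F) : Matrix ((Fin m ⊕ Fin m) ⊕ Fin 2) ((Fin m ⊕ Fin m) ⊕ Fin 2) F) := ⟨_, rfl⟩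
  obtain ⟨μ, hμdef⟩ : ∃ μ : F, μ = ((simMul (QMinus m F a b) (hv_minus a b) g : Fˣ) : F) := ⟨_, rfl⟩
  have hμ0 : μ ≠ 0 := by
    rw [hμdef]
    exact Units.ne_zero _
  have hG : ∀ v, QMinus m F a b (G *ᵥ v) = μ * QMinus m F a b v := by
    intro v
    rw [hGdef, hμdef]
    exact simMul_spec (QMinus m F a b) (hv_minus a b) g v
  obtain ⟨α, hα⟩ := simAut_ker_minus hm a b (aniso_b_ne_zero a b hab) (g * g) hgg
  have hGG : G * G = α • (1 : Matrix ((Fin m ⊕ Fin m) ⊕ Fin 2) ((Fin m ⊕ Fin m) ⊕ Fin 2) F) := by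
    rw [hGdef, ← hα]
    rfl
  have hαμ : α * α = μ * μ := by
    have h1 := simMul_of_scalar (QMinus m F a b) (hv_minus a b) (g * g) α hα
    rw [map_mul, Units.val_mul, ← hμdef] at h1
    exact h1.symm
  -- the general shape of the conclusion from two vectors
  have key : ∀ (x y : (Fin m ⊕ Fin m) ⊕ Fin 2 → F) (hx : QMinus m F a b x ≠ 0) (hy : QMinus m F a b y ≠ 0),
      ¬ IsSquare (QMinus m F a b x * QMinus m F a b y) →
      reflectionMatrix ⇑(QMinus m F a b) (G *ᵥ x) * reflectionMatrix ⇑(QMinus m F a b) (G *ᵥ y) =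
        reflectionMatrix ⇑(QMinus m F a b) x * reflectionMatrix ⇑(QMinus m F a b) y →
      ∃ s : ↥(isometryGroup F ⇑(QMinus m F a b)), detO (QMinus m F a b) s = 1 ∧
        s ∉ commutator ↥(isometryGroup F ⇑(QMinus m F a b)) ∧
        g * isoSim (QMinus m F a b) s = isoSim (QMinus m F a b) s * g := by
    intro x y hx hy hns hmat
    obtain ⟨hd, hn⟩ := two_refl_not_mem (QMinus m F a b) hF x y hx hy hns
    have hx' : QMinus m F a b (((g : GL ((Fin m ⊕ Fin m) ⊕ Fin 2) F) :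
        Matrix ((Fin m ⊕ Fin m) ⊕ Fin 2) ((Fin m ⊕ Fin m) ⊕ Fin 2) F) *ᵥ x) ≠ 0 := by
      rw [← hGdef, hG]
      exact mul_ne_zero hμ0 hx
    have hy' : QMinus m F a b (((g : GL ((Fin m ⊕ Fin m) ⊕ Fin 2) F) :
        Matrix ((Fin m ⊕ Fin m) ⊕ Fin 2) ((Fin m ⊕ Fin m) ⊕ Fin 2) F) *ᵥ y) ≠ 0 := by
      rw [← hGdef, hG]
      exact mul_ne_zero hμ0 hy
    refine ⟨refl (QMinus m F a b) x hx * refl (QMinus m F a b) y hy, hd, hn, ?_⟩
    rw [sim_mul_two_refl (QMinus m F a b) (hv_minus a b) g x y hx hy hx' hy']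
    congr 2
    apply isometry_ext
    rw [coe_mul', coe_mul', coe_refl, coe_refl, coe_refl, coe_refl, ← hGdef]
    exact hmat
  rcases mul_self_eq_mul_self_iff.mp hαμ with hαeq | hαeq
  · -- `G * G = μ`
    rw [hαeq] at hGG
    by_cases hsq : IsSquare μ
    · obtain ⟨c, hc⟩ := hsq
      have hc0 : c ≠ 0 := by
        rintro rfl
        rw [mul_zero] at hc
        exact hμ0 hc
      have hJJ : (c⁻¹ • G) * (c⁻¹ • G) = 1 := by
        rw [Matrix.smul_mul, Matrix.mul_smul, hGG, smul_smul, smul_smul, hc]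
        have : c⁻¹ * c⁻¹ * (c * c) = 1 := by field_simp
        rw [this, one_smul]
      have hJ : ∀ v, QMinus m F a b ((c⁻¹ • G) *ᵥ v) = QMinus m F a b v := by
        intro v
        rw [Matrix.smul_mulVec, QuadraticMap.map_smul, hG, hc, smul_eq_mul]
        field_simp
      have hscal : ∀ a' : F, G = a' • (1 : Matrix ((Fin m ⊕ Fin m) ⊕ Fin 2) ((Fin m ⊕ Fin m) ⊕ Fin 2) F) → False := by
        intro a' ha
        apply hg
        exact simSgn_of_scalar (QMinus m F a b) (hv_minus a b) (m + 1) card_minus g a' (by rw [← hGdef, ha])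
      have hJ1 : c⁻¹ • G ≠ 1 := by
        intro h1
        apply hscal c
        have := congrArg (fun M => c • M) h1
        simp only [smul_smul, mul_inv_cancel₀ hc0, one_smul] at this
        exact this
      have hJ2 : c⁻¹ • G ≠ -1 := by
        intro h1
        apply hscal (-c)
        have := congrArg (fun M => c • M) h1
        simp only [smul_smul, mul_inv_cancel₀ hc0, one_smul, smul_neg] at this
        rw [this, neg_smul]
      have hcard3 : 3 ≤ Fintype.card ((Fin m ⊕ Fin m) ⊕ Fin 2) := by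
        rw [card_minus]
        omega
      obtain ⟨ε, hε, huniv⟩ := Cfsg.Agent.Lib.Helper8.GGUNIV.univ_eigen h2 (QMinus m F a b) (polarSep_minus h2 a b hab) hcard3
        (c⁻¹ • G) hJJ hJ hJ1 hJ2
      obtain ⟨n, hn⟩ := FiniteField.exists_nonsquare hF
      have hn0 : n ≠ 0 := by
        rintro rfl
        exact hn ⟨0, (mul_zero 0).symm⟩
      obtain ⟨x, hJx, hQx⟩ := huniv 1 one_ne_zero
      obtain ⟨y, hJy, hQy⟩ := huniv n hn0
      have hε0 : c * ε ≠ 0 := by
        rcases hε with rfl | rfl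
        · rw [mul_one]
          exact hc0
        · rw [mul_neg, mul_one]
          exact neg_ne_zero.mpr hc0
      have hGx : ∀ z, (c⁻¹ • G) *ᵥ z = ε • z → G *ᵥ z = (c * ε) • z := by
        intro z hz
        rw [Matrix.smul_mulVec] at hz
        have := congrArg (fun w => c • w) hz
        simp only [smul_smul, mul_inv_cancel₀ hc0, one_smul] at this
        exact this
      refine key x y (by rw [hQx]; exact one_ne_zero) (by rw [hQy]; exact hn0)
        (by rw [hQx, hQy, one_mul]; exact hn) ?_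
      rw [hGx x hJx, hGx y hJy, reflectionMatrix_smul _ x _ hε0, reflectionMatrix_smul _ y _ hε0]
    · have hm2 : 2 ≤ m := by omega
      obtain ⟨u, hu1, hu0⟩ := hqext G μ hsq hGG hG
      have hGGu : G *ᵥ (G *ᵥ u) = μ • u := by
        rw [Matrix.mulVec_mulVec, hGG, Matrix.smul_mulVec, Matrix.one_mulVec]
      have hQGu : QMinus m F a b (G *ᵥ u) = μ := by rw [hG, hu1, mul_one]
      refine key u (G *ᵥ u) (by rw [hu1]; exact one_ne_zero) (by rw [hQGu]; exact hμ0)
        (by rw [hu1, hQGu, one_mul]; exact hsq) ?_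
      rw [hGGu, reflectionMatrix_smul _ u _ hμ0]
      exact refl_comm_of_orth (QMinus m F a b) h2 (G *ᵥ u) u (by rw [polar_comm', hu0])
  · -- `G * G = -μ`
    rw [hαeq] at hGG
    obtain ⟨s, t, hst⟩ := exists_binary_nonsquare hF μ hμ0
    have hn : s ^ 2 + μ * t ^ 2 ≠ 0 := by
      intro h0
      rw [h0] at hst
      exact hst ⟨0, (mul_zero 0).symm⟩
    obtain ⟨u, hu⟩ := hv
    obtain ⟨hQw, hrot⟩ := rot_comm (QMinus m F a b) h2 G μ hμ0 hGG hG u hu s t hn
    have hw : QMinus m F a b (s • u + t • (G *ᵥ u)) ≠ 0 := by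
      rw [hQw]
      exact mul_ne_zero hn hu
    refine key (s • u + t • (G *ᵥ u)) u hw hu ?_ hrot
    rw [hQw]
    rintro ⟨r, hr⟩
    apply hst
    refine ⟨r / QMinus m F a b u, ?_⟩
    field_simp
    linear_combination hr


end Minus

end Cfsg.Agent.Lib.Helper53.GMC
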