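import Mathlib
import Cfsg.Agent.Lib.Helper53.GMA
import Cfsg.Agent.Lib.Helper53.GMB
import Cfsg.Agent.Lib.Helper85.GMFIXSQ
import Cfsg.Agent.Lib.Helper39.GMCHARPOLY

/-!
# S2719 (helper53): splitting of the class of an involutory graph automorphism of
`PΩ⁻_{2m+2}(q)`, `q` odd (assembly; minus-type twin of helper51's `GGMain.main_q`)
-/

set_option autoImplicit false
set_option linter.unusedSectionVars false
set_option linter.unusedVariables false

namespace Cfsg.Agent.Lib.Helper53.GMMain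

open Module QuadraticMap Matrix
open Cfsg Cfsg.Agent.Lib.Helper51 Cfsg.Agent.Lib.Helper54 Cfsg.Agent.Lib.Helper51.GGRefl
  Cfsg.Agent.Lib.Helper51.GF Cfsg.Agent.Lib.Helper51.GGMain

section Main

variable {F : Type*} [Field F] [Fintype F] {m : ℕ}

local notation "Idx" => (Fin m ⊕ Fin m) ⊕ Fin 2

set_option maxHeartbeats 3200000 in
theorem main_of_cent (hodd : Odd (Fintype.card F)) (hm : 3 ≤ m) (a b : F)
    (hab : ∀ z₁ z₂ : F, z₁ ^ 2 + a * z₁ * z₂ + b * z₂ ^ 2 = 0 → z₁ = 0 ∧ z₂ = 0)
    (hcent : ∀ g : ↥(Geo.quadSimilarityGroup (F := F) ⇑(QMinus m F a b)),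
      simSgn (QMinus m F a b) (hv_minus a b) (m + 1) g ≠ 1 →
      simAut ⇑(QMinus m F a b) (g * g) = 1 →
      ∃ s : ↥(isometryGroup F ⇑(QMinus m F a b)), detO (QMinus m F a b) s = 1 ∧
        s ∉ commutator ↥(isometryGroup F ⇑(QMinus m F a b)) ∧
        g * isoSim (QMinus m F a b) s = isoSim (QMinus m F a b) s * g)
    (q : (Idx → F) → F) (hq : q = ⇑(QMinus m F a b))
    (γ : MulAut (POmega F q))
    (hγ : γ ∈ gammaPOmega F q) (hγn : γ ∉ inndiagOfMinus m a b q) (hγ2 : orderOf γ = 2) :
    (splitClassCount (inndiagOfMinus m a b q) (Inn (POmega F q)) γ = 1 ∨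
      splitClassCount (inndiagOfMinus m a b q) (Inn (POmega F q)) γ = 2) ∧
    (¬ (Even m ∧ Fintype.card F % 4 = 1) →
      splitClassCount (inndiagOfMinus m a b q) (Inn (POmega F q)) γ = 2) := by
  classical
  subst hq
  have hF := ringChar_ne_two_of_odd hodd
  have h2 : (2 : F) ≠ 0 := Ring.two_ne_zero hF
  have hm1 : 1 ≤ m := by omega
  have hsep := polarSep_minus (m := m) h2 a b hab
  have hb := aniso_b_ne_zero a b hab
  have hkerS := simAut_ker_minus hm a b hb
  obtain ⟨g, hγg⟩ := Cfsg.Agent.Lib.Helper53.GMB.no_field hodd hm a b hab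
    (fun σ hσ2 y hy x hx => Cfsg.Agent.Lib.Helper85.GMFIXSQ.fixed_isSquare h2 σ hσ2 y hy x hx)
    γ hγ hγ2
  have hD1 : inndiagOfMinus m a b ⇑(QMinus m F a b) =
      ((simSgn (QMinus m F a b) (hv_minus a b) (m + 1)).ker).map
        (simAut ⇑(QMinus m F a b)) := inndiagMinus_eq hF a b hab
  have hsgn : simSgn (QMinus m F a b) (hv_minus a b) (m + 1) g ≠ 1 := by
    intro h
    apply hγn
    rw [hD1, hγg]
    exact ⟨g, MonoidHom.mem_ker.mpr h, rfl⟩
  subst hγg
  have hgg : simAut ⇑(QMinus m F a b) (g * g) = 1 := by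
    rw [map_mul, ← pow_two]
    have h := pow_orderOf_eq_one (simAut ⇑(QMinus m F a b) g)
    rw [hγ2] at h
    exact h
  have hInnLe : Inn (POmega F ⇑(QMinus m F a b)) ≤ inndiagOfMinus m a b ⇑(QMinus m F a b) := by
    rw [hD1, inn_eq]
    exact Subgroup.map_mono (omega_le_sgnKer (QMinus m F a b) (hv_minus a b) (m + 1))
  obtain ⟨gen4, gen2⟩ := minus_inndiag_gen hodd hm a b hab ⇑(QMinus m F a b) rfl
  -- case (b): `-1 ∈ Ω`
  have hcaseB : (Even m ∧ Fintype.card F % 4 = 3) →
      splitClassCount (inndiagOfMinus m a b ⇑(QMinus m F a b))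
        (Inn (POmega F ⇑(QMinus m F a b))) (simAut ⇑(QMinus m F a b) g) = 2 := by
    intro hc
    have hneg : negO (QMinus m F a b) ∈ commutator ↥(isometryGroup F ⇑(QMinus m F a b)) :=
      (negO_mem_minus_iff hodd a b hab).mpr hc
    have h1 : ∃ c ∈ inndiagOfMinus m a b ⇑(QMinus m F a b) ⊓
        Subgroup.centralizer {simAut ⇑(QMinus m F a b) g},
        c ∉ Inn (POmega F ⇑(QMinus m F a b)) := by
      obtain ⟨s, hdet, hsn, hcomm⟩ := hcent g hsgn hgg
      refine ⟨simAut ⇑(QMinus m F a b) (isoSim (QMinus m F a b) s), ⟨?_, ?_⟩, ?_⟩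
      · rw [hD1]
        exact ⟨_, MonoidHom.mem_ker.mpr (by rw [simSgn_isoSim, hdet]), rfl⟩
      · refine Subgroup.mem_centralizer_iff.mpr ?_
        intro y hy
        rw [Set.mem_singleton_iff] at hy
        rw [hy, ← map_mul, ← map_mul, hcomm]
      · rw [inn_eq]
        rintro ⟨y, hy, hys⟩
        have hmem : isoSim (QMinus m F a b) s ∈
            (omegaGL ⇑(QMinus m F a b)).subgroupOf
              (Geo.quadSimilarityGroup (F := F) ⇑(QMinus m F a b)) ⊔
              (simAut ⇑(QMinus m F a b)).ker := by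
          have h3 : isoSim (QMinus m F a b) s = y * (y⁻¹ * isoSim (QMinus m F a b) s) := by group
          rw [h3]
          exact Subgroup.mul_mem_sup hy
            (MonoidHom.mem_ker.mpr (by rw [map_mul, map_inv, hys, inv_mul_cancel]))
        exact hsn ((iso_mem_join_iff (QMinus m F a b) (hv_minus a b) hkerS hneg s).mp hmem)
    have h2' : ∃ D₂ : Subgroup (MulAut (POmega F ⇑(QMinus m F a b))),
        Inn (POmega F ⇑(QMinus m F a b)) ≤ D₂ ∧
        inndiagOfMinus m a b ⇑(QMinus m F a b) ⊓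
          Subgroup.centralizer {simAut ⇑(QMinus m F a b) g} ≤ D₂ ∧
        ¬ inndiagOfMinus m a b ⇑(QMinus m F a b) ≤ D₂ := by
      obtain ⟨M₂, hM₂⟩ : ∃ M₂ : Subgroup ↥(Geo.quadSimilarityGroup (F := F) ⇑(QMinus m F a b)),
          ∀ g, g ∈ M₂ ↔ IsSquare (simMul (QMinus m F a b) (hv_minus a b) g) := by
        refine ⟨((powMonoidHom 2 : Fˣ →* Fˣ).range).comap
          (simMul (QMinus m F a b) (hv_minus a b)), fun g => ?_⟩
        rw [Subgroup.mem_comap, MonoidHom.mem_range]
        constructor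
        · rintro ⟨r, hr⟩
          exact ⟨r, by rw [← hr, powMonoidHom_apply, pow_two]⟩
        · rintro ⟨r, hr⟩
          exact ⟨r, by rw [hr, powMonoidHom_apply, pow_two]⟩
      have hkerM₂ : ∀ g, simAut ⇑(QMinus m F a b) g = 1 → g ∈ M₂ := by
        intro g hg
        obtain ⟨α, hα⟩ := hkerS g hg
        rw [hM₂, unit_isSquare_iff]
        exact ⟨α, simMul_of_scalar (QMinus m F a b) (hv_minus a b) g α hα⟩
      have hmemD₂ : ∀ g, simAut ⇑(QMinus m F a b) g ∈ M₂.map (simAut ⇑(QMinus m F a b)) →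
          g ∈ M₂ := by
        rintro g ⟨g', hg', heq⟩
        have h1 : simAut ⇑(QMinus m F a b) (g'⁻¹ * g) = 1 := by
          rw [map_mul, map_inv, heq, inv_mul_cancel]
        have h3 : g = g' * (g'⁻¹ * g) := by group
        rw [h3]
        exact mul_mem hg' (hkerM₂ _ h1)
      refine ⟨M₂.map (simAut ⇑(QMinus m F a b)), ?_, ?_, ?_⟩
      · rw [inn_eq]
        rintro _ ⟨g, hg, rfl⟩
        refine ⟨g, (hM₂ g).mpr ?_, rfl⟩
        obtain ⟨s, rfl, -⟩ := (mem_omega_sub_iff (QMinus m F a b) g).mp hg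
        rw [simMul_isoSim]
        exact ⟨1, (one_mul 1).symm⟩
      · rintro c ⟨hcD, hcx⟩
        have hcD' := hcD
        rw [hD1] at hcD'
        obtain ⟨h, hh, rfl⟩ := hcD'
        refine ⟨h, (hM₂ h).mpr ?_, rfl⟩
        have hcomm : simAut ⇑(QMinus m F a b) h * simAut ⇑(QMinus m F a b) g =
            simAut ⇑(QMinus m F a b) g * simAut ⇑(QMinus m F a b) h :=
          (Subgroup.mem_centralizer_iff.mp hcx _ (Set.mem_singleton _)).symm
        exact sq_of_cent (QMinus m F a b) hF hsep (hv_minus a b) (m + 1) card_minus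
          hkerS hneg g h (MonoidHom.mem_ker.mp hh) hsgn hcomm
      · intro hle
        obtain ⟨c, hns⟩ := FiniteField.exists_nonsquare hF
        have hc0 : c ≠ 0 := by
          rintro rfl
          exact hns ⟨0, (mul_zero 0).symm⟩
        obtain ⟨u₁, u₂, hu⟩ := exists_norm hF a b hab c
        have hd : simAut ⇑(QMinus m F a b)
            (simOfMatrix (QMinus m F a b) hsep (minusSwapMat a b c u₁ u₂) c hc0
              (minus_swap_sim a b c u₁ u₂ hu)) ∈ inndiagOfMinus m a b ⇑(QMinus m F a b) := by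
          rw [hD1]
          exact ⟨_, MonoidHom.mem_ker.mpr (simSgn_minusSwap a b c u₁ u₂ hsep hc0 hu hc.1), rfl⟩
        have h1 := hmemD₂ _ (hle hd)
        rw [hM₂, unit_isSquare_iff, simMul_simOfMatrix] at h1
        exact hns h1
    obtain ⟨φ, hφ, hker⟩ := gen4 hc
    exact count_four (inndiagOfMinus m a b ⇑(QMinus m F a b)) (Inn _) hInnLe
      (by rw [Nat.card_eq_fintype_card, Fintype.card_multiplicative, ZMod.card]) φ hφ hker _
      h1 h2'
  -- case (a): `m` odd
  have hcaseA : Odd m →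
      splitClassCount (inndiagOfMinus m a b ⇑(QMinus m F a b))
        (Inn (POmega F ⇑(QMinus m F a b))) (simAut ⇑(QMinus m F a b) g) = 2 := by
    intro hmo
    have hnc : ¬ (Even m ∧ Fintype.card F % 4 = 3) :=
      fun h => (Nat.not_even_iff_odd.mpr hmo) h.1
    obtain ⟨φ, hφ, hker⟩ := gen2 hnc
    refine Cfsg.Agent.Lib.Helper53.GMA.count_two_of_cent
      (inndiagOfMinus m a b ⇑(QMinus m F a b)) (Inn _) hInnLe
      (by rw [Nat.card_eq_fintype_card, Fintype.card_multiplicative, ZMod.card]) φ hφ hker _ ?_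
    rintro c ⟨hcD, hcx⟩
    have hcD' := hcD
    rw [hD1] at hcD'
    obtain ⟨h, hh, rfl⟩ := hcD'
    have hcomm : simAut ⇑(QMinus m F a b) h * simAut ⇑(QMinus m F a b) g =
        simAut ⇑(QMinus m F a b) g * simAut ⇑(QMinus m F a b) h :=
      (Subgroup.mem_centralizer_iff.mp hcx _ (Set.mem_singleton _)).symm
    have hk : simAut ⇑(QMinus m F a b) (h * g * h⁻¹ * g⁻¹) = 1 := by
      rw [map_mul, map_mul, map_mul, map_inv, map_inv, hcomm]
      group
    obtain ⟨α', hα'⟩ := hkerS _ hk
    have hmul1 : simMul (QMinus m F a b) (hv_minus a b) (h * g * h⁻¹ * g⁻¹) = 1 := by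
      rw [map_mul, map_mul, map_mul, map_inv, map_inv,
        mul_right_comm (simMul (QMinus m F a b) (hv_minus a b) h),
        mul_inv_cancel, one_mul, mul_inv_cancel]
    have hαα : α' * α' = 1 := by
      have h1 := simMul_of_scalar (QMinus m F a b) (hv_minus a b) _ α' hα'
      rw [hmul1, Units.val_one] at h1
      exact h1.symm
    rcases mul_self_eq_one_iff.mp hαα with rfl | rfl
    · -- `h` and `g` commute
      have hkiso : ∃ s₀ : ↥(isometryGroup F ⇑(QMinus m F a b)),
          s₀ ∈ commutator ↥(isometryGroup F ⇑(QMinus m F a b)) ∧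
          h * g * h⁻¹ * g⁻¹ = isoSim (QMinus m F a b) s₀ := by
        refine ⟨1, Subgroup.one_mem _, ?_⟩
        apply Subtype.ext
        apply Units.ext
        rw [hα', one_smul]
        rfl
      have hsq := Cfsg.Agent.Lib.Helper53.GMA.sq_of_comm (QMinus m F a b) hF hsep (hv_minus a b)
        (m + 1) card_minus g h (MonoidHom.mem_ker.mp hh) hsgn hkiso
      obtain ⟨c, s, hhs⟩ := exists_scalar_iso (QMinus m F a b) (hv_minus a b) h hsq
      have hdet : detO (QMinus m F a b) s = 1 := by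
        have h3 := MonoidHom.mem_ker.mp hh
        rw [hhs, map_mul, simSgn_of_scalar (QMinus m F a b) (hv_minus a b) (m + 1) card_minus
          (scalarSim (QMinus m F a b) c) (c : F) (coe_scalarSim (QMinus m F a b) c),
          simSgn_isoSim, one_mul] at h3
        exact h3
      have hsc : simAut ⇑(QMinus m F a b) (scalarSim (QMinus m F a b) c) = 1 :=
        simAut_of_scalar (QMinus m F a b) _ (c : F) (coe_scalarSim (QMinus m F a b) c)
      rw [hhs, map_mul, hsc, one_mul]
      have hpso : simAut ⇑(QMinus m F a b) (isoSim (QMinus m F a b) s) ∈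
          psoAut F ⇑(QMinus m F a b) := by
        rw [psoAut_eq]
        exact ⟨isoSim (QMinus m F a b) s,
          (mem_special_sub_iff (QMinus m F a b) _).mpr ⟨s, rfl, hdet⟩, rfl⟩
      have hrel := (relIndex_minus hodd hm a b hab).2 hnc
      exact (Subgroup.relIndex_eq_one.mp hrel) hpso
    · -- `h g h⁻¹ = -g`: impossible for `m` odd
      exfalso
      obtain ⟨G, hGdef⟩ : ∃ G : Matrix Idx Idx F,
          G = ((g : GL Idx F) : Matrix Idx Idx F) := ⟨_, rfl⟩
      obtain ⟨H, hHdef⟩ : ∃ H : Matrix Idx Idx F,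
          H = ((h : GL Idx F) : Matrix Idx Idx F) := ⟨_, rfl⟩
      have hHunit : IsUnit H.det := by
        rw [hHdef]
        exact (Matrix.isUnit_iff_isUnit_det _).mp (Units.isUnit _)
      have hHG : H * G = -(G * H) := by
        have e1 : h * g = (h * g * h⁻¹ * g⁻¹) * (g * h) := by group
        have e2 : ((h : GL Idx F) : Matrix Idx Idx F) * ((g : GL Idx F) : Matrix Idx Idx F) =
            (((h * g * h⁻¹ * g⁻¹ : ↥(Geo.quadSimilarityGroup (F := F) ⇑(QMinus m F a b))) :
              GL Idx F) : Matrix Idx Idx F) *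
            (((g : GL Idx F) : Matrix Idx Idx F) * ((h : GL Idx F) : Matrix Idx Idx F)) := by
          have e3 := congrArg (fun z : ↥(Geo.quadSimilarityGroup (F := F) ⇑(QMinus m F a b)) =>
            ((z : GL Idx F) : Matrix Idx Idx F)) e1
          exact e3
        rw [hα'] at e2
        rw [hGdef, hHdef, e2, neg_smul, one_smul, neg_mul, one_mul]
      obtain ⟨α, hα⟩ := hkerS (g * g) hgg
      have hGG : G * G = α • (1 : Matrix Idx Idx F) := by
        rw [hGdef, ← hα]
        rfl
      have hdetG := Cfsg.Agent.Lib.Helper39.GMCHARPOLY.det_of_anticomm (m + 1) card_minus G H α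
        hHunit hGG hHG
      have hαμ : α * α = ((simMul (QMinus m F a b) (hv_minus a b) g : Fˣ) : F) *
          ((simMul (QMinus m F a b) (hv_minus a b) g : Fˣ) : F) := by
        have h1 := simMul_of_scalar (QMinus m F a b) (hv_minus a b) (g * g) α hα
        rw [map_mul, Units.val_mul] at h1
        exact h1.symm
      apply hsgn
      rw [simSgn_eq_one_iff, ← hGdef, hdetG]
      obtain ⟨k, hk⟩ := hmo
      have e5 : m + 1 = 2 * (k + 1) := by omega
      rw [e5, pow_mul, pow_mul, neg_sq, pow_two, pow_two, hαμ]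
  refine ⟨?_, ?_⟩
  · by_cases hc : Even m ∧ Fintype.card F % 4 = 3
    · exact Or.inr (hcaseB hc)
    · obtain ⟨φ, hφ, hker⟩ := gen2 hc
      exact count_two (inndiagOfMinus m a b ⇑(QMinus m F a b)) (Inn _) hInnLe
        (by rw [Nat.card_eq_fintype_card, Fintype.card_multiplicative, ZMod.card]) φ hφ hker _
  · intro hc
    by_cases hmo : Odd m
    · exact hcaseA hmo
    · have hev := Nat.not_odd_iff_even.mp hmo
      have h3 : Fintype.card F % 4 = 3 := by
        have h4 := Nat.odd_iff.mp hodd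
        by_contra h
        apply hc
        refine ⟨hev, ?_⟩
        omega
      exact hcaseB ⟨hev, h3⟩

end Main

end Cfsg.Agent.Lib.Helper53.GMMain
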