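import Mathlib
import Cfsg.Agent.Lib.Helper53.AutPSL

/-!
# The inverse-transpose automorphism of `PSL_n(F)` is not inner-diagonal for `n ≥ 3`
-/

set_option autoImplicit false

namespace Cfsg.Agent.Lib.Helper53.GTGAM

open Matrix Cfsg.Agent.Lib.Helper53.AutPSL

variable {n : ℕ} {F : Type*} [Field F]

theorem key (hn0 : n ≠ 0) (h : GL (Fin n) F)
    (hG : (Gam : MulAut (ProjectiveSpecialLinearGroup (Fin n) F)) = iota h) (i j : Fin n)
    (hij : i ≠ j) :
    ∃ c : F, c ≠ 0 ∧ ∀ a b : Fin n,
      (h : Matrix (Fin n) (Fin n) F) a b + (if j = b then (h : Matrix (Fin n) (Fin n) F) a i else 0) =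
        c * ((h : Matrix (Fin n) (Fin n) F) a b -
          (if j = a then (h : Matrix (Fin n) (Fin n) F) i b else 0)) := by
  have h1 : Gam (QuotientGroup.mk (tv i j hij (1 : F))) =
      iota h (QuotientGroup.mk (tv i j hij (1 : F))) := by
    rw [hG]
  rw [Gam_mk, iota_mk] at h1
  obtain ⟨c, hc0, hc⟩ := mk_eq_mk_smul hn0 h1
  rw [cj_coe, it_coe, tv_inv, tv_coe, tv_coe] at hc
  have h2 : (h : Matrix (Fin n) (Fin n) F) * (1 + Matrix.single i j (1 : F)) *
      ((h⁻¹ : GL (Fin n) F) : Matrix (Fin n) (Fin n) F) * (h : Matrix (Fin n) (Fin n) F) =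
      c • ((1 : Matrix (Fin n) (Fin n) F) + Matrix.single i j (-1 : F)).transpose *
        (h : Matrix (Fin n) (Fin n) F) := by
    rw [hc]
  rw [Matrix.mul_assoc, gl_inv_mul, Matrix.mul_one, Matrix.smul_mul, Matrix.transpose_add,
    Matrix.transpose_one, Matrix.transpose_single] at h2
  refine ⟨c, hc0, fun a b => ?_⟩
  rw [Matrix.mul_add, Matrix.mul_one, Matrix.add_mul, Matrix.one_mul] at h2
  have h3 := congrFun (congrFun h2 a) b
  simp only [Matrix.add_apply, Matrix.smul_apply, smul_eq_mul, Matrix.mul_apply,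
    Matrix.single_apply] at h3
  have e1 : ∑ x : Fin n, (h : Matrix (Fin n) (Fin n) F) a x * (if i = x ∧ j = b then (1 : F) else 0) =
      if j = b then (h : Matrix (Fin n) (Fin n) F) a i else 0 := by
    by_cases hjb : j = b
    · simp [hjb]
    · simp [hjb]
  have e2 : ∑ x : Fin n, (if j = a ∧ i = x then (-1 : F) else 0) *
      (h : Matrix (Fin n) (Fin n) F) x b =
      -(if j = a then (h : Matrix (Fin n) (Fin n) F) i b else 0) := by
    by_cases hja : j = a
    · simp [hja]
    · simp [hja]
  rw [e1, e2] at h3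
  rw [h3]
  ring

theorem Gam_ne_iota {n : ℕ} {F : Type*} [Field F] (hn : 3 ≤ n) (h : GL (Fin n) F) :
    (Gam : MulAut (Matrix.ProjectiveSpecialLinearGroup (Fin n) F)) ≠ iota h := by
  intro hG
  have hn0 : n ≠ 0 := by omega
  have hdet := gl_det_ne_zero h
  -- `h a i = 0` whenever `i ≠ j`, `a ≠ j`
  have hz : ∀ i j : Fin n, i ≠ j → ∀ a : Fin n, a ≠ j →
      (h : Matrix (Fin n) (Fin n) F) a i = 0 := by
    intro i j hij a haj
    obtain ⟨c, hc0, hc⟩ := key hn0 h hG i j hij
    have hja : ¬ j = a := fun e => haj e.symm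
    by_cases hc1 : c = 1
    · have := hc a j
      rw [if_pos rfl, if_neg hja, hc1] at this
      linear_combination this
    · exfalso
      apply hdet
      apply Matrix.det_eq_zero_of_row_eq_zero a
      have hc1' : 1 - c ≠ 0 := fun e => hc1 (by linear_combination -e)
      have hb : ∀ b : Fin n, b ≠ j → (h : Matrix (Fin n) (Fin n) F) a b = 0 := by
        intro b hbj
        have := hc a b
        rw [if_neg (fun e => hbj e.symm), if_neg hja, sub_zero, add_zero] at this
        have : (1 - c) * (h : Matrix (Fin n) (Fin n) F) a b = 0 := by linear_combination this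
        exact (mul_eq_zero.1 this).resolve_left hc1'
      intro b
      by_cases hbj : b = j
      · subst hbj
        have := hc a b
        rw [if_pos rfl, if_neg hja, sub_zero, hb i hij, add_zero] at this
        have : (1 - c) * (h : Matrix (Fin n) (Fin n) F) a b = 0 := by linear_combination this
        exact (mul_eq_zero.1 this).resolve_left hc1'
      · exact hb b hbj
  apply hdet
  apply Matrix.det_eq_zero_of_column_eq_zero (⟨0, by omega⟩ : Fin n)
  intro a
  by_cases ha : a = ⟨1, by omega⟩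
  · apply hz ⟨0, by omega⟩ ⟨2, by omega⟩ (by simp [Fin.ext_iff]) a
    rw [ha]
    simp [Fin.ext_iff]
  · exact hz ⟨0, by omega⟩ ⟨1, by omega⟩ (by simp [Fin.ext_iff]) a ha

end Cfsg.Agent.Lib.Helper53.GTGAM
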