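import Mathlib
import Cfsg.Agent.Lib.Helper53.GTCent

/-!
# Graph automorphisms `iota g * Gam` of `PSL_n(F)`: squares, conjugacy, centralisers
-/

set_option autoImplicit false

namespace Cfsg.Agent.Lib.Helper53.GT

open Matrix Cfsg.Agent.Lib.Helper53.AutPSL

/-- the quadratic function `v ↦ vᵀ N v` -/
def matQ {κ : Type} [Fintype κ] {F : Type*} [Field F] (N : Matrix κ κ F) (v : κ → F) : F :=
  v ⬝ᵥ (N *ᵥ v)

variable {n : ℕ} {F : Type*} [Field F]

theorem scalar_coe' (c : Fˣ) : ((GeneralLinearGroup.scalar (Fin n) c : GL (Fin n) F) :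
    Matrix (Fin n) (Fin n) F) = (c : F) • (1 : Matrix (Fin n) (Fin n) F) := by
  ext i j
  simp [Matrix.one_apply, Matrix.diagonal_apply]

/-- `iota g = iota g'` iff `g = c • g'` -/
theorem iota_eq_iff (hn : 2 ≤ n) (g g' : GL (Fin n) F) :
    iota g = iota g' ↔ ∃ c : Fˣ, (g : Matrix (Fin n) (Fin n) F) =
      (c : F) • (g' : Matrix (Fin n) (Fin n) F) := by
  have h1 : iota g = iota g' ↔ iota (g'⁻¹ * g) = 1 := by
    rw [map_mul, map_inv, inv_mul_eq_one, eq_comm]
  rw [h1, iota_eq_one_iff hn, GeneralLinearGroup.center_eq_range_scalar]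
  constructor
  · rintro ⟨c, hc⟩
    refine ⟨c, ?_⟩
    have e1 : g = g' * GeneralLinearGroup.scalar (Fin n) c := by
      rw [hc, mul_inv_cancel_left]
    have e2 := congrArg (fun u : GL (Fin n) F => (u : Matrix (Fin n) (Fin n) F)) e1
    simp only [Units.val_mul] at e2
    rw [scalar_coe', Matrix.mul_smul, Matrix.mul_one] at e2
    exact e2
  · rintro ⟨c, hc⟩
    refine ⟨c, ?_⟩
    rw [eq_inv_mul_iff_mul_eq]
    apply Units.ext
    rw [Units.val_mul, scalar_coe', Matrix.mul_smul, Matrix.mul_one, hc]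

theorem graph_iff (γ : MulAut (ProjectiveSpecialLinearGroup (Fin n) F)) :
    Cfsg.IsGraphAutClassPSL γ ↔ 3 ≤ n ∧ ∃ g : GL (Fin n) F, γ = iota g * Gam := by
  constructor
  · rintro ⟨hn, δ, γ', hδ, hγ', rfl⟩
    obtain ⟨g, rfl⟩ := (innerDiag_iff δ).1 hδ
    rw [invTransp_iff] at hγ'
    subst hγ'
    exact ⟨hn, g, rfl⟩
  · rintro ⟨hn, g, rfl⟩
    exact ⟨hn, iota g, Gam, (innerDiag_iff _).2 ⟨g, rfl⟩, (invTransp_iff _).2 rfl, rfl⟩

theorem sq_iota_Gam (g : GL (Fin n) F) :
    (iota g * Gam) * (iota g * Gam) = iota (g * gti g) := by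
  rw [mul_assoc, ← mul_assoc Gam, Gam_mul_iota, mul_assoc, Gam_mul_Gam, mul_one, ← map_mul]

theorem gti_inv (h : GL (Fin n) F) : gti h⁻¹ = (gti h)⁻¹ := by
  rw [eq_inv_iff_mul_eq_one, ← gti_mul, inv_mul_cancel]
  apply Units.ext
  simp [gti_coe]

theorem conj_iota_Gam (h g : GL (Fin n) F) :
    iota h * (iota g * Gam) * (iota h)⁻¹ = iota (h * g * (gti h)⁻¹) * Gam := by
  have e : Gam * (iota h)⁻¹ = iota ((gti h)⁻¹) * Gam := by
    rw [← map_inv, Gam_mul_iota, gti_inv]
  rw [mul_assoc, mul_assoc, e, ← mul_assoc, ← mul_assoc, ← map_mul, ← map_mul]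

theorem conj_coe (h g : GL (Fin n) F) :
    ((h * g * (gti h)⁻¹ : GL (Fin n) F) : Matrix (Fin n) (Fin n) F) =
      (h : Matrix (Fin n) (Fin n) F) * (g : Matrix (Fin n) (Fin n) F) *
        (h : Matrix (Fin n) (Fin n) F).transpose := by
  rw [Units.val_mul, Units.val_mul, gti_inv_coe]

theorem iota_Gam_eq_iff (hn : 2 ≤ n) (g g' : GL (Fin n) F) :
    iota g * Gam = iota g' * Gam ↔ ∃ c : Fˣ, (g : Matrix (Fin n) (Fin n) F) =
      (c : F) • (g' : Matrix (Fin n) (Fin n) F) := by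
  rw [mul_left_inj, iota_eq_iff hn]

/-- `Inndiag`-conjugacy of graph automorphisms is congruence up to scalars -/
theorem conj_iff (hn : 2 ≤ n) (g g' : GL (Fin n) F) :
    Cfsg.IsConjUnder (Cfsg.inndiagPSL n F) (iota g * Gam) (iota g' * Gam) ↔
      ∃ (h : GL (Fin n) F) (c : Fˣ), (h : Matrix (Fin n) (Fin n) F) *
        (g : Matrix (Fin n) (Fin n) F) * (h : Matrix (Fin n) (Fin n) F).transpose =
          (c : F) • (g' : Matrix (Fin n) (Fin n) F) := by
  constructor
  · rintro ⟨a, ha, he⟩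
    obtain ⟨h, rfl⟩ := (mem_inndiag a).1 ha
    rw [conj_iota_Gam, iota_Gam_eq_iff hn] at he
    obtain ⟨c, hc⟩ := he
    refine ⟨h, c⁻¹, ?_⟩
    rw [← conj_coe, hc, smul_smul, Units.val_inv_eq_inv_val, inv_mul_cancel₀ c.ne_zero, one_smul]
  · rintro ⟨h, c, hc⟩
    refine ⟨iota h, (mem_inndiag _).2 ⟨h, rfl⟩, ?_⟩
    rw [conj_iota_Gam, iota_Gam_eq_iff hn]
    refine ⟨c⁻¹, ?_⟩
    rw [conj_coe, hc, smul_smul, Units.val_inv_eq_inv_val, inv_mul_cancel₀ c.ne_zero, one_smul]

/-- the matrices commuting with `iota g * Gam` modulo scalars -/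
theorem mem_Ctil_iota_Gam (hn : 2 ≤ n) (g h : GL (Fin n) F) :
    h ∈ Ctil (iota g * Gam) ↔ ∃ c : Fˣ, (h : Matrix (Fin n) (Fin n) F) *
      (g : Matrix (Fin n) (Fin n) F) * (h : Matrix (Fin n) (Fin n) F).transpose =
        (c : F) • (g : Matrix (Fin n) (Fin n) F) := by
  rw [mem_Ctil]
  have h1 : iota g * Gam * iota h = iota h * (iota g * Gam) ↔
      iota h * (iota g * Gam) * (iota h)⁻¹ = iota g * Gam := by
    rw [mul_inv_eq_iff_eq_mul, eq_comm]
  rw [h1, conj_iota_Gam, iota_Gam_eq_iff hn, conj_coe]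

/-- the general centraliser map -/
noncomputable def ThetaX (x : MulAut (ProjectiveSpecialLinearGroup (Fin n) F)) :
    ↥(Ctil x) →* MulAut (ProjectiveSpecialLinearGroup (Fin n) F) :=
  iota.comp (Subgroup.subtype _)

theorem ThetaX_range (x : MulAut (ProjectiveSpecialLinearGroup (Fin n) F)) :
    (ThetaX x).range = Cfsg.inndiagPSL n F ⊓ Subgroup.centralizer {x} := by
  apply le_antisymm
  · rintro _ ⟨B, rfl⟩
    exact ⟨(mem_inndiag _).2 ⟨_, rfl⟩, B.2⟩
  · rintro β ⟨hβD, hβC⟩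
    obtain ⟨A, rfl⟩ := (mem_inndiag β).1 hβD
    exact ⟨⟨A, hβC⟩, rfl⟩

theorem ThetaX_ker (hn : 2 ≤ n) (x : MulAut (ProjectiveSpecialLinearGroup (Fin n) F)) :
    (ThetaX x).ker = (Cfsg.Geo.scalars (Fin n) F).subgroupOf (Ctil x) := by
  ext B
  rw [MonoidHom.mem_ker, Subgroup.mem_subgroupOf, scalars_eq_center]
  show iota (B : GL (Fin n) F) = 1 ↔ _
  rw [iota_eq_one_iff hn]

/-- the centraliser in `Inndiag` of any automorphism is `Ctil` modulo scalars -/
theorem nonempty_centEquivX (hn : 2 ≤ n) (x : MulAut (ProjectiveSpecialLinearGroup (Fin n) F)) :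
    Nonempty (↥(Cfsg.inndiagPSL n F ⊓ Subgroup.centralizer {x}) ≃* Cfsg.projQuot (Ctil x)) := by
  have e1 := MulEquiv.subgroupCongr (ThetaX_range x).symm
  have e2 := QuotientGroup.quotientKerEquivRange (ThetaX x)
  have e3 : ↥(Ctil x) ⧸ (ThetaX x).ker ≃*
      ↥(Ctil x) ⧸ (Cfsg.Geo.scalars (Fin n) F).subgroupOf (Ctil x) :=
    QuotientGroup.quotientMulEquivOfEq (ThetaX_ker hn x)
  exact ⟨e1.trans (e2.symm.trans e3)⟩

theorem bil_mulVec (N A : Matrix (Fin n) (Fin n) F) (u v : Fin n → F) :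
    (A *ᵥ u) ⬝ᵥ (N *ᵥ (A *ᵥ v)) = u ⬝ᵥ ((A.transpose * N * A) *ᵥ v) := by
  conv_rhs => rw [Matrix.mul_assoc, ← Matrix.mulVec_mulVec, Matrix.dotProduct_mulVec,
    Matrix.vecMul_transpose, ← Matrix.mulVec_mulVec]

theorem bil_symm (N : Matrix (Fin n) (Fin n) F) (hN : N.transpose = N) (u v : Fin n → F) :
    v ⬝ᵥ (N *ᵥ u) = u ⬝ᵥ (N *ᵥ v) := by
  rw [Matrix.dotProduct_mulVec, ← Matrix.mulVec_transpose, hN, dotProduct_comm]

theorem mem_sim_matQ (h2 : (2 : F) ≠ 0) (N : Matrix (Fin n) (Fin n) F) (hN : N.transpose = N)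
    (A : GL (Fin n) F) :
    A ∈ Cfsg.Geo.quadSimilarityGroup (F := F) (matQ N) ↔
      ∃ c : Fˣ, (A : Matrix (Fin n) (Fin n) F).transpose * N * (A : Matrix (Fin n) (Fin n) F) =
        (c : F) • N := by
  constructor
  · rintro ⟨c, hc⟩
    refine ⟨c, ?_⟩
    have hpol : ∀ u v : Fin n → F, ((A : Matrix (Fin n) (Fin n) F) *ᵥ u) ⬝ᵥ
        (N *ᵥ ((A : Matrix (Fin n) (Fin n) F) *ᵥ v)) = (c : F) * (u ⬝ᵥ (N *ᵥ v)) := by
      intro u v
      have h1 := hc (u + v)
      have h2' := hc u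
      have h3 := hc v
      simp only [matQ, Matrix.mulVec_add, add_dotProduct, dotProduct_add] at h1 h2' h3
      rw [bil_symm N hN ((A : Matrix (Fin n) (Fin n) F) *ᵥ u) ((A : Matrix (Fin n) (Fin n) F) *ᵥ v),
        bil_symm N hN u v] at h1
      have : (2 : F) * (((A : Matrix (Fin n) (Fin n) F) *ᵥ u) ⬝ᵥ
          (N *ᵥ ((A : Matrix (Fin n) (Fin n) F) *ᵥ v))) = 2 * ((c : F) * (u ⬝ᵥ (N *ᵥ v))) := by
        linear_combination h1 - h2' - h3
      exact mul_left_cancel₀ h2 this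
    ext a b
    have := hpol (Pi.single a 1) (Pi.single b 1)
    rw [bil_mulVec] at this
    simpa [Matrix.one_apply, Pi.single_apply, eq_comm] using this
  · rintro ⟨c, hc⟩
    refine ⟨c, fun v => ?_⟩
    show ((A : Matrix (Fin n) (Fin n) F) *ᵥ v) ⬝ᵥ (N *ᵥ ((A : Matrix (Fin n) (Fin n) F) *ᵥ v)) =
      (c : F) * (v ⬝ᵥ (N *ᵥ v))
    rw [bil_mulVec, hc, Matrix.smul_mulVec, dotProduct_smul, smul_eq_mul]

theorem inv_transpose_symm (g : GL (Fin n) F)
    (hg : (g : Matrix (Fin n) (Fin n) F).transpose = (g : Matrix (Fin n) (Fin n) F)) :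
    ((g⁻¹ : GL (Fin n) F) : Matrix (Fin n) (Fin n) F).transpose =
      ((g⁻¹ : GL (Fin n) F) : Matrix (Fin n) (Fin n) F) := by
  have e : ((g⁻¹ : GL (Fin n) F) : Matrix (Fin n) (Fin n) F).transpose *
      (g : Matrix (Fin n) (Fin n) F) = 1 := by
    conv_lhs => rw [← hg]
    rw [← Matrix.transpose_mul, gl_mul_inv, Matrix.transpose_one]
  calc ((g⁻¹ : GL (Fin n) F) : Matrix (Fin n) (Fin n) F).transpose
      = ((g⁻¹ : GL (Fin n) F) : Matrix (Fin n) (Fin n) F).transpose *
          ((g : Matrix (Fin n) (Fin n) F) * ((g⁻¹ : GL (Fin n) F) : Matrix (Fin n) (Fin n) F)) := by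
        rw [gl_mul_inv, Matrix.mul_one]
    _ = _ := by rw [← Matrix.mul_assoc, e, Matrix.one_mul]

/-- for symmetric `g` the centraliser of `iota g * Gam` is the similarity group of `g⁻¹` -/
theorem Ctil_eq_sim (h2 : (2 : F) ≠ 0) (hn : 2 ≤ n) (g : GL (Fin n) F)
    (hg : (g : Matrix (Fin n) (Fin n) F).transpose = (g : Matrix (Fin n) (Fin n) F)) :
    Ctil (iota g * Gam) = Cfsg.Geo.quadSimilarityGroup (F := F)
      (matQ ((g⁻¹ : GL (Fin n) F) : Matrix (Fin n) (Fin n) F)) := by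
  ext h
  rw [mem_Ctil_iota_Gam hn, mem_sim_matQ h2 _ (inv_transpose_symm g hg)]
  constructor
  · rintro ⟨c, hc⟩
    refine ⟨c, ?_⟩
    -- `h g (hᵀ N h) = c h`
    have e1 : (h : Matrix (Fin n) (Fin n) F) * (g : Matrix (Fin n) (Fin n) F) *
        ((h : Matrix (Fin n) (Fin n) F).transpose *
          ((g⁻¹ : GL (Fin n) F) : Matrix (Fin n) (Fin n) F) * (h : Matrix (Fin n) (Fin n) F)) =
        (c : F) • (h : Matrix (Fin n) (Fin n) F) := by
      calc _ = ((h : Matrix (Fin n) (Fin n) F) * (g : Matrix (Fin n) (Fin n) F) *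
            (h : Matrix (Fin n) (Fin n) F).transpose) *
            (((g⁻¹ : GL (Fin n) F) : Matrix (Fin n) (Fin n) F) *
              (h : Matrix (Fin n) (Fin n) F)) := by
            simp only [Matrix.mul_assoc]
        _ = _ := by
            rw [hc, Matrix.smul_mul, ← Matrix.mul_assoc, gl_mul_inv, Matrix.one_mul]
    have e2 : (g : Matrix (Fin n) (Fin n) F) *
        ((h : Matrix (Fin n) (Fin n) F).transpose *
          ((g⁻¹ : GL (Fin n) F) : Matrix (Fin n) (Fin n) F) * (h : Matrix (Fin n) (Fin n) F)) =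
        (c : F) • (1 : Matrix (Fin n) (Fin n) F) := by
      have := congrArg (fun M => ((h⁻¹ : GL (Fin n) F) : Matrix (Fin n) (Fin n) F) * M) e1
      simp only [Matrix.mul_smul] at this
      rw [gl_inv_mul, Matrix.mul_assoc, ← Matrix.mul_assoc _ (h : Matrix (Fin n) (Fin n) F),
        gl_inv_mul, Matrix.one_mul] at this
      exact this
    have := congrArg (fun M => ((g⁻¹ : GL (Fin n) F) : Matrix (Fin n) (Fin n) F) * M) e2
    simp only [Matrix.mul_smul, Matrix.mul_one] at this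
    rw [← Matrix.mul_assoc, gl_inv_mul, Matrix.one_mul] at this
    exact this
  · rintro ⟨c, hc⟩
    refine ⟨c, ?_⟩
    -- `(h g hᵀ) N h = c h`
    have e1 : ((h : Matrix (Fin n) (Fin n) F) * (g : Matrix (Fin n) (Fin n) F) *
        (h : Matrix (Fin n) (Fin n) F).transpose) *
        (((g⁻¹ : GL (Fin n) F) : Matrix (Fin n) (Fin n) F) * (h : Matrix (Fin n) (Fin n) F)) =
        (c : F) • (h : Matrix (Fin n) (Fin n) F) := by
      calc _ = (h : Matrix (Fin n) (Fin n) F) * (g : Matrix (Fin n) (Fin n) F) *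
            ((h : Matrix (Fin n) (Fin n) F).transpose *
              ((g⁻¹ : GL (Fin n) F) : Matrix (Fin n) (Fin n) F) *
              (h : Matrix (Fin n) (Fin n) F)) := by
            simp only [Matrix.mul_assoc]
        _ = _ := by
            rw [hc, Matrix.mul_smul, Matrix.mul_assoc, gl_mul_inv, Matrix.mul_one]
    have e2 : ((h : Matrix (Fin n) (Fin n) F) * (g : Matrix (Fin n) (Fin n) F) *
        (h : Matrix (Fin n) (Fin n) F).transpose) *
        ((g⁻¹ : GL (Fin n) F) : Matrix (Fin n) (Fin n) F) =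
        (c : F) • (1 : Matrix (Fin n) (Fin n) F) := by
      have := congrArg (fun M => M * ((h⁻¹ : GL (Fin n) F) : Matrix (Fin n) (Fin n) F)) e1
      simp only [Matrix.smul_mul] at this
      rw [gl_mul_inv, ← Matrix.mul_assoc, Matrix.mul_assoc _ (h : Matrix (Fin n) (Fin n) F),
        gl_mul_inv, Matrix.mul_one] at this
      exact this
    have := congrArg (fun M => M * (g : Matrix (Fin n) (Fin n) F)) e2
    simp only [Matrix.smul_mul, Matrix.one_mul] at this
    rw [Matrix.mul_assoc, gl_inv_mul, Matrix.mul_one] at this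
    exact this

/-- a graph automorphism `iota g * Gam` with `g` symmetric or skew has order two -/
theorem order_two (hn : 2 ≤ n) (hGam : ∀ h : GL (Fin n) F,
    (Gam : MulAut (ProjectiveSpecialLinearGroup (Fin n) F)) ≠ iota h) (g : GL (Fin n) F)
    (hg : (g : Matrix (Fin n) (Fin n) F).transpose = (g : Matrix (Fin n) (Fin n) F) ∨
      (g : Matrix (Fin n) (Fin n) F).transpose = -(g : Matrix (Fin n) (Fin n) F)) :
    orderOf (iota g * Gam) = 2 := by
  apply orderOf_eq_prime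
  · rw [pow_two, sq_iota_Gam, ← map_one iota, iota_eq_iff hn]
    have key : ∀ ε : Fˣ, (ε : F) * ε = 1 →
        (g : Matrix (Fin n) (Fin n) F).transpose = (ε : F) • (g : Matrix (Fin n) (Fin n) F) →
        ((g * gti g : GL (Fin n) F) : Matrix (Fin n) (Fin n) F) =
          (ε : F) • ((1 : GL (Fin n) F) : Matrix (Fin n) (Fin n) F) := by
      intro ε hε hgε
      have e1 : ((g⁻¹ : GL (Fin n) F) : Matrix (Fin n) (Fin n) F).transpose *
          (g : Matrix (Fin n) (Fin n) F).transpose = 1 := by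
        rw [← Matrix.transpose_mul, gl_mul_inv, Matrix.transpose_one]
      rw [hgε, Matrix.mul_smul] at e1
      have e2 : ((g⁻¹ : GL (Fin n) F) : Matrix (Fin n) (Fin n) F).transpose *
          (g : Matrix (Fin n) (Fin n) F) = (ε : F) • (1 : Matrix (Fin n) (Fin n) F) := by
        have := congrArg (fun M : Matrix (Fin n) (Fin n) F => (ε : F) • M) e1
        simp only [smul_smul, hε, one_smul] at this
        exact this
      have e3 : ((g⁻¹ : GL (Fin n) F) : Matrix (Fin n) (Fin n) F).transpose =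
          (ε : F) • ((g⁻¹ : GL (Fin n) F) : Matrix (Fin n) (Fin n) F) := by
        have := congrArg (fun M => M * ((g⁻¹ : GL (Fin n) F) : Matrix (Fin n) (Fin n) F)) e2
        simp only [Matrix.smul_mul, Matrix.one_mul] at this
        rw [Matrix.mul_assoc, gl_mul_inv, Matrix.mul_one] at this
        exact this
      rw [Units.val_mul, gti_coe, e3, Matrix.mul_smul, gl_mul_inv, Units.val_one]
    rcases hg with hg | hg
    · exact ⟨1, key 1 (by simp) (by simpa using hg)⟩
    · exact ⟨-1, key (-1) (by simp) (by simpa using hg)⟩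
  · intro h
    apply hGam g⁻¹
    rw [map_inv]
    exact eq_inv_of_mul_eq_one_right h

/-- a graph automorphism of order two comes from a symmetric or a skew matrix -/
theorem sym_of_sq (hn : 2 ≤ n) (g : GL (Fin n) F) (h : (iota g * Gam) ^ 2 = 1) :
    (g : Matrix (Fin n) (Fin n) F).transpose = (g : Matrix (Fin n) (Fin n) F) ∨
      (g : Matrix (Fin n) (Fin n) F).transpose = -(g : Matrix (Fin n) (Fin n) F) := by
  rw [pow_two, sq_iota_Gam, ← map_one iota, iota_eq_iff hn] at h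
  obtain ⟨c, hc⟩ := h
  rw [Units.val_mul, gti_coe, Units.val_one] at hc
  -- `g = c • gᵀ`
  have e1 : (g : Matrix (Fin n) (Fin n) F) =
      (c : F) • (g : Matrix (Fin n) (Fin n) F).transpose := by
    have := congrArg (fun M => M * (g : Matrix (Fin n) (Fin n) F).transpose) hc
    simp only [Matrix.smul_mul, Matrix.one_mul] at this
    rw [Matrix.mul_assoc, ← Matrix.transpose_mul, gl_mul_inv, Matrix.transpose_one,
      Matrix.mul_one] at this
    exact this
  have e2 : (g : Matrix (Fin n) (Fin n) F).transpose =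
      (c : F) • (g : Matrix (Fin n) (Fin n) F) := by
    have := congrArg Matrix.transpose e1
    rw [Matrix.transpose_smul, Matrix.transpose_transpose] at this
    exact this
  have e3 : ((c : F) * c) • (1 : Matrix (Fin n) (Fin n) F) = 1 := by
    have e4 : (g : Matrix (Fin n) (Fin n) F) = ((c : F) * c) • (g : Matrix (Fin n) (Fin n) F) := by
      conv_lhs => rw [e1, e2, smul_smul]
    have := congrArg (fun M => M * ((g⁻¹ : GL (Fin n) F) : Matrix (Fin n) (Fin n) F)) e4
    simp only [Matrix.smul_mul] at this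
    rw [gl_mul_inv] at this
    exact this.symm
  have hc2 : (c : F) * c = 1 := by
    have := congrFun (congrFun e3 ⟨0, by omega⟩) ⟨0, by omega⟩
    simpa using this
  have hc' : (c : F) = 1 ∨ (c : F) = -1 := by
    have : ((c : F) - 1) * ((c : F) + 1) = 0 := by linear_combination hc2
    rcases mul_eq_zero.1 this with h | h
    · left; linear_combination h
    · right; linear_combination h
  rcases hc' with h | h
  · left
    rw [e2, h, one_smul]
  · right
    rw [e2, h, neg_one_smul]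

end Cfsg.Agent.Lib.Helper53.GT
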