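import Mathlib
import Cfsg.Agent.Lib.Helper53.GTGraph
import Cfsg.Agent.Lib.Helper54.GTPGO
import Cfsg.Agent.Lib.Helper78.GTSYM
import Cfsg.Agent.Lib.Helper2.GTPLUS
import Cfsg.Agent.Lib.Helper13.GTMINUS
import Cfsg.Agent.Lib.Helper69.GTSKEW
import Cfsg.Agent.Lib.Helper54.GTCSP
import Cfsg.Agent.Lib.Helper53.GTGAM

set_option autoImplicit false

namespace Cfsg.Agent.Lib.Helper53.GT2Main

open Matrix Cfsg.Agent.Lib.Helper53.AutPSL Cfsg.Agent.Lib.Helper53.GT

/-! # PIECES -/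







/-! # ASSEMBLY -/

/-- the index bijection -/
def tau (m : ℕ) : Fin m ⊕ Fin m ≃ Fin (2 * m) :=
  finSumFinEquiv.trans (finCongr (two_mul m).symm)

/-- the standard alternating matrix on `Fin (2m)` -/
def Jmat (m : ℕ) (F : Type*) [Field F] : Matrix (Fin (2 * m)) (Fin (2 * m)) F :=
  Matrix.reindex (tau m) (tau m) (Matrix.J (Fin m) F)

theorem Jmat_transpose (m : ℕ) (F : Type*) [Field F] : (Jmat m F).transpose = -Jmat m F := by
  ext i j
  simp only [Jmat, Matrix.reindex_apply, Matrix.transpose_apply, Matrix.submatrix_apply,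
    Matrix.neg_apply]
  have := congrFun (congrFun (Matrix.J_transpose (Fin m) F) ((tau m).symm i)) ((tau m).symm j)
  simpa using this

theorem Jmat_det (m : ℕ) (F : Type*) [Field F] : (Jmat m F).det ≠ 0 := by
  rw [Jmat, Matrix.det_reindex_self]
  exact (Matrix.isUnit_det_J (Fin m) F).ne_zero

/-- the diagonal matrix `diag(d, 1, …, 1)` -/
def Dmat {n : ℕ} (hn : 0 < n) {F : Type*} [Field F] (d : F) : Matrix (Fin n) (Fin n) F :=
  Matrix.diagonal (Function.update (fun _ => (1 : F)) ⟨0, hn⟩ d)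

theorem Dmat_det {n : ℕ} (hn : 0 < n) {F : Type*} [Field F] (d : F) : (Dmat hn d).det = d := by
  rw [Dmat, Matrix.det_diagonal, Finset.prod_update_of_mem (Finset.mem_univ _)]
  simp

theorem Dmat_transpose {n : ℕ} (hn : 0 < n) {F : Type*} [Field F] (d : F) :
    (Dmat hn d).transpose = Dmat hn d := Matrix.diagonal_transpose _

theorem nonsq_mul {F : Type*} [Field F] [Fintype F] (h2 : (2 : F) ≠ 0) {a b : F}
    (ha : ¬ IsSquare a) (hb : ¬ IsSquare b) : IsSquare (a * b) := by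
  classical
  have ha0 : a ≠ 0 := by
    rintro rfl
    exact ha ⟨0, by simp⟩
  have hb0 : b ≠ 0 := by
    rintro rfl
    exact hb ⟨0, by simp⟩
  have hc : ringChar F ≠ 2 := by
    intro h
    apply h2
    have := CharP.cast_eq_zero F (ringChar F)
    rw [h] at this
    exact_mod_cast this
  rw [← quadraticChar_one_iff_isSquare (mul_ne_zero ha0 hb0), map_mul,
    quadraticChar_neg_one_iff_not_isSquare.2 ha, quadraticChar_neg_one_iff_not_isSquare.2 hb]
  norm_num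

theorem inv_det {n : ℕ} {F : Type*} [Field F] (g : GL (Fin n) F) :
    ((g⁻¹ : GL (Fin n) F) : Matrix (Fin n) (Fin n) F).det =
      ((g : Matrix (Fin n) (Fin n) F).det)⁻¹ := by
  have h : ((g⁻¹ : GL (Fin n) F) : Matrix (Fin n) (Fin n) F).det *
      (g : Matrix (Fin n) (Fin n) F).det = 1 := by
    rw [← Matrix.det_mul, gl_inv_mul, Matrix.det_one]
  exact eq_inv_of_mul_eq_one_left h

theorem main_gt2 {F : Type*} [Field F] [Fintype F] (hodd : Odd (Fintype.card F)) {n m : ℕ}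
    (hm : 2 ≤ m) (hnm : n = 2 * m) :
    ∃ (γ₁ γ₂ γ₃ : MulAut (Matrix.ProjectiveSpecialLinearGroup (Fin n) F)) (a b : F),
      (∀ z₁ z₂ : F, z₁ ^ 2 + a * z₁ * z₂ + b * z₂ ^ 2 = 0 → z₁ = 0 ∧ z₂ = 0) ∧
      Cfsg.IsGraphAutClassPSL γ₁ ∧ orderOf γ₁ = 2 ∧ Cfsg.IsGraphAutClassPSL γ₂ ∧ orderOf γ₂ = 2 ∧
      Cfsg.IsGraphAutClassPSL γ₃ ∧ orderOf γ₃ = 2 ∧
      ¬ Cfsg.IsConjUnder (Cfsg.inndiagPSL n F) γ₁ γ₂ ∧
      ¬ Cfsg.IsConjUnder (Cfsg.inndiagPSL n F) γ₁ γ₃ ∧
      ¬ Cfsg.IsConjUnder (Cfsg.inndiagPSL n F) γ₂ γ₃ ∧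
      (∀ γ : MulAut (Matrix.ProjectiveSpecialLinearGroup (Fin n) F),
        Cfsg.IsGraphAutClassPSL γ → orderOf γ = 2 →
          Cfsg.IsConjUnder (Cfsg.inndiagPSL n F) γ₁ γ ∨
          Cfsg.IsConjUnder (Cfsg.inndiagPSL n F) γ₂ γ ∨
          Cfsg.IsConjUnder (Cfsg.inndiagPSL n F) γ₃ γ) ∧
      Nonempty (↥(Cfsg.inndiagPSL n F ⊓ Subgroup.centralizer {γ₁}) ≃* Cfsg.PGSp m F) ∧
      Nonempty (↥(Cfsg.inndiagPSL n F ⊓ Subgroup.centralizer {γ₂}) ≃*
        Cfsg.PGO F (Cfsg.quadFormPlus m F)) ∧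
      Nonempty (↥(Cfsg.inndiagPSL n F ⊓ Subgroup.centralizer {γ₃}) ≃*
        Cfsg.PGO F (Cfsg.quadFormMinus (m - 1) F a b)) := by
  subst hnm
  have hc2 : ringChar F ≠ 2 := by
    intro hc
    have h3 := FiniteField.even_card_of_char_two hc
    exact (Nat.not_even_iff_odd.2 hodd) (Nat.even_iff.2 h3)
  have h2 : (2 : F) ≠ 0 := by
    intro h
    apply hc2
    have : ringChar F ∣ 2 := (ringChar.spec F 2).1 (by exact_mod_cast h)
    exact (Nat.prime_dvd_prime_iff_eq (CharP.char_is_prime F (ringChar F)) Nat.prime_two).1 this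
  have hn : 2 ≤ 2 * m := by omega
  have hn3 : 3 ≤ 2 * m := by omega
  have hn0 : 0 < 2 * m := by omega
  obtain ⟨ε, hε⟩ := FiniteField.exists_nonsquare hc2
  have hε0 : ε ≠ 0 := by
    rintro rfl
    exact hε ⟨0, by simp⟩
  set s : F := (-1) ^ m with hs
  have hss : s * s = 1 := by
    rw [hs, ← pow_add, ← two_mul, pow_mul]
    simp
  have hs0 : s ≠ 0 := by
    intro h
    rw [h, zero_mul] at hss
    exact zero_ne_one hss
  -- the three matrices
  let g₁ : GL (Fin (2 * m)) F := GeneralLinearGroup.mkOfDetNeZero (Jmat m F) (Jmat_det m F)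
  let g₂ : GL (Fin (2 * m)) F := GeneralLinearGroup.mkOfDetNeZero (Dmat hn0 s)
    (by rw [Dmat_det]; exact hs0)
  let g₃ : GL (Fin (2 * m)) F := GeneralLinearGroup.mkOfDetNeZero (Dmat hn0 (s * ε))
    (by rw [Dmat_det]; exact mul_ne_zero hs0 hε0)
  have hg₁ : (g₁ : Matrix (Fin (2 * m)) (Fin (2 * m)) F) = Jmat m F := rfl
  have hg₂ : (g₂ : Matrix (Fin (2 * m)) (Fin (2 * m)) F) = Dmat hn0 s := rfl
  have hg₃ : (g₃ : Matrix (Fin (2 * m)) (Fin (2 * m)) F) = Dmat hn0 (s * ε) := rfl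
  have hGam := Cfsg.Agent.Lib.Helper53.GTGAM.Gam_ne_iota (F := F) hn3
  -- symmetric matrices are not congruent to skew ones
  have hskew : ∀ (d : F), d ≠ 0 → ∀ (h : GL (Fin (2 * m)) F) (c : Fˣ),
      (h : Matrix (Fin (2 * m)) (Fin (2 * m)) F) * Jmat m F *
        (h : Matrix (Fin (2 * m)) (Fin (2 * m)) F).transpose ≠ (c : F) • Dmat hn0 d := by
    intro d hd h c he
    have e1 := congrArg Matrix.transpose he
    have e0 : ((h : Matrix (Fin (2 * m)) (Fin (2 * m)) F) * Jmat m F *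
        (h : Matrix (Fin (2 * m)) (Fin (2 * m)) F).transpose).transpose =
        -((h : Matrix (Fin (2 * m)) (Fin (2 * m)) F) * Jmat m F *
        (h : Matrix (Fin (2 * m)) (Fin (2 * m)) F).transpose) := by
      rw [Matrix.transpose_mul, Matrix.transpose_mul, Matrix.transpose_transpose, Jmat_transpose]
      simp [Matrix.mul_assoc]
    rw [e0, he, Matrix.transpose_smul, Dmat_transpose] at e1
    have e2 : (2 : F) • ((c : F) • Dmat hn0 d) = 0 := by
      rw [two_smul]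
      nth_rewrite 1 [← e1]
      exact neg_add_cancel _
    have e3 : Dmat hn0 d = 0 := by
      rw [smul_smul] at e2
      exact (smul_eq_zero.1 e2).resolve_left (mul_ne_zero h2 c.ne_zero)
    have e4 := Dmat_det hn0 d
    haveI : Nonempty (Fin (2 * m)) := ⟨⟨0, hn0⟩⟩
    rw [e3, Matrix.det_zero] at e4
    exact hd e4.symm
  refine ⟨iota g₁ * Gam, iota g₂ * Gam, iota g₃ * Gam, 0, -ε, ?_, (graph_iff _).2 ⟨hn3, g₁, rfl⟩,
    order_two hn hGam g₁ (Or.inr (by rw [hg₁, Jmat_transpose])), (graph_iff _).2 ⟨hn3, g₂, rfl⟩,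
    order_two hn hGam g₂ (Or.inl (by rw [hg₂, Dmat_transpose])), (graph_iff _).2 ⟨hn3, g₃, rfl⟩,
    order_two hn hGam g₃ (Or.inl (by rw [hg₃, Dmat_transpose])), ?_, ?_, ?_, ?_, ?_, ?_, ?_⟩
  · -- anisotropy
    intro z₁ z₂ hz
    have hz' : z₁ ^ 2 = ε * z₂ ^ 2 := by linear_combination hz
    have hz2 : z₂ = 0 := by
      by_contra hne
      apply hε
      refine ⟨z₁ / z₂, ?_⟩
      field_simp
      linear_combination -hz'
    refine ⟨?_, hz2⟩
    rw [hz2] at hz'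
    have : z₁ ^ 2 = 0 := by rw [hz']; ring
    exact pow_eq_zero_iff (two_ne_zero) |>.1 this
  · rw [conj_iff hn]
    rintro ⟨h, c, he⟩
    exact hskew s hs0 h c he
  · rw [conj_iff hn]
    rintro ⟨h, c, he⟩
    exact hskew (s * ε) (mul_ne_zero hs0 hε0) h c he
  · rw [conj_iff hn]
    rintro ⟨h, c, he⟩
    rw [hg₂, hg₃] at he
    have e1 := congrArg Matrix.det he
    rw [Matrix.det_mul, Matrix.det_mul, Matrix.det_transpose, Matrix.det_smul, Dmat_det, Dmat_det,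
      Fintype.card_fin] at e1
    apply hε
    refine ⟨(h : Matrix (Fin (2 * m)) (Fin (2 * m)) F).det / (c : F) ^ m, ?_⟩
    have hcm : (c : F) ^ m ≠ 0 := pow_ne_zero _ c.ne_zero
    field_simp
    have : ε * ((c : F) ^ m) ^ 2 * (s * s) =
        (h : Matrix (Fin (2 * m)) (Fin (2 * m)) F).det ^ 2 * (s * s) := by
      linear_combination (-s) * e1
    rw [hss, mul_one, mul_one] at this
    exact this
  · -- exhaustiveness
    intro γ hγ hγ2
    obtain ⟨-, g, rfl⟩ := (graph_iff γ).1 hγ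
    have hsq : (iota g * Gam) ^ 2 = 1 := by
      have := pow_orderOf_eq_one (iota g * Gam)
      rwa [hγ2] at this
    have hdet := gl_det_ne_zero g
    rcases sym_of_sq hn g hsq with hsym | hskw
    · by_cases hx : IsSquare (s * (g : Matrix (Fin (2 * m)) (Fin (2 * m)) F).det)
      · right; left
        obtain ⟨h, hh⟩ := Cfsg.Agent.Lib.Helper78.GTSYM.sym_congr h2 (Dmat hn0 s) (g : Matrix (Fin (2 * m)) (Fin (2 * m)) F)
          (Dmat_transpose hn0 s) hsym (by rw [Dmat_det]; exact hs0) hdet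
          (by rw [Dmat_det]; exact hx)
        rw [conj_iff hn]
        exact ⟨h, 1, by rw [hg₂, hh, Units.val_one, one_smul]⟩
      · right; right
        have hx' : IsSquare (s * ε * (g : Matrix (Fin (2 * m)) (Fin (2 * m)) F).det) := by
          have := nonsq_mul h2 hx hε
          have e : s * ε * (g : Matrix (Fin (2 * m)) (Fin (2 * m)) F).det =
              s * (g : Matrix (Fin (2 * m)) (Fin (2 * m)) F).det * ε := by ring
          rw [e]
          exact this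
        obtain ⟨h, hh⟩ := Cfsg.Agent.Lib.Helper78.GTSYM.sym_congr h2 (Dmat hn0 (s * ε))
          (g : Matrix (Fin (2 * m)) (Fin (2 * m)) F)
          (Dmat_transpose hn0 _) hsym (by rw [Dmat_det]; exact mul_ne_zero hs0 hε0) hdet
          (by rw [Dmat_det]; exact hx')
        rw [conj_iff hn]
        exact ⟨h, 1, by rw [hg₃, hh, Units.val_one, one_smul]⟩
    · left
      obtain ⟨h, hh⟩ := Cfsg.Agent.Lib.Helper69.GTSKEW.skew_congr h2 m (tau m)
        (g : Matrix (Fin (2 * m)) (Fin (2 * m)) F) hskw hdet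
      rw [conj_iff hn]
      refine ⟨h⁻¹, 1, ?_⟩
      rw [hg₁, Units.val_one, one_smul]
      show ((h⁻¹ : GL (Fin (2 * m)) F) : Matrix (Fin (2 * m)) (Fin (2 * m)) F) * Jmat m F *
        ((h⁻¹ : GL (Fin (2 * m)) F) : Matrix (Fin (2 * m)) (Fin (2 * m)) F).transpose = _
      have hJ : Jmat m F = (h : Matrix (Fin (2 * m)) (Fin (2 * m)) F) *
          (g : Matrix (Fin (2 * m)) (Fin (2 * m)) F) *
          (h : Matrix (Fin (2 * m)) (Fin (2 * m)) F).transpose := hh.symm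
      rw [hJ]
      have e1 : (h : Matrix (Fin (2 * m)) (Fin (2 * m)) F).transpose *
          ((h⁻¹ : GL (Fin (2 * m)) F) : Matrix (Fin (2 * m)) (Fin (2 * m)) F).transpose = 1 := by
        rw [← Matrix.transpose_mul, gl_inv_mul, Matrix.transpose_one]
      calc _ = (((h⁻¹ : GL (Fin (2 * m)) F) : Matrix (Fin (2 * m)) (Fin (2 * m)) F) *
            (h : Matrix (Fin (2 * m)) (Fin (2 * m)) F)) *
            (g : Matrix (Fin (2 * m)) (Fin (2 * m)) F) *
            ((h : Matrix (Fin (2 * m)) (Fin (2 * m)) F).transpose *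
            ((h⁻¹ : GL (Fin (2 * m)) F) : Matrix (Fin (2 * m)) (Fin (2 * m)) F).transpose) := by
            simp only [Matrix.mul_assoc]
        _ = _ := by rw [e1, gl_inv_mul, Matrix.one_mul, Matrix.mul_one]
  · -- centraliser of γ₁
    obtain ⟨E⟩ := nonempty_centEquivX hn (iota g₁ * Gam)
    obtain ⟨E2⟩ := Cfsg.Agent.Lib.Helper54.GTCSP.cent_symp m (tau m) (Ctil (iota g₁ * Gam))
      (fun h => mem_Ctil_iota_Gam hn g₁ h)
    exact ⟨E.trans E2⟩
  · -- centraliser of γ₂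
    obtain ⟨E⟩ := nonempty_centEquivX hn (iota g₂ * Gam)
    rw [Ctil_eq_sim h2 hn g₂ (by rw [hg₂, Dmat_transpose])] at E
    have hNs := inv_transpose_symm g₂ (by rw [hg₂, Dmat_transpose])
    have hNd : ((g₂⁻¹ : GL (Fin (2 * m)) F) : Matrix (Fin (2 * m)) (Fin (2 * m)) F).det = s⁻¹ := by
      rw [inv_det, hg₂, Dmat_det]
    obtain ⟨e, he⟩ := Cfsg.Agent.Lib.Helper2.GTPLUS.form_plus h2 m _ hNs (by rw [hNd]; exact inv_ne_zero hs0)
      (by rw [hNd, mul_inv_cancel₀ hs0]; exact ⟨1, by simp⟩)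
    obtain ⟨E2⟩ := Cfsg.Agent.Lib.Helper54.GTPGO.pgo_congr
      (matQ ((g₂⁻¹ : GL (Fin (2 * m)) F) : Matrix (Fin (2 * m)) (Fin (2 * m)) F))
      (Cfsg.quadFormPlus m F) e he
    exact ⟨E.trans E2⟩
  · -- centraliser of γ₃
    obtain ⟨k, rfl⟩ : ∃ k, m = k + 1 := ⟨m - 1, by omega⟩
    obtain ⟨E⟩ := nonempty_centEquivX hn (iota g₃ * Gam)
    rw [Ctil_eq_sim h2 hn g₃ (by rw [hg₃, Dmat_transpose])] at E
    have hNs := inv_transpose_symm g₃ (by rw [hg₃, Dmat_transpose])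
    have hNd : ((g₃⁻¹ : GL (Fin (2 * (k + 1))) F) :
        Matrix (Fin (2 * (k + 1))) (Fin (2 * (k + 1))) F).det = (s * ε)⁻¹ := by
      rw [inv_det, hg₃, Dmat_det]
    obtain ⟨e, he⟩ := Cfsg.Agent.Lib.Helper13.GTMINUS.form_minus h2 k _ hNs
      (by rw [hNd]; exact inv_ne_zero (mul_ne_zero hs0 hε0)) 0 (-ε)
      (by
        have : (0 : F) ^ 2 - 4 * -ε = 2 * 2 * ε := by ring
        rw [this]
        exact mul_ne_zero (mul_ne_zero h2 h2) hε0)
      (by
        rw [hNd]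
        refine ⟨2, ?_⟩
        rw [← hs]
        field_simp
        ring)
    obtain ⟨E2⟩ := Cfsg.Agent.Lib.Helper54.GTPGO.pgo_congr
      (matQ ((g₃⁻¹ : GL (Fin (2 * (k + 1))) F) :
        Matrix (Fin (2 * (k + 1))) (Fin (2 * (k + 1))) F))
      (Cfsg.quadFormMinus k F 0 (-ε)) e he
    exact ⟨E.trans E2⟩

end Cfsg.Agent.Lib.Helper53.GT2Main
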