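import Mathlib
import Cfsg.Agent.Lib.Helper53.GT2Main
import Cfsg.Agent.Lib.Helper53.CycIndex
import Cfsg.Agent.Lib.Helper21.MFABS
import Cfsg.Agent.Lib.Helper7.GOPlusOrder
import Cfsg.Agent.Lib.Helper7.GOMinusOrder
import Cfsg.Agent.S0245
import Cfsg.Agent.Lib.Helper34.GT3SKD
import Cfsg.Agent.Lib.Helper29.GT3SYD
import Cfsg.Agent.Lib.Helper67.GT3CSP
import Cfsg.Agent.Lib.Helper73.GT3PGO
import Cfsg.Agent.Lib.Helper85.GT3ARITH

set_option autoImplicit false

namespace Cfsg.Agent.Lib.Helper53.GT3Main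

open Matrix Cfsg.Agent.Lib.Helper53.AutPSL Cfsg.Agent.Lib.Helper53.GT
  Cfsg.Agent.Lib.Helper53.GT2Main

/-! # PIECES -/






/-! # ASSEMBLY -/

section
variable {n : ℕ} {F : Type*} [Field F]

/-- determinant relation for similarities -/
theorem det_sq_of_sim (g : GL (Fin n) F) (h : Matrix (Fin n) (Fin n) F) (c : F)
    (e : h * (g : Matrix (Fin n) (Fin n) F) * h.transpose =
      c • (g : Matrix (Fin n) (Fin n) F)) : h.det ^ 2 = c ^ n := by
  have e1 := congrArg Matrix.det e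
  rw [Matrix.det_mul, Matrix.det_mul, Matrix.det_transpose, Matrix.det_smul,
    Fintype.card_fin] at e1
  have hd := gl_det_ne_zero g
  have : h.det ^ 2 * (g : Matrix (Fin n) (Fin n) F).det =
      c ^ n * (g : Matrix (Fin n) (Fin n) F).det := by linear_combination e1
  exact mul_right_cancel₀ hd this

/-- the determinants of the matrices commuting with `iota g * Gam` -/
theorem mem_D (hn : 2 ≤ n) (g : GL (Fin n) F) (d : Fˣ) :
    d ∈ (Ctil (iota g * Gam)).map (GeneralLinearGroup.det : GL (Fin n) F →* Fˣ) ↔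
      ∃ (h : Matrix (Fin n) (Fin n) F) (c : F), c ≠ 0 ∧
        h * (g : Matrix (Fin n) (Fin n) F) * h.transpose =
          c • (g : Matrix (Fin n) (Fin n) F) ∧ h.det = (d : F) := by
  constructor
  · rintro ⟨h, hh, rfl⟩
    obtain ⟨c, hc⟩ := (mem_Ctil_iota_Gam hn g h).1 hh
    exact ⟨h, c, c.ne_zero, hc, (Matrix.GeneralLinearGroup.val_det_apply h).symm⟩
  · rintro ⟨h, c, hc0, hc, hd⟩
    have hdet : h.det ≠ 0 := by rw [hd]; exact d.ne_zero
    refine ⟨GeneralLinearGroup.mkOfDetNeZero h hdet,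
      (mem_Ctil_iota_Gam hn g _).2 ⟨Units.mk0 c hc0, hc⟩, ?_⟩
    apply Units.ext
    rw [Matrix.GeneralLinearGroup.val_det_apply]
    exact hd

theorem pow_range_le_D (hn : 2 ≤ n) (g : GL (Fin n) F) :
    (powMonoidHom n : Fˣ →* Fˣ).range ≤
      (Ctil (iota g * Gam)).map (GeneralLinearGroup.det : GL (Fin n) F →* Fˣ) := by
  rintro _ ⟨e, rfl⟩
  rw [mem_D hn]
  refine ⟨(e : F) • (1 : Matrix (Fin n) (Fin n) F), (e : F) ^ 2, pow_ne_zero _ e.ne_zero, ?_, ?_⟩
  · rw [Matrix.transpose_smul, Matrix.transpose_one, Matrix.smul_mul, Matrix.one_mul,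
      Matrix.mul_smul, Matrix.mul_one, smul_smul, sq]
  · rw [Matrix.det_smul, Matrix.det_one, Fintype.card_fin, mul_one]
    rfl

/-- odd degree -/
theorem D_odd (hn : 2 ≤ n) (hodd : Odd n) (g : GL (Fin n) F) :
    (Ctil (iota g * Gam)).map (GeneralLinearGroup.det : GL (Fin n) F →* Fˣ) =
      (powMonoidHom n : Fˣ →* Fˣ).range := by
  apply le_antisymm _ (pow_range_le_D hn g)
  intro d hd
  obtain ⟨h, c, hc0, hc, hdet⟩ := (mem_D hn g d).1 hd
  have e1 := det_sq_of_sim g h c hc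
  obtain ⟨k, rfl⟩ := hodd
  rw [hdet] at e1
  have hck : c ^ k ≠ 0 := pow_ne_zero _ hc0
  have hd0 : (d : F) ≠ 0 := d.ne_zero
  refine ⟨Units.mk0 ((d : F) / c ^ k) (div_ne_zero hd0 hck), ?_⟩
  apply Units.ext
  show ((d : F) / c ^ k) ^ (2 * k + 1) = (d : F)
  have e2 : ((d : F) / c ^ k) ^ 2 = c := by
    field_simp
    rw [e1]
    ring
  rw [pow_succ, pow_mul, e2]
  field_simp

/-- even degree, characteristic two -/
theorem D_char_two [Finite F] (h20 : (2 : F) = 0) {m : ℕ} (hm : 1 ≤ m) (g : GL (Fin (2 * m)) F) :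
    (Ctil (iota g * Gam)).map (GeneralLinearGroup.det : GL (Fin (2 * m)) F →* Fˣ) =
      (powMonoidHom (2 * m) : Fˣ →* Fˣ).range := by
  have hn : 2 ≤ 2 * m := by omega
  have hneg : ∀ x : F, -x = x := by
    intro x
    have : x + x = 0 := by rw [← two_mul, h20, zero_mul]
    linear_combination -this
  have hinj : Function.Injective (fun x : F => x ^ 2) := by
    intro x y hxy
    have hxy' : x ^ 2 = y ^ 2 := hxy
    have : (x - y) * (x + y) = 0 := by linear_combination hxy'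
    rcases mul_eq_zero.1 this with h | h
    · exact sub_eq_zero.1 h
    · have := eq_neg_of_add_eq_zero_left h
      rw [hneg] at this
      exact this
  have hsurj : Function.Surjective (fun x : F => x ^ 2) := Finite.injective_iff_surjective.1 hinj
  apply le_antisymm _ (pow_range_le_D hn g)
  intro d hd
  obtain ⟨h, c, hc0, hc, hdet⟩ := (mem_D hn g d).1 hd
  have e1 := det_sq_of_sim g h c hc
  rw [hdet] at e1
  have e2 : (d : F) = c ^ m := by
    apply hinj
    show (d : F) ^ 2 = (c ^ m) ^ 2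
    rw [e1, ← pow_mul, mul_comm]
  obtain ⟨e, he⟩ := hsurj c
  have he' : e ^ 2 = c := he
  have he0 : e ≠ 0 := by
    rintro rfl
    apply hc0
    rw [← he']
    ring
  refine ⟨Units.mk0 e he0, ?_⟩
  apply Units.ext
  show e ^ (2 * m) = (d : F)
  rw [e2, pow_mul, he']

/-- even degree, odd characteristic, skew -/
theorem D_skew (h2 : (2 : F) ≠ 0) {m : ℕ} (hm : 1 ≤ m) (g : GL (Fin (2 * m)) F)
    (hg : (g : Matrix (Fin (2 * m)) (Fin (2 * m)) F).transpose =
      -(g : Matrix (Fin (2 * m)) (Fin (2 * m)) F)) :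
    (Ctil (iota g * Gam)).map (GeneralLinearGroup.det : GL (Fin (2 * m)) F →* Fˣ) =
      (powMonoidHom m : Fˣ →* Fˣ).range := by
  have hn : 2 ≤ 2 * m := by omega
  obtain ⟨hA, hB⟩ := Cfsg.Agent.Lib.Helper34.GT3SKD.skew_det h2 m (g : Matrix (Fin (2 * m)) (Fin (2 * m)) F) hg
    (gl_det_ne_zero g)
  apply le_antisymm
  · intro d hd
    obtain ⟨h, c, hc0, hc, hdet⟩ := (mem_D hn g d).1 hd
    refine ⟨Units.mk0 c hc0, ?_⟩
    apply Units.ext
    show c ^ m = (d : F)
    rw [← hdet, hA h c hc0 hc]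
  · rintro _ ⟨e, rfl⟩
    rw [mem_D hn]
    obtain ⟨h, hh, hd⟩ := hB (e : F) e.ne_zero
    exact ⟨h, (e : F), e.ne_zero, hh, hd⟩

/-- even degree, odd characteristic, symmetric -/
theorem D_sym [Fintype F] (h2 : (2 : F) ≠ 0) {m : ℕ} (hm : 1 ≤ m) (g : GL (Fin (2 * m)) F)
    (hg : (g : Matrix (Fin (2 * m)) (Fin (2 * m)) F).transpose =
      (g : Matrix (Fin (2 * m)) (Fin (2 * m)) F)) :
    (Ctil (iota g * Gam)).map (GeneralLinearGroup.det : GL (Fin (2 * m)) F →* Fˣ) =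
      (powMonoidHom m : Fˣ →* Fˣ).range ⊔ (powMonoidHom 2 : Fˣ →* Fˣ).ker := by
  have hn : 2 ≤ 2 * m := by omega
  obtain ⟨⟨r, hr, hrdet⟩, hB⟩ := Cfsg.Agent.Lib.Helper29.GT3SYD.sym_det h2 m hm
    (g : Matrix (Fin (2 * m)) (Fin (2 * m)) F) hg (gl_det_ne_zero g)
  apply le_antisymm
  · intro d hd
    obtain ⟨h, c, hc0, hc, hdet⟩ := (mem_D hn g d).1 hd
    have e1 := det_sq_of_sim g h c hc
    rw [hdet] at e1
    have hcm : c ^ m ≠ 0 := pow_ne_zero _ hc0
    have hd0 : (d : F) ≠ 0 := d.ne_zero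
    have e3 : d = (powMonoidHom m : Fˣ →* Fˣ) (Units.mk0 c hc0) *
        Units.mk0 ((d : F) / c ^ m) (div_ne_zero hd0 hcm) := by
      apply Units.ext
      show (d : F) = c ^ m * ((d : F) / c ^ m)
      field_simp
    rw [e3]
    refine Subgroup.mul_mem_sup (MonoidHom.mem_range.2 ⟨_, rfl⟩) ?_
    rw [MonoidHom.mem_ker]
    apply Units.ext
    show ((d : F) / c ^ m) ^ 2 = 1
    rw [div_pow, e1, ← pow_mul, mul_comm]
    exact div_self (pow_ne_zero _ hc0)
  · rw [sup_le_iff]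
    constructor
    · rintro _ ⟨e, rfl⟩
      rw [mem_D hn]
      obtain ⟨h, hh, hd⟩ := hB (e : F) e.ne_zero
      exact ⟨h, (e : F), e.ne_zero, hh, hd⟩
    · intro s hs
      rw [MonoidHom.mem_ker] at hs
      have hs' : (s : F) ^ 2 = 1 := by
        have := congrArg (fun u : Fˣ => (u : F)) hs
        exact this
      have : ((s : F) - 1) * ((s : F) + 1) = 0 := by linear_combination hs'
      rcases mul_eq_zero.1 this with h | h
      · have : s = 1 := Units.ext (sub_eq_zero.1 h)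
        rw [this]
        exact Subgroup.one_mem _
      · rw [mem_D hn]
        refine ⟨r, 1, one_ne_zero, by rw [hr, one_smul], ?_⟩
        rw [hrdet]
        linear_combination -h

/-- conjugation by an element of a subgroup preserves the subgroup -/
theorem map_conj_eq {X : Type*} [Group X] (H : Subgroup X) (a : X) (ha : a ∈ H) :
    H.map (MulAut.conj a).toMonoidHom = H := by
  ext x
  constructor
  · rintro ⟨y, hy, rfl⟩
    show a * y * a⁻¹ ∈ H
    exact H.mul_mem (H.mul_mem ha hy) (H.inv_mem ha)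
  · intro hx
    refine ⟨a⁻¹ * x * a, H.mul_mem (H.mul_mem (H.inv_mem ha) hx) ha, ?_⟩
    show a * (a⁻¹ * x * a) * a⁻¹ = x
    group

/-- skew type: the centraliser is `PGSp` -/
theorem cent_skew (h2 : (2 : F) ≠ 0) {m : ℕ} (hm : 2 ≤ m) (g : GL (Fin (2 * m)) F)
    (hg : (g : Matrix (Fin (2 * m)) (Fin (2 * m)) F).transpose =
      -(g : Matrix (Fin (2 * m)) (Fin (2 * m)) F)) :
    Nonempty (↥(Cfsg.inndiagPSL (2 * m) F ⊓ Subgroup.centralizer {iota g * Gam}) ≃*
      Cfsg.PGSp m F) := by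
  have hn : 2 ≤ 2 * m := by omega
  obtain ⟨h, hh⟩ := Cfsg.Agent.Lib.Helper69.GTSKEW.skew_congr h2 m (tau m)
    (g : Matrix (Fin (2 * m)) (Fin (2 * m)) F) hg (gl_det_ne_zero g)
  let g₁ : GL (Fin (2 * m)) F := GeneralLinearGroup.mkOfDetNeZero (Jmat m F) (Jmat_det m F)
  have hg₁ : (g₁ : Matrix (Fin (2 * m)) (Fin (2 * m)) F) = Jmat m F := rfl
  have ha : iota h ∈ Cfsg.inndiagPSL (2 * m) F := (mem_inndiag _).2 ⟨h, rfl⟩
  obtain ⟨E0⟩ := Cfsg.Agent.Lib.Helper21.MFABS.cent_map (MulAut.conj (iota h))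
    (Cfsg.inndiagPSL (2 * m) F) (iota g * Gam)
  rw [map_conj_eq _ _ ha] at E0
  have e2 : (MulAut.conj (iota h)) (iota g * Gam) = iota g₁ * Gam := by
    rw [MulAut.conj_apply, conj_iota_Gam]
    have e3 : h * g * (gti h)⁻¹ = g₁ := by
      apply Units.ext
      rw [conj_coe, hg₁]
      exact hh
    rw [e3]
  rw [e2] at E0
  obtain ⟨E⟩ := nonempty_centEquivX hn (iota g₁ * Gam)
  obtain ⟨E2⟩ := Cfsg.Agent.Lib.Helper54.GTCSP.cent_symp m (tau m) (Ctil (iota g₁ * Gam))
    (fun h => mem_Ctil_iota_Gam hn g₁ h)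
  exact ⟨E0.trans (E.trans E2)⟩

/-- orthogonal type: the centraliser is not `PGSp` -/
theorem cent_sym_not [Fintype F] (hodd : Odd (Fintype.card F)) {m : ℕ} (hm : 2 ≤ m)
    (g : GL (Fin (2 * m)) F)
    (hg : (g : Matrix (Fin (2 * m)) (Fin (2 * m)) F).transpose =
      (g : Matrix (Fin (2 * m)) (Fin (2 * m)) F)) :
    ¬ Nonempty (↥(Cfsg.inndiagPSL (2 * m) F ⊓ Subgroup.centralizer {iota g * Gam}) ≃*
      Cfsg.PGSp m F) := by
  classical
  have hc2 : ringChar F ≠ 2 := by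
    intro hc
    have h3 := FiniteField.even_card_of_char_two hc
    exact (Nat.not_even_iff_odd.2 hodd) (Nat.even_iff.2 h3)
  have h2 : (2 : F) ≠ 0 := by
    intro h
    apply hc2
    have : ringChar F ∣ 2 := (ringChar.spec F 2).1 (by exact_mod_cast h)
    exact (Nat.prime_dvd_prime_iff_eq (CharP.char_is_prime F (ringChar F)) Nat.prime_two).1 this
  have hn : 2 ≤ 2 * m := by omega
  have hq3 : 3 ≤ Fintype.card F := by
    have h1 : 1 < Fintype.card F := Fintype.one_lt_card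
    rcases hodd with ⟨t, ht⟩
    omega
  obtain ⟨ε, hε⟩ := FiniteField.exists_nonsquare hc2
  have hε0 : ε ≠ 0 := by
    rintro rfl
    exact hε ⟨0, by simp⟩
  obtain ⟨E⟩ := nonempty_centEquivX hn (iota g * Gam)
  rw [Ctil_eq_sim h2 hn g hg] at E
  have hNs := inv_transpose_symm g hg
  have hNd : ((g⁻¹ : GL (Fin (2 * m)) F) : Matrix (Fin (2 * m)) (Fin (2 * m)) F).det ≠ 0 :=
    gl_det_ne_zero g⁻¹
  have hsp : Nat.card (Cfsg.PGSp m F) = (Fintype.card F) ^ (m ^ 2) *
      ∏ i ∈ Finset.range m, ((Fintype.card F) ^ (2 * (i + 1)) - 1) := by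
    rw [Cfsg.Agent.Lib.Helper67.GT3CSP.card_pgsp m (by omega), Cfsg.Agent.S0245.result rfl m]
  have key : Nat.card ↥(Cfsg.inndiagPSL (2 * m) F ⊓ Subgroup.centralizer {iota g * Gam}) <
      Nat.card (Cfsg.PGSp m F) := by
    rw [hsp]
    by_cases hx : IsSquare ((-1) ^ m *
        ((g⁻¹ : GL (Fin (2 * m)) F) : Matrix (Fin (2 * m)) (Fin (2 * m)) F).det)
    · obtain ⟨e, he⟩ := Cfsg.Agent.Lib.Helper2.GTPLUS.form_plus h2 m _ hNs hNd hx
      obtain ⟨E2⟩ := Cfsg.Agent.Lib.Helper54.GTPGO.pgo_congr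
        (matQ ((g⁻¹ : GL (Fin (2 * m)) F) : Matrix (Fin (2 * m)) (Fin (2 * m)) F))
        (Cfsg.quadFormPlus m F) e he
      rw [Nat.card_congr (E.trans E2).toEquiv]
      calc Nat.card (Cfsg.PGO F (Cfsg.quadFormPlus m F))
          ≤ Nat.card (Cfsg.isometryGroup F (Cfsg.quadFormPlus m F)) :=
            Cfsg.Agent.Lib.Helper73.GT3PGO.card_pgo_plus_le m (by omega)
        _ = _ := Cfsg.Agent.Lib.Helper7.card_GOPlus rfl m (by omega)
        _ < _ := Cfsg.Agent.Lib.Helper85.GT3ARITH.plus_lt _ m (by omega) (by omega)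
    · obtain ⟨k, rfl⟩ : ∃ k, m = k + 1 := ⟨m - 1, by omega⟩
      obtain ⟨e, he⟩ := Cfsg.Agent.Lib.Helper13.GTMINUS.form_minus h2 k _ hNs hNd 0 (-ε)
        (by
          have : (0 : F) ^ 2 - 4 * -ε = 2 * 2 * ε := by ring
          rw [this]
          exact mul_ne_zero (mul_ne_zero h2 h2) hε0)
        (by
          have h3 := nonsq_mul h2 hx hε
          obtain ⟨r, hr⟩ := h3
          refine ⟨2 * r, ?_⟩
          linear_combination 4 * hr)
      obtain ⟨E2⟩ := Cfsg.Agent.Lib.Helper54.GTPGO.pgo_congr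
        (matQ ((g⁻¹ : GL (Fin (2 * (k + 1))) F) :
          Matrix (Fin (2 * (k + 1))) (Fin (2 * (k + 1))) F))
        (Cfsg.quadFormMinus k F 0 (-ε)) e he
      rw [Nat.card_congr (E.trans E2).toEquiv]
      calc Nat.card (Cfsg.PGO F (Cfsg.quadFormMinus k F 0 (-ε)))
          ≤ Nat.card (Cfsg.isometryGroup F (Cfsg.quadFormMinus k F 0 (-ε))) :=
            Cfsg.Agent.Lib.Helper73.GT3PGO.card_pgo_minus_le k 0 (-ε)
        _ = _ := Cfsg.Agent.Lib.Helper7.card_GOMinus rfl k 0 (-ε) (by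
            intro z₁ z₂ hz
            have hz' : z₁ ^ 2 = ε * z₂ ^ 2 := by linear_combination hz
            have hz2 : z₂ = 0 := by
              by_contra hne
              apply hε
              refine ⟨z₁ / z₂, ?_⟩
              field_simp
              linear_combination -hz'
            refine ⟨?_, hz2⟩
            rw [hz2] at hz'
            have : z₁ ^ 2 = 0 := by rw [hz']; ring
            exact pow_eq_zero_iff (two_ne_zero) |>.1 this)
        _ < _ := Cfsg.Agent.Lib.Helper85.GT3ARITH.minus_lt _ k hq3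
  rintro ⟨E'⟩
  rw [Nat.card_congr E'.toEquiv] at key
  exact lt_irrefl _ key

end

theorem main_gt3 {F : Type*} [Field F] [Fintype F] {p f : ℕ} [Fact p.Prime]
    (hF : Fintype.card F = p ^ f) (hf : 1 ≤ f) {n : ℕ} (hn : 3 ≤ n)
    (γ : MulAut (Matrix.ProjectiveSpecialLinearGroup (Fin n) F))
    (hγ : Cfsg.IsGraphAutClassPSL γ) (hγ2 : orderOf γ = 2) :
    ((Even n ∧ Odd p ∧ Nonempty (↥(Cfsg.inndiagPSL n F ⊓ Subgroup.centralizer {γ}) ≃*
        Cfsg.PGSp (n / 2) F)) →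
      Cfsg.splitClassCount (Cfsg.inndiagPSL n F)
        (Cfsg.Inn (Matrix.ProjectiveSpecialLinearGroup (Fin n) F)) γ =
          Nat.gcd (n / 2) (p ^ f - 1)) ∧
    ((Even n ∧ Odd p ∧ ¬ Nonempty (↥(Cfsg.inndiagPSL n F ⊓ Subgroup.centralizer {γ}) ≃*
        Cfsg.PGSp (n / 2) F)) →
      Cfsg.splitClassCount (Cfsg.inndiagPSL n F)
        (Cfsg.Inn (Matrix.ProjectiveSpecialLinearGroup (Fin n) F)) γ =
          Nat.gcd n (p ^ f - 1) / 2) ∧
    (¬ (Even n ∧ Odd p) →
      Cfsg.splitClassCount (Cfsg.inndiagPSL n F)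
        (Cfsg.Inn (Matrix.ProjectiveSpecialLinearGroup (Fin n) F)) γ =
          Nat.gcd n (p ^ f - 1)) := by
  classical
  obtain ⟨-, g, rfl⟩ := (graph_iff γ).1 hγ
  have hn2 : 2 ≤ n := by omega
  have hsq : (iota g * Gam) ^ 2 = 1 := by
    have := pow_orderOf_eq_one (iota g * Gam)
    rwa [hγ2] at this
  have hcard : Nat.card Fˣ = p ^ f - 1 := by
    rw [Nat.card_units, Nat.card_eq_fintype_card, hF]
  rw [splitClassCount_eq (by omega)]
  have hoddF : Odd p → Odd (Fintype.card F) := fun hp => by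
    rw [hF]
    exact hp.pow
  have h2_of : Odd p → (2 : F) ≠ 0 := by
    intro hp h
    have hc : ringChar F = 2 := by
      have : ringChar F ∣ 2 := (ringChar.spec F 2).1 (by exact_mod_cast h)
      exact (Nat.prime_dvd_prime_iff_eq (CharP.char_is_prime F (ringChar F)) Nat.prime_two).1 this
    have h3 := FiniteField.even_card_of_char_two hc
    exact (Nat.not_even_iff_odd.2 (hoddF hp)) (Nat.even_iff.2 h3)
  refine ⟨?_, ?_, ?_⟩
  · rintro ⟨⟨r, hr⟩, hp, hiso⟩
    obtain ⟨m, rfl⟩ : ∃ m, n = 2 * m := ⟨r, by omega⟩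
    have hm : 2 ≤ m := by omega
    have hdiv : 2 * m / 2 = m := Nat.mul_div_cancel_left m (by norm_num)
    rw [hdiv] at hiso ⊢
    have h2 := h2_of hp
    rcases sym_of_sq hn2 g hsq with hsym | hskw
    · exact absurd hiso (cent_sym_not (hoddF hp) hm g hsym)
    · rw [D_skew h2 (by omega) g hskw, IsCyclic.index_powMonoidHom_range, hcard, Nat.gcd_comm]
  · rintro ⟨⟨r, hr⟩, hp, hniso⟩
    obtain ⟨m, rfl⟩ : ∃ m, n = 2 * m := ⟨r, by omega⟩
    have hm : 2 ≤ m := by omega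
    have hdiv : 2 * m / 2 = m := Nat.mul_div_cancel_left m (by norm_num)
    rw [hdiv] at hniso
    have h2 := h2_of hp
    rcases sym_of_sq hn2 g hsq with hsym | hskw
    · have hdvd : 2 ∣ Nat.card Fˣ := by
        rw [hcard]
        have h1 : Odd (p ^ f) := hp.pow
        obtain ⟨t, ht⟩ := h1
        exact ⟨t, by omega⟩
      rw [D_sym h2 (by omega) g hsym,
        Cfsg.Agent.Lib.Helper53.Cyc.index_range_sup_ker m 2 hdvd (by norm_num), hcard]
      rw [hcard] at hdvd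
      obtain ⟨t, ht⟩ := hdvd
      rw [ht, Nat.mul_div_cancel_left t (by norm_num), Nat.gcd_mul_left,
        Nat.mul_div_cancel_left _ (by norm_num)]
    · exact absurd (cent_skew h2 hm g hskw) hniso
  · intro hneg
    by_cases he : Even n
    · have hp2 : p = 2 := by
        have hno : ¬ Odd p := fun hp => hneg ⟨he, hp⟩
        rcases (Fact.out : p.Prime).eq_two_or_odd' with h | h
        · exact h
        · exact absurd h hno
      obtain ⟨r, hr⟩ := he
      obtain ⟨m, rfl⟩ : ∃ m, n = 2 * m := ⟨r, by omega⟩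
      have h20 : (2 : F) = 0 := by
        have h1 := Nat.cast_card_eq_zero F
        rw [hF, hp2] at h1
        push_cast at h1
        exact (pow_eq_zero_iff (by omega)).1 h1
      rw [D_char_two h20 (by omega) g, IsCyclic.index_powMonoidHom_range, hcard, Nat.gcd_comm]
    · have ho : Odd n := Nat.not_even_iff_odd.1 he
      rw [D_odd hn2 ho g, IsCyclic.index_powMonoidHom_range, hcard, Nat.gcd_comm]

end Cfsg.Agent.Lib.Helper53.GT3Main
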