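import Mathlib
import Cfsg.Prelude.Def_LieTypeDatum

set_option autoImplicit false

/-! Characteristic two: similarity groups modulo scalars are isometry groups (helper53; pieces
GT4-ORTHQ and GT5-PGO2 of the projects S2701 / S2699). -/

namespace Cfsg.Agent.Lib.Helper53.GT4ORTHQ

open Matrix

/-- `S / (Z ∩ S) ≃ O` when `O ≤ S` meets `Z` trivially and `S ≤ O Z` -/
theorem quot_equiv {G : Type*} [Group G] (S O Z : Subgroup G) [Z.Normal] (hOS : O ≤ S)
    (hinj : ∀ x ∈ O, x ∈ Z → x = 1)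
    (hsurj : ∀ h ∈ S, ∃ x ∈ O, x⁻¹ * h ∈ Z) :
    Nonempty (↥S ⧸ Z.subgroupOf S ≃* ↥O) := by
  let φ : ↥O →* ↥S ⧸ Z.subgroupOf S :=
    (QuotientGroup.mk' (Z.subgroupOf S)).comp (Subgroup.inclusion hOS)
  have hφ : ∀ x : ↥O, φ x = QuotientGroup.mk (Subgroup.inclusion hOS x) := fun x => rfl
  have hi : Function.Injective φ := by
    rw [injective_iff_map_eq_one]
    intro x hx
    rw [hφ, QuotientGroup.eq_one_iff] at hx
    have hx' : (x : G) ∈ Z := hx
    exact Subtype.ext (hinj x x.2 hx')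
  have hs : Function.Surjective φ := by
    intro y
    induction y using QuotientGroup.induction_on with
    | H h =>
      obtain ⟨x, hxO, hxz⟩ := hsurj h h.2
      refine ⟨⟨x, hxO⟩, ?_⟩
      rw [hφ, QuotientGroup.eq]
      exact hxz
  exact ⟨(MulEquiv.ofBijective φ ⟨hi, hs⟩).symm⟩

theorem sq_surj {F : Type*} [Field F] [Finite F] (h20 : (2 : F) = 0) (c : F) :
    ∃ e : F, e ^ 2 = c := by
  have hneg : ∀ x : F, -x = x := by
    intro x
    have : x + x = 0 := by rw [← two_mul, h20, zero_mul]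
    linear_combination -this
  have hinj : Function.Injective (fun x : F => x ^ 2) := by
    intro x y hxy
    have hxy' : x ^ 2 = y ^ 2 := hxy
    have : (x - y) * (x + y) = 0 := by linear_combination hxy'
    rcases mul_eq_zero.1 this with h | h
    · exact sub_eq_zero.1 h
    · have := eq_neg_of_add_eq_zero_left h
      rw [hneg] at this
      exact this
  exact Finite.injective_iff_surjective.1 hinj c

theorem eq_one_of_sq {F : Type*} [Field F] (h20 : (2 : F) = 0) (e : F) (he : e ^ 2 = 1) :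
    e = 1 := by
  have h1 : (e - 1) ^ 2 = 0 := by
    have : (e - 1) ^ 2 = e ^ 2 - 2 * e + 1 := by ring
    rw [this, he, h20]
    ring_nf
    rw [h20]
  exact sub_eq_zero.1 ((pow_eq_zero_iff (two_ne_zero)).1 h1)

theorem scalar_val {ι : Type} [Fintype ι] [DecidableEq ι] {F : Type*} [Field F] (c : Fˣ) :
    ((GeneralLinearGroup.scalar ι c : GL ι F) : Matrix ι ι F) =
      (c : F) • (1 : Matrix ι ι F) := by
  ext i k
  simp [Matrix.one_apply, Matrix.diagonal_apply]

theorem scalar_mem {ι : Type} [Fintype ι] [DecidableEq ι] {F : Type*} [Field F] (c : Fˣ) :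
    (GeneralLinearGroup.scalar ι c : GL ι F) ∈ Cfsg.Geo.scalars ι F :=
  (Cfsg.Geo.mem_scalars_iff _).2 ⟨c, scalar_val c⟩

/-- GT4-ORTHQ -/
theorem orth_quot {F : Type*} [Field F] [Fintype F] (h20 : (2 : F) = 0) {n : ℕ} (hn : 1 ≤ n)
    (S O : Subgroup (GL (Fin n) F))
    (hS : ∀ h : GL (Fin n) F, h ∈ S ↔ ∃ c : Fˣ, (h : Matrix (Fin n) (Fin n) F) *
      (h : Matrix (Fin n) (Fin n) F).transpose = (c : F) • (1 : Matrix (Fin n) (Fin n) F))
    (hO : ∀ h : GL (Fin n) F, h ∈ O ↔ (h : Matrix (Fin n) (Fin n) F) *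
      (h : Matrix (Fin n) (Fin n) F).transpose = 1) :
    Nonempty (Cfsg.projQuot S ≃* ↥O) := by
  apply quot_equiv S O (Cfsg.Geo.scalars (Fin n) F)
  · intro h hh
    rw [hS]
    exact ⟨1, by rw [(hO h).1 hh, Units.val_one, one_smul]⟩
  · intro x hxO hxZ
    obtain ⟨e, he⟩ := (Cfsg.Geo.mem_scalars_iff x).1 hxZ
    have h1 := (hO x).1 hxO
    rw [he, Matrix.transpose_smul, Matrix.transpose_one, Matrix.smul_mul, Matrix.one_mul,
      smul_smul] at h1
    have h2 := congrFun (congrFun h1 ⟨0, hn⟩) ⟨0, hn⟩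
    rw [Matrix.smul_apply, Matrix.one_apply_eq, smul_eq_mul, mul_one] at h2
    have h3 : (e : F) = 1 := eq_one_of_sq h20 _ (by rw [pow_two]; exact h2)
    apply Units.ext
    rw [he, h3, one_smul, Units.val_one]
  · intro h hh
    obtain ⟨c, hc⟩ := (hS h).1 hh
    obtain ⟨e, he⟩ := sq_surj h20 (c : F)
    have he0 : e ≠ 0 := by
      rintro rfl
      apply c.ne_zero
      rw [← he]
      ring
    let s : GL (Fin n) F := GeneralLinearGroup.scalar (Fin n) (Units.mk0 e⁻¹ (inv_ne_zero he0))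
    have hsv : (s : Matrix (Fin n) (Fin n) F) = e⁻¹ • (1 : Matrix (Fin n) (Fin n) F) :=
      scalar_val _
    refine ⟨h * s, ?_, ?_⟩
    · rw [hO, Units.val_mul, hsv, Matrix.mul_smul, Matrix.mul_one, Matrix.transpose_smul,
        Matrix.smul_mul, Matrix.mul_smul, hc, smul_smul, smul_smul, ← he]
      have : e⁻¹ * e⁻¹ * e ^ 2 = 1 := by
        field_simp
      rw [this, one_smul]
    · have : (h * s)⁻¹ * h = s⁻¹ := by group
      rw [this]
      exact Subgroup.inv_mem _ (scalar_mem _)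

/-- GT5-PGO2 -/
theorem pgo_char_two {ι : Type} [Fintype ι] [DecidableEq ι] {F : Type*} [Field F] [Fintype F]
    (h20 : (2 : F) = 0) (Q : (ι → F) → F) (hQ : ∀ (c : F) (v : ι → F), Q (c • v) = c ^ 2 * Q v)
    (hne : ∃ v, Q v ≠ 0) :
    Nonempty (Cfsg.PGO F Q ≃* ↥(Cfsg.isometryGroup F Q)) := by
  have hiso : ∀ g : GL ι F, g ∈ Cfsg.isometryGroup F Q ↔
      ∀ u : ι → F, Q ((g : Matrix ι ι F) *ᵥ u) = Q u := by
    intro g
    constructor
    · intro h u
      exact h u u
    · intro h u _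
      exact h u
  apply quot_equiv (Cfsg.Geo.quadSimilarityGroup (F := F) Q) (Cfsg.isometryGroup F Q)
    (Cfsg.Geo.scalars ι F)
  · intro g hg
    exact ⟨1, fun v => by rw [(hiso g).1 hg v, Units.val_one, one_mul]⟩
  · intro x hxO hxZ
    obtain ⟨e, he⟩ := (Cfsg.Geo.mem_scalars_iff x).1 hxZ
    obtain ⟨v, hv⟩ := hne
    have h1 := (hiso x).1 hxO v
    rw [he, Matrix.smul_mulVec, Matrix.one_mulVec, hQ] at h1
    have h2 : (e : F) ^ 2 = 1 := by
      have : ((e : F) ^ 2 - 1) * Q v = 0 := by linear_combination h1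
      rcases mul_eq_zero.1 this with h | h
      · exact sub_eq_zero.1 h
      · exact absurd h hv
    have h3 : (e : F) = 1 := eq_one_of_sq h20 _ h2
    apply Units.ext
    rw [he, h3, one_smul, Units.val_one]
  · intro h hh
    obtain ⟨c, hc⟩ := hh
    obtain ⟨e, he⟩ := sq_surj h20 (c : F)
    have he0 : e ≠ 0 := by
      rintro rfl
      apply c.ne_zero
      rw [← he]
      ring
    let s : GL ι F := GeneralLinearGroup.scalar ι (Units.mk0 e⁻¹ (inv_ne_zero he0))
    have hsv : (s : Matrix ι ι F) = e⁻¹ • (1 : Matrix ι ι F) := scalar_val _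
    refine ⟨h * s, ?_, ?_⟩
    · rw [hiso]
      intro u
      rw [Units.val_mul, ← Matrix.mulVec_mulVec, hsv, Matrix.smul_mulVec, Matrix.one_mulVec, hc,
        hQ, ← he]
      field_simp
    · have : (h * s)⁻¹ * h = s⁻¹ := by group
      rw [this]
      exact Subgroup.inv_mem _ (scalar_mem _)

end Cfsg.Agent.Lib.Helper53.GT4ORTHQ
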