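import Mathlib
import Cfsg.Prelude.Def_ClassicalGeometry
import Cfsg.Agent.Lib.Helper53.GTALT
import Cfsg.Agent.Lib.Helper53.GT4ORTHQ

set_option autoImplicit false

/-! Characteristic two, even dimension `2m`: the orthogonal group of the dot product is the
centraliser of a transvection in the symplectic group (helper53; piece GT4-ORTHE of S2701). -/

namespace Cfsg.Agent.Lib.Helper53.GT4ORTHE

open Matrix Cfsg.Agent.Lib.Helper53.GT4ORTHQ

section
variable {n : ℕ} {F : Type*} [Field F]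

/-- the all-ones matrix -/
def ones (n : ℕ) (F : Type*) [Field F] : Matrix (Fin n) (Fin n) F := Matrix.of fun _ _ => (1 : F)

/-- `1 +` the all-ones matrix -/
def gp (n : ℕ) (F : Type*) [Field F] : Matrix (Fin n) (Fin n) F := 1 + ones n F

theorem ones_apply (i j : Fin n) : ones n F i j = 1 := rfl

theorem ones_transpose : (ones n F).transpose = ones n F := by
  ext i j
  rfl

theorem gp_transpose : (gp n F).transpose = gp n F := by
  rw [gp, Matrix.transpose_add, Matrix.transpose_one, ones_transpose]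

theorem gp_sub_one : gp n F - 1 = ones n F := by
  rw [gp]
  abel

theorem gp_diag (h20 : (2 : F) = 0) (i : Fin n) : gp n F i i = 0 := by
  rw [gp, Matrix.add_apply, Matrix.one_apply_eq, ones_apply]
  rw [← h20]
  norm_num

theorem mul_ones (h : Matrix (Fin n) (Fin n) F) (hrow : ∀ i, ∑ k, h i k = 1) :
    h * ones n F = ones n F := by
  ext i j
  rw [Matrix.mul_apply, ones_apply, ← hrow i]
  apply Finset.sum_congr rfl
  intro k _
  rw [ones_apply, mul_one]

theorem ones_mul (h : Matrix (Fin n) (Fin n) F) (hcol : ∀ k, ∑ i, h i k = 1) :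
    ones n F * h = ones n F := by
  ext i j
  rw [Matrix.mul_apply, ones_apply, ← hcol j]
  apply Finset.sum_congr rfl
  intro k _
  rw [ones_apply, one_mul]

theorem ones_mul_ones : ones n F * ones n F = (n : F) • ones n F := by
  ext i j
  rw [Matrix.mul_apply, Matrix.smul_apply, ones_apply, smul_eq_mul, mul_one]
  simp [ones_apply]

theorem sum_sq (h20 : (2 : F) = 0) {ι : Type*} (s : Finset ι) (a : ι → F) :
    (∑ i ∈ s, a i) ^ 2 = ∑ i ∈ s, a i ^ 2 := by
  classical
  induction s using Finset.induction_on with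
  | empty => simp
  | insert x s hx ih =>
    rw [Finset.sum_insert hx, Finset.sum_insert hx, ← ih]
    have : (a x + ∑ i ∈ s, a i) ^ 2 = a x ^ 2 + (∑ i ∈ s, a i) ^ 2 +
        2 * (a x * ∑ i ∈ s, a i) := by ring
    rw [this, h20, zero_mul, add_zero]

theorem row_sum (h20 : (2 : F) = 0) (h : Matrix (Fin n) (Fin n) F)
    (hh : h * h.transpose = 1) (i : Fin n) : ∑ k, h i k = 1 := by
  apply eq_one_of_sq h20
  rw [sum_sq h20]
  have h1 := congrFun (congrFun hh i) i
  rw [Matrix.mul_apply, Matrix.one_apply_eq] at h1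
  rw [← h1]
  apply Finset.sum_congr rfl
  intro k _
  rw [Matrix.transpose_apply, pow_two]

theorem gp_mul_gp (h20 : (2 : F) = 0) (hn : (n : F) = 0) : gp n F * gp n F = 1 := by
  rw [gp, Matrix.add_mul, Matrix.mul_add, Matrix.mul_add, Matrix.one_mul, Matrix.one_mul,
    Matrix.mul_one, ones_mul_ones, hn, zero_smul, add_zero, add_assoc, ← two_smul F (ones n F),
    h20, zero_smul, add_zero]

/-- the orthogonal matrices are the symplectic matrices (for `gp`) commuting with `gp` -/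
theorem claim (h20 : (2 : F) = 0) (hn : (n : F) = 0) (x : Matrix (Fin n) (Fin n) F) :
    x * x.transpose = 1 ↔
      (x * gp n F * x.transpose = gp n F ∧ x * gp n F = gp n F * x) := by
  constructor
  · intro hx
    have hx' : x.transpose * x = 1 := (Matrix.mul_eq_one_comm_of_card_eq (Fin n) (Fin n) F rfl).mp hx
    have hrow := row_sum h20 x hx
    have hcol : ∀ k, ∑ i, x i k = 1 := by
      intro k
      have := row_sum h20 x.transpose (by rw [Matrix.transpose_transpose]; exact hx') k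
      exact this
    have e1 := mul_ones x hrow
    have e2 := ones_mul x hcol
    have e3 : ones n F * x.transpose = ones n F := by
      have := congrArg Matrix.transpose e1
      rw [Matrix.transpose_mul, ones_transpose] at this
      exact this
    constructor
    · rw [gp, Matrix.mul_add, Matrix.mul_one, Matrix.add_mul, hx, e1, e3]
    · rw [gp, Matrix.mul_add, Matrix.mul_one, Matrix.add_mul, Matrix.one_mul, e1, e2]
  · rintro ⟨h1, h2⟩
    have h3 : gp n F * (x * x.transpose) = gp n F := by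
      rw [← Matrix.mul_assoc, ← h2]
      exact h1
    have h4 : gp n F * (gp n F * (x * x.transpose)) = gp n F * gp n F := by rw [h3]
    rw [← Matrix.mul_assoc, gp_mul_gp h20 hn, Matrix.one_mul] at h4
    exact h4

theorem rank_ones (hn : 1 ≤ n) : (ones n F).rank = 1 := by
  apply le_antisymm
  · have : ones n F = Matrix.vecMulVec (fun _ => 1) (fun _ => 1) := by
      ext i j
      simp [ones, Matrix.vecMulVec_apply]
    rw [this]
    exact Matrix.rank_vecMulVec_le _ _
  · by_contra hlt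
    have h0 : (ones n F).rank = 0 := by omega
    unfold Matrix.rank at h0
    rw [Submodule.finrank_eq_zero] at h0
    have hmem : (ones n F).mulVecLin (Pi.single ⟨0, hn⟩ 1) ∈
        LinearMap.range (ones n F).mulVecLin := ⟨_, rfl⟩
    rw [h0, Submodule.mem_bot] at hmem
    have h1 := congrFun hmem ⟨0, hn⟩
    simp [ones, Matrix.mulVec, dotProduct] at h1

end

section
variable {m : ℕ} {F : Type*} [Field F]

/-- conjugate by `P` and reindex -/
def hatM (τ : Fin m ⊕ Fin m ≃ Fin (2 * m)) (P : GL (Fin (2 * m)) F)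
    (x : Matrix (Fin (2 * m)) (Fin (2 * m)) F) : Matrix (Fin m ⊕ Fin m) (Fin m ⊕ Fin m) F :=
  ((P : Matrix (Fin (2 * m)) (Fin (2 * m)) F) * x *
    ((P⁻¹ : GL (Fin (2 * m)) F) : Matrix (Fin (2 * m)) (Fin (2 * m)) F)).submatrix τ τ

theorem inv_mul' (P : GL (Fin (2 * m)) F) :
    ((P⁻¹ : GL (Fin (2 * m)) F) : Matrix (Fin (2 * m)) (Fin (2 * m)) F) *
      (P : Matrix (Fin (2 * m)) (Fin (2 * m)) F) = 1 := by
  rw [← Units.val_mul, inv_mul_cancel, Units.val_one]

theorem mul_inv' (P : GL (Fin (2 * m)) F) :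
    (P : Matrix (Fin (2 * m)) (Fin (2 * m)) F) *
      ((P⁻¹ : GL (Fin (2 * m)) F) : Matrix (Fin (2 * m)) (Fin (2 * m)) F) = 1 := by
  rw [← Units.val_mul, mul_inv_cancel, Units.val_one]

theorem hatM_mul (τ : Fin m ⊕ Fin m ≃ Fin (2 * m)) (P : GL (Fin (2 * m)) F)
    (x y : Matrix (Fin (2 * m)) (Fin (2 * m)) F) :
    hatM τ P (x * y) = hatM τ P x * hatM τ P y := by
  unfold hatM
  rw [Matrix.submatrix_mul_equiv]
  congr 1
  calc (P : Matrix (Fin (2 * m)) (Fin (2 * m)) F) * (x * y) *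
        ((P⁻¹ : GL (Fin (2 * m)) F) : Matrix (Fin (2 * m)) (Fin (2 * m)) F)
      = (P : Matrix (Fin (2 * m)) (Fin (2 * m)) F) * x * 1 * y *
        ((P⁻¹ : GL (Fin (2 * m)) F) : Matrix (Fin (2 * m)) (Fin (2 * m)) F) := by
        simp only [Matrix.mul_assoc, Matrix.one_mul]
    _ = _ := by
        rw [← inv_mul' P]
        simp only [Matrix.mul_assoc]

theorem hatM_one (τ : Fin m ⊕ Fin m ≃ Fin (2 * m)) (P : GL (Fin (2 * m)) F) :
    hatM τ P 1 = 1 := by
  unfold hatM
  rw [Matrix.mul_one, mul_inv', Matrix.submatrix_one_equiv]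

theorem hatM_sub (τ : Fin m ⊕ Fin m ≃ Fin (2 * m)) (P : GL (Fin (2 * m)) F)
    (x y : Matrix (Fin (2 * m)) (Fin (2 * m)) F) :
    hatM τ P (x - y) = hatM τ P x - hatM τ P y := by
  unfold hatM
  rw [Matrix.mul_sub, Matrix.sub_mul, Matrix.submatrix_sub]
  rfl

theorem hatM_zero (τ : Fin m ⊕ Fin m ≃ Fin (2 * m)) (P : GL (Fin (2 * m)) F) :
    hatM τ P 0 = 0 := by
  unfold hatM
  rw [Matrix.mul_zero, Matrix.zero_mul]
  rfl

theorem submatrix_inj (τ : Fin m ⊕ Fin m ≃ Fin (2 * m))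
    (X Y : Matrix (Fin (2 * m)) (Fin (2 * m)) F) (h : X.submatrix τ τ = Y.submatrix τ τ) :
    X = Y := by
  ext i j
  have := congrFun (congrFun h (τ.symm i)) (τ.symm j)
  simpa using this

theorem conj_inj (P : GL (Fin (2 * m)) F) (x y : Matrix (Fin (2 * m)) (Fin (2 * m)) F)
    (h : (P : Matrix (Fin (2 * m)) (Fin (2 * m)) F) * x *
      ((P⁻¹ : GL (Fin (2 * m)) F) : Matrix (Fin (2 * m)) (Fin (2 * m)) F) =
      (P : Matrix (Fin (2 * m)) (Fin (2 * m)) F) * y *
      ((P⁻¹ : GL (Fin (2 * m)) F) : Matrix (Fin (2 * m)) (Fin (2 * m)) F)) : x = y := by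
  have h1 : ((P⁻¹ : GL (Fin (2 * m)) F) : Matrix (Fin (2 * m)) (Fin (2 * m)) F) *
      ((P : Matrix (Fin (2 * m)) (Fin (2 * m)) F) * x *
      ((P⁻¹ : GL (Fin (2 * m)) F) : Matrix (Fin (2 * m)) (Fin (2 * m)) F)) *
      (P : Matrix (Fin (2 * m)) (Fin (2 * m)) F) =
      ((P⁻¹ : GL (Fin (2 * m)) F) : Matrix (Fin (2 * m)) (Fin (2 * m)) F) *
      ((P : Matrix (Fin (2 * m)) (Fin (2 * m)) F) * y *
      ((P⁻¹ : GL (Fin (2 * m)) F) : Matrix (Fin (2 * m)) (Fin (2 * m)) F)) *
      (P : Matrix (Fin (2 * m)) (Fin (2 * m)) F) := by rw [h]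
  have e : ∀ z : Matrix (Fin (2 * m)) (Fin (2 * m)) F,
      ((P⁻¹ : GL (Fin (2 * m)) F) : Matrix (Fin (2 * m)) (Fin (2 * m)) F) *
        ((P : Matrix (Fin (2 * m)) (Fin (2 * m)) F) * z *
        ((P⁻¹ : GL (Fin (2 * m)) F) : Matrix (Fin (2 * m)) (Fin (2 * m)) F)) *
        (P : Matrix (Fin (2 * m)) (Fin (2 * m)) F) = z := by
    intro z
    calc _ = (((P⁻¹ : GL (Fin (2 * m)) F) : Matrix (Fin (2 * m)) (Fin (2 * m)) F) *
          (P : Matrix (Fin (2 * m)) (Fin (2 * m)) F)) * z *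
          (((P⁻¹ : GL (Fin (2 * m)) F) : Matrix (Fin (2 * m)) (Fin (2 * m)) F) *
          (P : Matrix (Fin (2 * m)) (Fin (2 * m)) F)) := by simp only [Matrix.mul_assoc]
      _ = z := by rw [inv_mul', Matrix.one_mul, Matrix.mul_one]
  rw [e, e] at h1
  exact h1

theorem hatM_inj (τ : Fin m ⊕ Fin m ≃ Fin (2 * m)) (P : GL (Fin (2 * m)) F)
    (x y : Matrix (Fin (2 * m)) (Fin (2 * m)) F) (h : hatM τ P x = hatM τ P y) : x = y :=
  conj_inj P x y (submatrix_inj τ _ _ h)

theorem hatM_surj (τ : Fin m ⊕ Fin m ≃ Fin (2 * m)) (P : GL (Fin (2 * m)) F)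
    (k : Matrix (Fin m ⊕ Fin m) (Fin m ⊕ Fin m) F) :
    hatM τ P (((P⁻¹ : GL (Fin (2 * m)) F) : Matrix (Fin (2 * m)) (Fin (2 * m)) F) *
      k.submatrix τ.symm τ.symm * (P : Matrix (Fin (2 * m)) (Fin (2 * m)) F)) = k := by
  unfold hatM
  have e : (P : Matrix (Fin (2 * m)) (Fin (2 * m)) F) *
      (((P⁻¹ : GL (Fin (2 * m)) F) : Matrix (Fin (2 * m)) (Fin (2 * m)) F) *
      k.submatrix τ.symm τ.symm * (P : Matrix (Fin (2 * m)) (Fin (2 * m)) F)) *
      ((P⁻¹ : GL (Fin (2 * m)) F) : Matrix (Fin (2 * m)) (Fin (2 * m)) F) =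
      k.submatrix τ.symm τ.symm := by
    calc _ = ((P : Matrix (Fin (2 * m)) (Fin (2 * m)) F) *
          ((P⁻¹ : GL (Fin (2 * m)) F) : Matrix (Fin (2 * m)) (Fin (2 * m)) F)) *
          k.submatrix τ.symm τ.symm * ((P : Matrix (Fin (2 * m)) (Fin (2 * m)) F) *
          ((P⁻¹ : GL (Fin (2 * m)) F) : Matrix (Fin (2 * m)) (Fin (2 * m)) F)) := by
          simp only [Matrix.mul_assoc]
      _ = _ := by rw [mul_inv', Matrix.one_mul, Matrix.mul_one]
  rw [e]
  ext i j
  simp

/-- symplectic for `g` corresponds to symplectic for `J` -/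
theorem hatM_symp (τ : Fin m ⊕ Fin m ≃ Fin (2 * m)) (P : GL (Fin (2 * m)) F)
    (g : Matrix (Fin (2 * m)) (Fin (2 * m)) F)
    (hP : (P : Matrix (Fin (2 * m)) (Fin (2 * m)) F) * g *
      (P : Matrix (Fin (2 * m)) (Fin (2 * m)) F).transpose =
        Matrix.reindex τ τ (Matrix.J (Fin m) F))
    (x : Matrix (Fin (2 * m)) (Fin (2 * m)) F) :
    x * g * x.transpose = g ↔
      hatM τ P x * Matrix.J (Fin m) F * (hatM τ P x).transpose = Matrix.J (Fin m) F := by
  have hJ : Matrix.J (Fin m) F = ((P : Matrix (Fin (2 * m)) (Fin (2 * m)) F) * g *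
      (P : Matrix (Fin (2 * m)) (Fin (2 * m)) F).transpose).submatrix τ τ := by
    rw [hP]
    ext i j
    simp
  have hT : ((P⁻¹ : GL (Fin (2 * m)) F) : Matrix (Fin (2 * m)) (Fin (2 * m)) F).transpose *
      (P : Matrix (Fin (2 * m)) (Fin (2 * m)) F).transpose = 1 := by
    rw [← Matrix.transpose_mul, mul_inv', Matrix.transpose_one]
  have key : hatM τ P x * Matrix.J (Fin m) F * (hatM τ P x).transpose =
      ((P : Matrix (Fin (2 * m)) (Fin (2 * m)) F) * (x * g * x.transpose) *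
      (P : Matrix (Fin (2 * m)) (Fin (2 * m)) F).transpose).submatrix τ τ := by
    conv_lhs => rw [hJ]
    unfold hatM
    rw [Matrix.transpose_submatrix, Matrix.submatrix_mul_equiv, Matrix.submatrix_mul_equiv]
    congr 1
    rw [Matrix.transpose_mul, Matrix.transpose_mul]
    calc (P : Matrix (Fin (2 * m)) (Fin (2 * m)) F) * x *
          ((P⁻¹ : GL (Fin (2 * m)) F) : Matrix (Fin (2 * m)) (Fin (2 * m)) F) *
          ((P : Matrix (Fin (2 * m)) (Fin (2 * m)) F) * g *
          (P : Matrix (Fin (2 * m)) (Fin (2 * m)) F).transpose) *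
          (((P⁻¹ : GL (Fin (2 * m)) F) : Matrix (Fin (2 * m)) (Fin (2 * m)) F).transpose *
          (x.transpose * (P : Matrix (Fin (2 * m)) (Fin (2 * m)) F).transpose))
        = (P : Matrix (Fin (2 * m)) (Fin (2 * m)) F) * x *
          (((P⁻¹ : GL (Fin (2 * m)) F) : Matrix (Fin (2 * m)) (Fin (2 * m)) F) *
          (P : Matrix (Fin (2 * m)) (Fin (2 * m)) F)) * g *
          ((P : Matrix (Fin (2 * m)) (Fin (2 * m)) F).transpose *
          ((P⁻¹ : GL (Fin (2 * m)) F) : Matrix (Fin (2 * m)) (Fin (2 * m)) F).transpose) *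
          x.transpose * (P : Matrix (Fin (2 * m)) (Fin (2 * m)) F).transpose := by
          simp only [Matrix.mul_assoc]
      _ = _ := by
          have hT' : (P : Matrix (Fin (2 * m)) (Fin (2 * m)) F).transpose *
              ((P⁻¹ : GL (Fin (2 * m)) F) : Matrix (Fin (2 * m)) (Fin (2 * m)) F).transpose = 1 := by
            rw [← Matrix.transpose_mul, inv_mul', Matrix.transpose_one]
          rw [inv_mul', hT', Matrix.mul_one, Matrix.mul_one]
          simp only [Matrix.mul_assoc]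
  rw [key]
  constructor
  · intro h
    rw [h]
    exact hJ.symm
  · intro h
    rw [hJ] at h
    have h1 := submatrix_inj τ _ _ h
    have h2 : ((P⁻¹ : GL (Fin (2 * m)) F) : Matrix (Fin (2 * m)) (Fin (2 * m)) F) *
        ((P : Matrix (Fin (2 * m)) (Fin (2 * m)) F) * g *
        (P : Matrix (Fin (2 * m)) (Fin (2 * m)) F).transpose) *
        ((P⁻¹ : GL (Fin (2 * m)) F) : Matrix (Fin (2 * m)) (Fin (2 * m)) F).transpose =
        ((P⁻¹ : GL (Fin (2 * m)) F) : Matrix (Fin (2 * m)) (Fin (2 * m)) F) *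
        ((P : Matrix (Fin (2 * m)) (Fin (2 * m)) F) * (x * g * x.transpose) *
        (P : Matrix (Fin (2 * m)) (Fin (2 * m)) F).transpose) *
        ((P⁻¹ : GL (Fin (2 * m)) F) : Matrix (Fin (2 * m)) (Fin (2 * m)) F).transpose := by
      rw [h1]
    have e : ∀ z : Matrix (Fin (2 * m)) (Fin (2 * m)) F,
        ((P⁻¹ : GL (Fin (2 * m)) F) : Matrix (Fin (2 * m)) (Fin (2 * m)) F) *
          ((P : Matrix (Fin (2 * m)) (Fin (2 * m)) F) * z *
          (P : Matrix (Fin (2 * m)) (Fin (2 * m)) F).transpose) *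
          ((P⁻¹ : GL (Fin (2 * m)) F) : Matrix (Fin (2 * m)) (Fin (2 * m)) F).transpose = z := by
      intro z
      have hT' : (P : Matrix (Fin (2 * m)) (Fin (2 * m)) F).transpose *
          ((P⁻¹ : GL (Fin (2 * m)) F) : Matrix (Fin (2 * m)) (Fin (2 * m)) F).transpose = 1 := by
        rw [← Matrix.transpose_mul, inv_mul', Matrix.transpose_one]
      calc _ = (((P⁻¹ : GL (Fin (2 * m)) F) : Matrix (Fin (2 * m)) (Fin (2 * m)) F) *
            (P : Matrix (Fin (2 * m)) (Fin (2 * m)) F)) * z *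
            ((P : Matrix (Fin (2 * m)) (Fin (2 * m)) F).transpose *
            ((P⁻¹ : GL (Fin (2 * m)) F) : Matrix (Fin (2 * m)) (Fin (2 * m)) F).transpose) := by
            simp only [Matrix.mul_assoc]
        _ = z := by rw [inv_mul', hT', Matrix.one_mul, Matrix.mul_one]
    rw [e, e] at h2
    exact h2.symm

end

/-- GT4-ORTHE -/
theorem orth_even {F : Type*} [Field F] (h20 : (2 : F) = 0) (m : ℕ) (hm : 1 ≤ m)
    (O : Subgroup (GL (Fin (2 * m)) F))
    (hO : ∀ h : GL (Fin (2 * m)) F, h ∈ O ↔ (h : Matrix (Fin (2 * m)) (Fin (2 * m)) F) *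
      (h : Matrix (Fin (2 * m)) (Fin (2 * m)) F).transpose = 1) :
    ∃ t : ↥(Matrix.symplecticGroup (Fin m) F),
      Cfsg.IsTransvection (t : Matrix (Fin m ⊕ Fin m) (Fin m ⊕ Fin m) F) ∧
      Nonempty (↥O ≃* ↥(Subgroup.centralizer ({t} : Set ↥(Matrix.symplecticGroup (Fin m) F)))) := by
  classical
  have hnF : ((2 * m : ℕ) : F) = 0 := by
    push_cast
    rw [h20, zero_mul]
  obtain ⟨τ⟩ : Nonempty (Fin m ⊕ Fin m ≃ Fin (2 * m)) :=
    ⟨finSumFinEquiv.trans (finCongr (two_mul m).symm)⟩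
  have hgg := gp_mul_gp (n := 2 * m) h20 hnF
  have hdet : (gp (2 * m) F).det ≠ 0 := by
    intro h0
    have := congrArg Matrix.det hgg
    rw [Matrix.det_mul, h0, zero_mul, Matrix.det_one] at this
    exact zero_ne_one this
  obtain ⟨P, hP⟩ := Cfsg.Agent.Lib.Helper53.GTALT.alt_congr m τ (gp (2 * m) F)
    (Cfsg.Agent.Lib.Helper53.GTALT.isAlt_of_diag h20 _ gp_transpose (gp_diag h20)) hdet
  have hsymp : ∀ x : Matrix (Fin (2 * m)) (Fin (2 * m)) F,
      x * gp (2 * m) F * x.transpose = gp (2 * m) F →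
        hatM τ P x ∈ Matrix.symplecticGroup (Fin m) F := fun x hx =>
    SymplecticGroup.mem_iff.2 ((hatM_symp τ P _ hP x).1 hx)
  have hgpS : gp (2 * m) F * gp (2 * m) F * (gp (2 * m) F).transpose = gp (2 * m) F := by
    rw [gp_transpose, hgg, Matrix.one_mul]
  refine ⟨⟨hatM τ P (gp (2 * m) F), hsymp _ hgpS⟩, ⟨?_, ?_⟩, ?_⟩
  · show (hatM τ P (gp (2 * m) F) - 1).rank = 1
    rw [← hatM_one τ P, ← hatM_sub, gp_sub_one, hatM, Matrix.rank_submatrix,
      Matrix.rank_mul_eq_left_of_isUnit_det _ _ ((Matrix.isUnit_iff_isUnit_det _).1 (P⁻¹).isUnit),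
      Matrix.rank_mul_eq_right_of_isUnit_det _ _ ((Matrix.isUnit_iff_isUnit_det _).1 P.isUnit),
      rank_ones (by omega)]
  · show (hatM τ P (gp (2 * m) F) - 1) * (hatM τ P (gp (2 * m) F) - 1) = 0
    rw [← hatM_one τ P, ← hatM_sub, ← hatM_mul, gp_sub_one, ones_mul_ones, hnF, zero_smul,
      hatM_zero]
  · have hcl : ∀ h : ↥O, (h : GL (Fin (2 * m)) F).1 * gp (2 * m) F *
        ((h : GL (Fin (2 * m)) F).1).transpose = gp (2 * m) F ∧
        (h : GL (Fin (2 * m)) F).1 * gp (2 * m) F = gp (2 * m) F * (h : GL (Fin (2 * m)) F).1 :=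
      fun h => (claim h20 hnF _).1 ((hO h).1 h.2)
    let φ : ↥O →* ↥(Subgroup.centralizer ({(⟨hatM τ P (gp (2 * m) F), hsymp _ hgpS⟩ :
        ↥(Matrix.symplecticGroup (Fin m) F))} : Set ↥(Matrix.symplecticGroup (Fin m) F))) :=
      { toFun := fun h => ⟨⟨hatM τ P (h : GL (Fin (2 * m)) F).1, hsymp _ (hcl h).1⟩, by
          rw [Subgroup.mem_centralizer_iff]
          intro y hy
          rw [Set.mem_singleton_iff] at hy
          subst hy
          apply Subtype.ext
          show hatM τ P (gp (2 * m) F) * hatM τ P (h : GL (Fin (2 * m)) F).1 =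
            hatM τ P (h : GL (Fin (2 * m)) F).1 * hatM τ P (gp (2 * m) F)
          rw [← hatM_mul, ← hatM_mul, (hcl h).2]⟩
        map_one' := by
          apply Subtype.ext
          apply Subtype.ext
          show hatM τ P ((1 : GL (Fin (2 * m)) F) : Matrix (Fin (2 * m)) (Fin (2 * m)) F) = 1
          rw [Units.val_one, hatM_one]
        map_mul' := by
          intro a b
          apply Subtype.ext
          apply Subtype.ext
          show hatM τ P (((a : GL (Fin (2 * m)) F) * (b : GL (Fin (2 * m)) F) :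
            GL (Fin (2 * m)) F) : Matrix (Fin (2 * m)) (Fin (2 * m)) F) =
            hatM τ P (a : GL (Fin (2 * m)) F).1 * hatM τ P (b : GL (Fin (2 * m)) F).1
          rw [Units.val_mul, hatM_mul] }
    have hφ : ∀ h : ↥O, ((φ h).1.1 : Matrix (Fin m ⊕ Fin m) (Fin m ⊕ Fin m) F) =
        hatM τ P (h : GL (Fin (2 * m)) F).1 := fun h => rfl
    have hi : Function.Injective φ := by
      intro a b hab
      have h1 : hatM τ P (a : GL (Fin (2 * m)) F).1 = hatM τ P (b : GL (Fin (2 * m)) F).1 := by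
        rw [← hφ, ← hφ, hab]
      exact Subtype.ext (Units.ext (hatM_inj τ P _ _ h1))
    have hs : Function.Surjective φ := by
      intro k
      obtain ⟨k0, hk0⟩ : ∃ k0 : Matrix (Fin m ⊕ Fin m) (Fin m ⊕ Fin m) F, k0 = k.1.1 := ⟨_, rfl⟩
      obtain ⟨x, hx⟩ : ∃ x : Matrix (Fin (2 * m)) (Fin (2 * m)) F, x =
        ((P⁻¹ : GL (Fin (2 * m)) F) : Matrix (Fin (2 * m)) (Fin (2 * m)) F) *
          k0.submatrix τ.symm τ.symm * (P : Matrix (Fin (2 * m)) (Fin (2 * m)) F) := ⟨_, rfl⟩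
      have hxk : hatM τ P x = k0 := by
        rw [hx]
        exact hatM_surj τ P k0
      have h1 : x * gp (2 * m) F * x.transpose = gp (2 * m) F := by
        rw [hatM_symp τ P _ hP, hxk, hk0]
        exact SymplecticGroup.mem_iff.1 k.1.2
      have h2 : x * gp (2 * m) F = gp (2 * m) F * x := by
        apply hatM_inj τ P
        rw [hatM_mul, hatM_mul, hxk, hk0]
        have hc := k.2
        rw [Subgroup.mem_centralizer_iff] at hc
        have hc' := hc _ (Set.mem_singleton _)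
        have hc'' := congrArg Subtype.val hc'
        exact hc''.symm
      have h3 := (claim h20 hnF x).2 ⟨h1, h2⟩
      have hxdet : x.det ≠ 0 := by
        intro h0
        have := congrArg Matrix.det h3
        rw [Matrix.det_mul, h0, zero_mul, Matrix.det_one] at this
        exact zero_ne_one this
      refine ⟨⟨Matrix.GeneralLinearGroup.mkOfDetNeZero x hxdet, (hO _).2 h3⟩, ?_⟩
      apply Subtype.ext
      apply Subtype.ext
      exact hxk.trans hk0
    exact ⟨MulEquiv.ofBijective φ ⟨hi, hs⟩⟩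

end Cfsg.Agent.Lib.Helper53.GT4ORTHE
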