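import Mathlib
import Cfsg.Agent.Lib.Helper53.GT2Main
import Cfsg.Agent.Lib.Helper53.GTALT
import Cfsg.Agent.Lib.Helper31.GT4ALBERT
import Cfsg.Agent.Lib.Helper8.GT4PGSP2
import Cfsg.Agent.Lib.Helper53.GT4ORTHQ
import Cfsg.Agent.Lib.Helper53.GT4ORTHE

set_option autoImplicit false

namespace Cfsg.Agent.Lib.Helper53.GT4Main

open Matrix Cfsg.Agent.Lib.Helper53.AutPSL Cfsg.Agent.Lib.Helper53.GT
  Cfsg.Agent.Lib.Helper53.GT2Main

/-! # PIECES -/





/-! # ASSEMBLY -/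

/-- the orthogonal group of the dot product -/
def orthSub (n : ℕ) (F : Type*) [Field F] : Subgroup (GL (Fin n) F) where
  carrier := {h | (h : Matrix (Fin n) (Fin n) F) * (h : Matrix (Fin n) (Fin n) F).transpose = 1}
  mul_mem' := by
    intro a b ha hb
    show ((a * b : GL (Fin n) F) : Matrix (Fin n) (Fin n) F) *
      ((a * b : GL (Fin n) F) : Matrix (Fin n) (Fin n) F).transpose = 1
    have ha' : (a : Matrix (Fin n) (Fin n) F) * (a : Matrix (Fin n) (Fin n) F).transpose = 1 := ha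
    have hb' : (b : Matrix (Fin n) (Fin n) F) * (b : Matrix (Fin n) (Fin n) F).transpose = 1 := hb
    rw [Units.val_mul, Matrix.transpose_mul]
    calc (a : Matrix (Fin n) (Fin n) F) * (b : Matrix (Fin n) (Fin n) F) *
          ((b : Matrix (Fin n) (Fin n) F).transpose * (a : Matrix (Fin n) (Fin n) F).transpose)
        = (a : Matrix (Fin n) (Fin n) F) * ((b : Matrix (Fin n) (Fin n) F) *
          (b : Matrix (Fin n) (Fin n) F).transpose) * (a : Matrix (Fin n) (Fin n) F).transpose := by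
          simp only [Matrix.mul_assoc]
      _ = 1 := by rw [hb', Matrix.mul_one, ha']
  one_mem' := by
    show ((1 : GL (Fin n) F) : Matrix (Fin n) (Fin n) F) *
      ((1 : GL (Fin n) F) : Matrix (Fin n) (Fin n) F).transpose = 1
    rw [Units.val_one, Matrix.transpose_one, Matrix.mul_one]
  inv_mem' := by
    intro a ha
    have ha' : (a : Matrix (Fin n) (Fin n) F) * (a : Matrix (Fin n) (Fin n) F).transpose = 1 := ha
    show ((a⁻¹ : GL (Fin n) F) : Matrix (Fin n) (Fin n) F) *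
      ((a⁻¹ : GL (Fin n) F) : Matrix (Fin n) (Fin n) F).transpose = 1
    have e1 : ((a⁻¹ : GL (Fin n) F) : Matrix (Fin n) (Fin n) F) =
        (a : Matrix (Fin n) (Fin n) F).transpose := by
      calc ((a⁻¹ : GL (Fin n) F) : Matrix (Fin n) (Fin n) F)
          = ((a⁻¹ : GL (Fin n) F) : Matrix (Fin n) (Fin n) F) *
            ((a : Matrix (Fin n) (Fin n) F) * (a : Matrix (Fin n) (Fin n) F).transpose) := by
            rw [ha', Matrix.mul_one]
        _ = _ := by rw [← Matrix.mul_assoc, gl_inv_mul, Matrix.one_mul]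
    rw [e1, Matrix.transpose_transpose]
    exact (Matrix.mul_eq_one_comm_of_card_eq (Fin n) (Fin n) F rfl).mp ha'

theorem mem_orthSub {n : ℕ} {F : Type*} [Field F] (h : GL (Fin n) F) :
    h ∈ orthSub n F ↔ (h : Matrix (Fin n) (Fin n) F) *
      (h : Matrix (Fin n) (Fin n) F).transpose = 1 := Iff.rfl

/-- from `h g hᵀ = g'` to the conjugacy of `iota g' * Gam` and `iota g * Gam` -/
theorem conj_of_congr {n : ℕ} {F : Type*} [Field F] (hn : 2 ≤ n) (g g' h : GL (Fin n) F)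
    (hh : (h : Matrix (Fin n) (Fin n) F) * (g : Matrix (Fin n) (Fin n) F) *
      (h : Matrix (Fin n) (Fin n) F).transpose = (g' : Matrix (Fin n) (Fin n) F)) :
    Cfsg.IsConjUnder (Cfsg.inndiagPSL n F) (iota g' * Gam) (iota g * Gam) := by
  rw [conj_iff hn]
  refine ⟨h⁻¹, 1, ?_⟩
  rw [Units.val_one, one_smul, ← hh]
  have e1 : (h : Matrix (Fin n) (Fin n) F).transpose *
      ((h⁻¹ : GL (Fin n) F) : Matrix (Fin n) (Fin n) F).transpose = 1 := by
    rw [← Matrix.transpose_mul, gl_inv_mul, Matrix.transpose_one]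
  calc _ = (((h⁻¹ : GL (Fin n) F) : Matrix (Fin n) (Fin n) F) *
        (h : Matrix (Fin n) (Fin n) F)) *
        (g : Matrix (Fin n) (Fin n) F) *
        ((h : Matrix (Fin n) (Fin n) F).transpose *
        ((h⁻¹ : GL (Fin n) F) : Matrix (Fin n) (Fin n) F).transpose) := by
        simp only [Matrix.mul_assoc]
    _ = _ := by rw [e1, gl_inv_mul, Matrix.one_mul, Matrix.mul_one]

theorem main_gt4 {F : Type*} [Field F] [Fintype F] [CharP F 2] {n m : ℕ} (hm : 2 ≤ m)
    (hnm : n = 2 * m) :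
    ∃ (γ₁ γ₃ : MulAut (Matrix.ProjectiveSpecialLinearGroup (Fin n) F))
      (t : ↥(Matrix.symplecticGroup (Fin m) F)),
      Cfsg.IsTransvection (t : Matrix (Fin m ⊕ Fin m) (Fin m ⊕ Fin m) F) ∧
      Cfsg.IsGraphAutClassPSL γ₁ ∧ orderOf γ₁ = 2 ∧ Cfsg.IsGraphAutClassPSL γ₃ ∧ orderOf γ₃ = 2 ∧
      ¬ Cfsg.IsConjUnder (Cfsg.inndiagPSL n F) γ₁ γ₃ ∧
      (∀ γ : MulAut (Matrix.ProjectiveSpecialLinearGroup (Fin n) F),
        Cfsg.IsGraphAutClassPSL γ → orderOf γ = 2 →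
          Cfsg.IsConjUnder (Cfsg.inndiagPSL n F) γ₁ γ ∨
          Cfsg.IsConjUnder (Cfsg.inndiagPSL n F) γ₃ γ) ∧
      Nonempty (↥(Cfsg.inndiagPSL n F ⊓ Subgroup.centralizer {γ₁}) ≃*
        ↥(Matrix.symplecticGroup (Fin m) F)) ∧
      Nonempty (↥(Cfsg.inndiagPSL n F ⊓ Subgroup.centralizer {γ₃}) ≃*
        ↥(Subgroup.centralizer ({t} : Set ↥(Matrix.symplecticGroup (Fin m) F)))) := by
  subst hnm
  have h20 : (2 : F) = 0 := by
    have := CharP.cast_eq_zero F 2
    exact_mod_cast this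
  have hneg : ∀ M : Matrix (Fin (2 * m)) (Fin (2 * m)) F, -M = M := by
    intro M
    have : M + M = 0 := by rw [← two_smul F M, h20, zero_smul]
    exact neg_eq_of_add_eq_zero_left this
  have hn : 2 ≤ 2 * m := by omega
  have hn3 : 3 ≤ 2 * m := by omega
  have hn0 : 0 < 2 * m := by omega
  let g₁ : GL (Fin (2 * m)) F := GeneralLinearGroup.mkOfDetNeZero (Jmat m F) (Jmat_det m F)
  have hg₁ : (g₁ : Matrix (Fin (2 * m)) (Fin (2 * m)) F) = Jmat m F := rfl
  have hGam := Cfsg.Agent.Lib.Helper53.GTGAM.Gam_ne_iota (F := F) hn3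
  have hJsym : (Jmat m F).transpose = Jmat m F := by rw [Jmat_transpose, hneg]
  have hJdiag : ∀ i, Jmat m F i i = 0 := by
    intro i
    simp only [Jmat, Matrix.reindex_apply, Matrix.submatrix_apply, Matrix.J]
    rcases (tau m).symm i with a | a <;> simp
  have hJalt := Cfsg.Agent.Lib.Helper53.GTALT.isAlt_of_diag h20 (Jmat m F) hJsym hJdiag
  obtain ⟨t, ht, ⟨E4⟩⟩ := Cfsg.Agent.Lib.Helper53.GT4ORTHE.orth_even h20 m (by omega) (orthSub (2 * m) F)
    (fun h => mem_orthSub h)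
  have h1sym : ((1 : GL (Fin (2 * m)) F) : Matrix (Fin (2 * m)) (Fin (2 * m)) F).transpose =
      ((1 : GL (Fin (2 * m)) F) : Matrix (Fin (2 * m)) (Fin (2 * m)) F) := by
    rw [Units.val_one, Matrix.transpose_one]
  refine ⟨iota g₁ * Gam, iota 1 * Gam, t, ht, (graph_iff _).2 ⟨hn3, g₁, rfl⟩,
    order_two hn hGam g₁ (Or.inl (by rw [hg₁, hJsym])), (graph_iff _).2 ⟨hn3, 1, rfl⟩,
    order_two hn hGam 1 (Or.inl h1sym), ?_, ?_, ?_, ?_⟩
  · -- non-conjugacy
    rw [conj_iff hn]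
    rintro ⟨h, c, he⟩
    have h1 := congrFun (congrFun he ⟨0, hn0⟩) ⟨0, hn0⟩
    rw [hg₁, Cfsg.Agent.Lib.Helper53.GTALT.congr_diag _ _ hJalt, Units.val_one,
      Matrix.smul_apply, Matrix.one_apply_eq, smul_eq_mul, mul_one] at h1
    exact c.ne_zero h1.symm
  · -- exhaustiveness
    intro γ hγ hγ2
    obtain ⟨-, g, rfl⟩ := (graph_iff γ).1 hγ
    have hsq : (iota g * Gam) ^ 2 = 1 := by
      have := pow_orderOf_eq_one (iota g * Gam)
      rwa [hγ2] at this
    have hdet := gl_det_ne_zero g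
    have hsym : (g : Matrix (Fin (2 * m)) (Fin (2 * m)) F).transpose =
        (g : Matrix (Fin (2 * m)) (Fin (2 * m)) F) := by
      rcases sym_of_sq hn g hsq with hsym | hskw
      · exact hsym
      · rw [hskw, hneg]
    by_cases hd : ∀ i, (g : Matrix (Fin (2 * m)) (Fin (2 * m)) F) i i = 0
    · left
      obtain ⟨h, hh⟩ := Cfsg.Agent.Lib.Helper53.GTALT.alt_congr m (tau m)
        (g : Matrix (Fin (2 * m)) (Fin (2 * m)) F)
        (Cfsg.Agent.Lib.Helper53.GTALT.isAlt_of_diag h20 _ hsym hd) hdet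
      exact conj_of_congr hn g g₁ h hh
    · right
      push Not at hd
      obtain ⟨h, hh⟩ := Cfsg.Agent.Lib.Helper31.GT4ALBERT.albert h20 (g : Matrix (Fin (2 * m)) (Fin (2 * m)) F) hsym hdet hd
      exact conj_of_congr hn g 1 h (by rw [hh, Units.val_one])
  · -- centraliser of γ₁
    obtain ⟨E⟩ := nonempty_centEquivX hn (iota g₁ * Gam)
    obtain ⟨E2⟩ := Cfsg.Agent.Lib.Helper54.GTCSP.cent_symp m (tau m) (Ctil (iota g₁ * Gam))
      (fun h => mem_Ctil_iota_Gam hn g₁ h)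
    obtain ⟨E3⟩ := Cfsg.Agent.Lib.Helper8.GT4PGSP2.pgsp_char_two (F := F) h20 m (by omega)
    exact ⟨E.trans (E2.trans E3)⟩
  · -- centraliser of γ₃
    obtain ⟨E⟩ := nonempty_centEquivX hn (iota (1 : GL (Fin (2 * m)) F) * Gam)
    obtain ⟨E2⟩ := Cfsg.Agent.Lib.Helper53.GT4ORTHQ.orth_quot h20 (by omega : 1 ≤ 2 * m)
      (Ctil (iota (1 : GL (Fin (2 * m)) F) * Gam)) (orthSub (2 * m) F)
      (fun h => by
        rw [mem_Ctil_iota_Gam hn, Units.val_one, Matrix.mul_one])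
      (fun h => mem_orthSub h)
    exact ⟨E.trans (E2.trans E4)⟩

end Cfsg.Agent.Lib.Helper53.GT4Main
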