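import Mathlib
import Cfsg.Prelude.Def_Classical
import Cfsg.Agent.Lib.Helper53.GT4ORTHQ
import Cfsg.Agent.Lib.Helper53.GT4ORTHE
import Cfsg.Agent.Lib.Helper53.GT5Def

set_option autoImplicit false

/-! Characteristic two, odd dimension: the orthogonal group of the dot product is isomorphic to
the isometry group of a nonsingular quadratic form (helper53; piece GT5-OISO of S2699). -/

namespace Cfsg.Agent.Lib.Helper53.GT5OISO

open Matrix Cfsg.Agent.Lib.Helper53.GT4ORTHQ Cfsg.Agent.Lib.Helper53.GT4ORTHE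
  Cfsg.Agent.Lib.Helper53.GT5Def

section
variable {F : Type*} [Field F] {n : ℕ}

/-- the sum of the coordinates -/
def lam (v : Fin n → F) : F := ∑ i, v i

/-- the all-ones vector -/
def one1 (n : ℕ) (F : Type*) [Field F] : Fin n → F := fun _ => 1

/-- the matrix with all rows equal to `w` -/
def rowMat (w : Fin n → F) : Matrix (Fin n) (Fin n) F := Matrix.of fun _ k => w k

theorem lam_add (u v : Fin n → F) : lam (u + v) = lam u + lam v := by
  unfold lam
  simp [Finset.sum_add_distrib]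

theorem lam_smul (c : F) (v : Fin n → F) : lam (c • v) = c * lam v := by
  unfold lam
  simp [Finset.mul_sum]

theorem lam_one1 : lam (one1 n F) = (n : F) := by
  unfold lam one1
  simp

theorem dot_one1 (v : Fin n → F) : v ⬝ᵥ one1 n F = lam v := by
  unfold lam one1 dotProduct
  simp

theorem rowMat_mulVec (w v : Fin n → F) : rowMat w *ᵥ v = (w ⬝ᵥ v) • one1 n F := by
  funext i
  simp [rowMat, Matrix.mulVec, dotProduct, one1]

theorem rowMat_add (w w' : Fin n → F) : rowMat (w + w') = rowMat w + rowMat w' := by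
  ext i k
  rfl

theorem mul_rowMat (h : Matrix (Fin n) (Fin n) F) (hrow : ∀ i, ∑ k, h i k = 1)
    (w : Fin n → F) : h * rowMat w = rowMat w := by
  ext i k
  rw [Matrix.mul_apply]
  simp only [rowMat, Matrix.of_apply]
  rw [← Finset.sum_mul, hrow, one_mul]

theorem rowMat_mul (w : Fin n → F) (A : Matrix (Fin n) (Fin n) F) :
    rowMat w * A = rowMat (w ᵥ* A) := by
  ext i k
  rw [Matrix.mul_apply]
  simp only [rowMat, Matrix.of_apply, Matrix.vecMul, dotProduct]

theorem rowMat_inj (w w' : Fin n → F) (hn : 1 ≤ n) (h : rowMat w = rowMat w') : w = w' := by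
  funext k
  exact congrFun (congrFun h ⟨0, hn⟩) k

/-- the hypotheses on the quadratic form -/
structure QData (F : Type*) [Field F] (n : ℕ) (Q : (Fin n → F) → F) : Prop where
  h20 : (2 : F) = 0
  hn1 : (n : F) = 1
  hQs : ∀ (c : F) (v : Fin n → F), Q (c • v) = c ^ 2 * Q v
  hQp : ∀ u v : Fin n → F, Q (u + v) = Q u + Q v + lam u * lam v + u ⬝ᵥ v
  hQ1 : Q (one1 n F) = 1

theorem add_self' (h20 : (2 : F) = 0) (x : F) : x + x = 0 := by
  rw [← two_mul, h20, zero_mul]

theorem sq_inj (h20 : (2 : F) = 0) {x y : F} (h : x ^ 2 = y ^ 2) : x = y := by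
  have h1 : (x - y) ^ 2 = 0 := by
    have : (x - y) ^ 2 = x ^ 2 + y ^ 2 - 2 * (x * y) := by ring
    rw [this, h20, h, zero_mul, sub_zero, add_self' h20]
  exact sub_eq_zero.1 ((pow_eq_zero_iff (two_ne_zero)).1 h1)

variable {Q : (Fin n → F) → F}

theorem Q_add_smul_one (d : QData F n Q) (x : Fin n → F) (a : F) :
    Q (x + a • one1 n F) = Q x + a ^ 2 := by
  rw [d.hQp, d.hQs, d.hQ1, lam_smul, lam_one1, d.hn1, dotProduct_smul, dot_one1, smul_eq_mul]
  have : Q x + a ^ 2 * 1 + lam x * (a * 1) + a * lam x = Q x + a ^ 2 + 2 * (a * lam x) := by ring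
  rw [this, d.h20, zero_mul, add_zero]

/-! ### orthogonal matrices -/

theorem col_sum (h20 : (2 : F) = 0) (h : Matrix (Fin n) (Fin n) F)
    (hh : h * h.transpose = 1) (k : Fin n) : ∑ i, h i k = 1 := by
  have hx' : h.transpose * h = 1 := (Matrix.mul_eq_one_comm_of_card_eq (Fin n) (Fin n) F rfl).mp hh
  exact row_sum h20 h.transpose (by rw [Matrix.transpose_transpose]; exact hx') k

theorem orth_mulVec_one (h20 : (2 : F) = 0) (h : Matrix (Fin n) (Fin n) F)
    (hh : h * h.transpose = 1) : h *ᵥ one1 n F = one1 n F := by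
  funext i
  simp only [Matrix.mulVec, dotProduct, one1, mul_one]
  exact row_sum h20 h hh i

theorem lam_mulVec_of_col (h : Matrix (Fin n) (Fin n) F) (hcol : ∀ k, ∑ i, h i k = 1)
    (v : Fin n → F) : lam (h *ᵥ v) = lam v := by
  unfold lam
  simp only [Matrix.mulVec, dotProduct]
  rw [Finset.sum_comm]
  apply Finset.sum_congr rfl
  intro k _
  rw [← Finset.sum_mul, hcol, one_mul]

theorem orth_dot (h : Matrix (Fin n) (Fin n) F) (hh : h * h.transpose = 1)
    (u v : Fin n → F) : (h *ᵥ u) ⬝ᵥ (h *ᵥ v) = u ⬝ᵥ v := by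
  have hx' : h.transpose * h = 1 := (Matrix.mul_eq_one_comm_of_card_eq (Fin n) (Fin n) F rfl).mp hh
  rw [Matrix.dotProduct_mulVec, Matrix.vecMul_mulVec, ← Matrix.mulVec_transpose,
    Matrix.transpose_mul, Matrix.transpose_transpose, hx', Matrix.one_mulVec, dotProduct_comm]

/-- the defect of `h` with respect to `Q` -/
def D (Q : (Fin n → F) → F) (h : Matrix (Fin n) (Fin n) F) (v : Fin n → F) : F :=
  Q (h *ᵥ v) + Q v

theorem D_add (d : QData F n Q) (h : Matrix (Fin n) (Fin n) F) (hh : h * h.transpose = 1)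
    (u v : Fin n → F) : D Q h (u + v) = D Q h u + D Q h v := by
  unfold D
  rw [Matrix.mulVec_add, d.hQp, d.hQp, lam_mulVec_of_col h (col_sum d.h20 h hh),
    lam_mulVec_of_col h (col_sum d.h20 h hh), orth_dot h hh]
  have : Q (h *ᵥ u) + Q (h *ᵥ v) + lam u * lam v + u ⬝ᵥ v +
      (Q u + Q v + lam u * lam v + u ⬝ᵥ v) =
      Q (h *ᵥ u) + Q u + (Q (h *ᵥ v) + Q v) + 2 * (lam u * lam v + u ⬝ᵥ v) := by ring
  rw [this, d.h20, zero_mul, add_zero]

theorem D_smul (d : QData F n Q) (h : Matrix (Fin n) (Fin n) F) (c : F) (v : Fin n → F) :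
    D Q h (c • v) = c ^ 2 * D Q h v := by
  unfold D
  rw [Matrix.mulVec_smul, d.hQs, d.hQs, mul_add]

theorem D_zero (d : QData F n Q) (h : Matrix (Fin n) (Fin n) F) : D Q h 0 = 0 := by
  have := D_smul d h 0 0
  rw [zero_smul] at this
  rw [this]
  ring

theorem D_sum (d : QData F n Q) (h : Matrix (Fin n) (Fin n) F) (hh : h * h.transpose = 1)
    {ι : Type*} (s : Finset ι) (x : ι → Fin n → F) :
    D Q h (∑ k ∈ s, x k) = ∑ k ∈ s, D Q h (x k) := by
  classical
  induction s using Finset.induction_on with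
  | empty => simp [D_zero d h]
  | insert a s ha ih => rw [Finset.sum_insert ha, Finset.sum_insert ha, D_add d h hh, ih]

theorem D_eq (d : QData F n Q) (h : Matrix (Fin n) (Fin n) F) (hh : h * h.transpose = 1)
    (v : Fin n → F) : D Q h v = ∑ k, v k ^ 2 * D Q h (Pi.single k 1) := by
  have hv : v = ∑ k, v k • (Pi.single k 1 : Fin n → F) := by
    funext j
    simp [Finset.sum_apply, Pi.single_apply]
  conv_lhs => rw [hv]
  rw [D_sum d h hh]
  apply Finset.sum_congr rfl
  intro k _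
  rw [D_smul d]

/-! ### the square root and the corrected matrix -/

variable [Finite F]

/-- the square root in a finite field of characteristic two -/
noncomputable def sqrtF (h20 : (2 : F) = 0) (c : F) : F := Classical.choose (sq_surj h20 c)

theorem sqrtF_sq (h20 : (2 : F) = 0) (c : F) : sqrtF h20 c ^ 2 = c :=
  Classical.choose_spec (sq_surj h20 c)

/-- the correction vector -/
noncomputable def mu (h20 : (2 : F) = 0) (Q : (Fin n → F) → F) (h : Matrix (Fin n) (Fin n) F) :
    Fin n → F := fun k => sqrtF h20 (D Q h (Pi.single k 1))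

theorem mu_dot_sq (d : QData F n Q) (h : Matrix (Fin n) (Fin n) F) (hh : h * h.transpose = 1)
    (v : Fin n → F) : (mu d.h20 Q h ⬝ᵥ v) ^ 2 = D Q h v := by
  rw [D_eq d h hh, dotProduct, sum_sq d.h20]
  apply Finset.sum_congr rfl
  intro k _
  rw [mul_pow, mu, sqrtF_sq, mul_comm]

/-- the corrected matrix -/
noncomputable def hat (h20 : (2 : F) = 0) (Q : (Fin n → F) → F)
    (h : Matrix (Fin n) (Fin n) F) : Matrix (Fin n) (Fin n) F := h + rowMat (mu h20 Q h)

theorem add_rowMat_mulVec (h : Matrix (Fin n) (Fin n) F) (w v : Fin n → F) :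
    (h + rowMat w) *ᵥ v = h *ᵥ v + (w ⬝ᵥ v) • one1 n F := by
  rw [Matrix.add_mulVec, rowMat_mulVec]

theorem Q_add_rowMat (d : QData F n Q) (h : Matrix (Fin n) (Fin n) F) (w v : Fin n → F) :
    Q ((h + rowMat w) *ᵥ v) = Q (h *ᵥ v) + (w ⬝ᵥ v) ^ 2 := by
  rw [add_rowMat_mulVec, Q_add_smul_one d]

theorem hat_isom (d : QData F n Q) (h : Matrix (Fin n) (Fin n) F) (hh : h * h.transpose = 1)
    (v : Fin n → F) : Q (hat d.h20 Q h *ᵥ v) = Q v := by
  rw [hat, Q_add_rowMat d, mu_dot_sq d h hh, D, ← add_assoc, add_self' d.h20, zero_add]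

/-- uniqueness of the correction -/
theorem mu_unique (d : QData F n Q) (h : Matrix (Fin n) (Fin n) F) (hh : h * h.transpose = 1)
    (w : Fin n → F) (hw : ∀ v, Q ((h + rowMat w) *ᵥ v) = Q v) : w = mu d.h20 Q h := by
  funext k
  apply sq_inj d.h20
  have h1 := hw (Pi.single k 1)
  rw [Q_add_rowMat d] at h1
  have h2 : w k ^ 2 = D Q h (Pi.single k 1) := by
    have e : w ⬝ᵥ (Pi.single k 1 : Fin n → F) = w k := by simp
    rw [e] at h1
    unfold D
    rw [← h1, ← add_assoc, add_self' d.h20, zero_add]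
  rw [h2, mu, sqrtF_sq]

theorem hat_mul (d : QData F n Q) (h₁ h₂ : Matrix (Fin n) (Fin n) F)
    (hh₁ : h₁ * h₁.transpose = 1) (hh₂ : h₂ * h₂.transpose = 1) :
    hat d.h20 Q (h₁ * h₂) = hat d.h20 Q h₁ * hat d.h20 Q h₂ := by
  have hh : (h₁ * h₂) * (h₁ * h₂).transpose = 1 := by
    rw [Matrix.transpose_mul]
    calc h₁ * h₂ * (h₂.transpose * h₁.transpose) = h₁ * (h₂ * h₂.transpose) * h₁.transpose := by
          simp only [Matrix.mul_assoc]
      _ = 1 := by rw [hh₂, Matrix.mul_one, hh₁]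
  have e : hat d.h20 Q h₁ * hat d.h20 Q h₂ = h₁ * h₂ + rowMat (mu d.h20 Q h₂ +
      mu d.h20 Q h₁ ᵥ* (h₂ + rowMat (mu d.h20 Q h₂))) := by
    unfold hat
    rw [Matrix.add_mul, Matrix.mul_add, mul_rowMat h₁ (row_sum d.h20 h₁ hh₁), rowMat_mul,
      rowMat_add, add_assoc]
  have hw := mu_unique d (h₁ * h₂) hh _ (fun v => by
    rw [← e, ← Matrix.mulVec_mulVec, hat_isom d h₁ hh₁, hat_isom d h₂ hh₂])
  rw [e, hw]
  rfl

theorem hat_one (d : QData F n Q) : hat d.h20 Q (1 : Matrix (Fin n) (Fin n) F) = 1 := by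
  have hw := mu_unique d (1 : Matrix (Fin n) (Fin n) F) (by rw [Matrix.transpose_one, Matrix.mul_one])
    0 (fun v => by
      have : rowMat (0 : Fin n → F) = 0 := by
        ext i k
        rfl
      rw [this, add_zero, Matrix.one_mulVec])
  rw [hat, ← hw]
  have : rowMat (0 : Fin n → F) = 0 := by
    ext i k
    rfl
  rw [this, add_zero]

theorem hat_inj (d : QData F n Q) (hn : 1 ≤ n) (h h' : Matrix (Fin n) (Fin n) F)
    (hh : h * h.transpose = 1) (hh' : h' * h'.transpose = 1)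
    (e : hat d.h20 Q h = hat d.h20 Q h') : h = h' := by
  -- `h = h' + rowMat w`
  obtain ⟨w, hw⟩ : ∃ w : Fin n → F, h = h' + rowMat w := by
    refine ⟨mu d.h20 Q h' - mu d.h20 Q h, ?_⟩
    unfold hat at e
    have : rowMat (mu d.h20 Q h' - mu d.h20 Q h) = rowMat (mu d.h20 Q h') - rowMat (mu d.h20 Q h) := by
      ext i k
      rfl
    rw [this]
    rw [← sub_eq_zero] at e ⊢
    rw [← e]
    abel
  have hw0 : w = 0 := by
    funext k
    have c1 := col_sum d.h20 h hh k
    have c2 := col_sum d.h20 h' hh' k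
    rw [hw] at c1
    simp only [Matrix.add_apply, rowMat, Matrix.of_apply, Finset.sum_add_distrib,
      Finset.sum_const, Finset.card_univ, Fintype.card_fin, nsmul_eq_mul] at c1
    rw [c2, d.hn1, one_mul] at c1
    simpa using c1
  rw [hw, hw0]
  have : rowMat (0 : Fin n → F) = 0 := by
    ext i k
    rfl
  rw [this, add_zero]

/-- the polar form -/
theorem polar_eq (d : QData F n Q) (u v : Fin n → F) :
    Q (u + v) + Q u + Q v = lam u * lam v + u ⬝ᵥ v := by
  rw [d.hQp]
  have : Q u + Q v + lam u * lam v + u ⬝ᵥ v + Q u + Q v =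
      lam u * lam v + u ⬝ᵥ v + 2 * (Q u + Q v) := by ring
  rw [this, d.h20, zero_mul, add_zero]

theorem hat_surj (d : QData F n Q) (hn : 1 ≤ n) (k : Matrix (Fin n) (Fin n) F)
    (hkdet : IsUnit k.det) (hk : ∀ v, Q (k *ᵥ v) = Q v) :
    ∃ h : Matrix (Fin n) (Fin n) F, h * h.transpose = 1 ∧ hat d.h20 Q h = k := by
  have h20 := d.h20
  -- `k` preserves the polar form
  have hb : ∀ u v : Fin n → F, lam (k *ᵥ u) * lam (k *ᵥ v) + (k *ᵥ u) ⬝ᵥ (k *ᵥ v) =
      lam u * lam v + u ⬝ᵥ v := by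
    intro u v
    rw [← polar_eq d, ← polar_eq d, ← Matrix.mulVec_add, hk, hk, hk]
  -- the all-ones vector is in the radical
  have hrad : ∀ u : Fin n → F, lam u * lam (one1 n F) + u ⬝ᵥ one1 n F = 0 := by
    intro u
    rw [lam_one1, d.hn1, mul_one, dot_one1, add_self' h20]
  -- `k` fixes the all-ones vector
  have hk1 : k *ᵥ one1 n F = one1 n F := by
    obtain ⟨y, hy⟩ : ∃ y, y = k *ᵥ one1 n F := ⟨_, rfl⟩
    have h1 : ∀ x : Fin n → F, lam x * lam y + x ⬝ᵥ y = 0 := by
      intro x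
      have e : x = k *ᵥ (k⁻¹ *ᵥ x) := by
        rw [Matrix.mulVec_mulVec, Matrix.mul_nonsing_inv k hkdet, Matrix.one_mulVec]
      rw [e, hy, hb, hrad]
    have h2 : ∀ i, y i = lam y := by
      intro i
      have h3 := h1 (Pi.single i 1)
      have e1 : lam (Pi.single i 1 : Fin n → F) = 1 := by
        unfold lam
        simp
      have e2 : (Pi.single i 1 : Fin n → F) ⬝ᵥ y = y i := by simp
      rw [e1, e2, one_mul] at h3
      have : y i = -lam y := by linear_combination h3
      rw [this]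
      have h4 := add_self' h20 (lam y)
      linear_combination -h4
    have h5 : y = lam y • one1 n F := by
      funext i
      simp [one1, h2 i]
    have h6 : lam y ^ 2 = 1 := by
      have h7 : Q y = 1 := by rw [hy, hk, d.hQ1]
      rw [h5, d.hQs, d.hQ1, mul_one] at h7
      exact h7
    have h8 := eq_one_of_sq h20 _ h6
    rw [← hy, h5, h8, one_smul]
  -- the correction
  obtain ⟨ν, hν⟩ : ∃ ν : Fin n → F, ν = fun j => 1 + ∑ i, k i j := ⟨_, rfl⟩
  have hνdot : ∀ v : Fin n → F, ν ⬝ᵥ v = lam v + lam (k *ᵥ v) := by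
    intro v
    rw [hν]
    unfold lam
    simp only [dotProduct, Matrix.mulVec, add_mul, one_mul, Finset.sum_add_distrib]
    congr 1
    rw [Finset.sum_comm]
    apply Finset.sum_congr rfl
    intro i _
    rw [Finset.sum_mul]
  have hrr : rowMat ν + rowMat ν = 0 := by
    ext i j
    show ν j + ν j = 0
    exact add_self' h20 _
  obtain ⟨h, hh⟩ : ∃ h : Matrix (Fin n) (Fin n) F, h = k + rowMat ν := ⟨_, rfl⟩
  have hv : ∀ v : Fin n → F, h *ᵥ v = k *ᵥ v + (ν ⬝ᵥ v) • one1 n F := by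
    intro v
    rw [hh, add_rowMat_mulVec]
  have hlam : ∀ v : Fin n → F, lam (h *ᵥ v) = lam v := by
    intro v
    rw [hv, lam_add, lam_smul, lam_one1, d.hn1, mul_one, hνdot]
    have := add_self' h20 (lam (k *ᵥ v))
    linear_combination this
  have hdot : ∀ u v : Fin n → F, (h *ᵥ u) ⬝ᵥ (h *ᵥ v) = u ⬝ᵥ v := by
    intro u v
    have e1 : lam (h *ᵥ u) * lam (h *ᵥ v) + (h *ᵥ u) ⬝ᵥ (h *ᵥ v) =
        lam (k *ᵥ u) * lam (k *ᵥ v) + (k *ᵥ u) ⬝ᵥ (k *ᵥ v) := by
      rw [hv u, hv v]
      have e2 : ∀ x : Fin n → F, one1 n F ⬝ᵥ x = lam x := fun x => by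
        rw [dotProduct_comm, dot_one1]
      simp only [lam_add, lam_smul, lam_one1, d.hn1, mul_one, add_dotProduct, dotProduct_add,
        smul_dotProduct, dotProduct_smul, smul_eq_mul, dot_one1, e2]
      linear_combination (ν ⬝ᵥ u * lam (k *ᵥ v) + ν ⬝ᵥ v * lam (k *ᵥ u) +
        ν ⬝ᵥ u * (ν ⬝ᵥ v)) * h20
    rw [hb, hlam, hlam] at e1
    exact add_left_cancel e1
  have horth' : h.transpose * h = 1 := by
    ext i j
    have h1 := hdot (Pi.single i 1) (Pi.single j 1)
    rw [Matrix.mulVec_single_one, Matrix.mulVec_single_one] at h1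
    rw [Matrix.mul_apply, Matrix.one_apply]
    have e : (Pi.single i (1 : F) : Fin n → F) ⬝ᵥ Pi.single j 1 = if i = j then 1 else 0 := by
      simp [Pi.single_apply, eq_comm]
    rw [e] at h1
    rw [← h1]
    rfl
  have horth : h * h.transpose = 1 :=
    (Matrix.mul_eq_one_comm_of_card_eq (Fin n) (Fin n) F rfl).mp horth'
  refine ⟨h, horth, ?_⟩
  have hkk : h + rowMat ν = k := by
    rw [hh, add_assoc, hrr, add_zero]
  have hw := mu_unique d h horth ν (fun v => by rw [hkk, hk])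
  rw [hat, ← hw, hkk]

/-- the abstract isomorphism -/
theorem orth_iso_abs (d : QData F n Q) (hn : 1 ≤ n) (O : Subgroup (GL (Fin n) F))
    (hO : ∀ h : GL (Fin n) F, h ∈ O ↔ (h : Matrix (Fin n) (Fin n) F) *
      (h : Matrix (Fin n) (Fin n) F).transpose = 1) :
    Nonempty (↥O ≃* ↥(Cfsg.isometryGroup F Q)) := by
  have hOm : ∀ h : ↥O, (h : GL (Fin n) F).1 * ((h : GL (Fin n) F).1).transpose = 1 :=
    fun h => (hO h).1 h.2
  have hinv : ∀ h : ↥O, hat d.h20 Q (h : GL (Fin n) F).1 *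
      hat d.h20 Q ((h⁻¹ : ↥O) : GL (Fin n) F).1 = 1 := by
    intro h
    rw [← hat_mul d _ _ (hOm h) (hOm h⁻¹)]
    have : (h : GL (Fin n) F).1 * ((h⁻¹ : ↥O) : GL (Fin n) F).1 = 1 := by
      show ((h : GL (Fin n) F) * ((h⁻¹ : ↥O) : GL (Fin n) F) : GL (Fin n) F).1 = 1
      rw [Subgroup.coe_inv, mul_inv_cancel]
      rfl
    rw [this, hat_one d]
  have hinv' : ∀ h : ↥O, hat d.h20 Q ((h⁻¹ : ↥O) : GL (Fin n) F).1 *
      hat d.h20 Q (h : GL (Fin n) F).1 = 1 := by
    intro h
    have := hinv h⁻¹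
    rw [inv_inv] at this
    exact this
  let φ : ↥O →* ↥(Cfsg.isometryGroup F Q) :=
    { toFun := fun h => ⟨⟨hat d.h20 Q (h : GL (Fin n) F).1,
          hat d.h20 Q ((h⁻¹ : ↥O) : GL (Fin n) F).1, hinv h, hinv' h⟩,
          fun u _ => hat_isom d _ (hOm h) u⟩
      map_one' := by
        apply Subtype.ext
        apply Units.ext
        show hat d.h20 Q ((1 : GL (Fin n) F) : Matrix (Fin n) (Fin n) F) = 1
        rw [Units.val_one, hat_one d]
      map_mul' := by
        intro a b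
        apply Subtype.ext
        apply Units.ext
        show hat d.h20 Q (((a : GL (Fin n) F) * (b : GL (Fin n) F) : GL (Fin n) F) :
          Matrix (Fin n) (Fin n) F) = hat d.h20 Q (a : GL (Fin n) F).1 *
            hat d.h20 Q (b : GL (Fin n) F).1
        rw [Units.val_mul, hat_mul d _ _ (hOm a) (hOm b)] }
  have hφ : ∀ h : ↥O, ((φ h : ↥(Cfsg.isometryGroup F Q)) : GL (Fin n) F).1 =
      hat d.h20 Q (h : GL (Fin n) F).1 := fun h => rfl
  have hi : Function.Injective φ := by
    intro a b hab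
    have h1 : hat d.h20 Q (a : GL (Fin n) F).1 = hat d.h20 Q (b : GL (Fin n) F).1 := by
      rw [← hφ, ← hφ, hab]
    exact Subtype.ext (Units.ext (hat_inj d hn _ _ (hOm a) (hOm b) h1))
  have hs : Function.Surjective φ := by
    intro k
    have hkiso : ∀ v : Fin n → F, Q ((k : GL (Fin n) F).1 *ᵥ v) = Q v := fun v => k.2 v v
    obtain ⟨h, hh, hhk⟩ := hat_surj d hn (k : GL (Fin n) F).1
      ((Matrix.isUnit_iff_isUnit_det _).1 (k : GL (Fin n) F).isUnit) hkiso
    have hdet : h.det ≠ 0 := by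
      intro h0
      have := congrArg Matrix.det hh
      rw [Matrix.det_mul, h0, zero_mul, Matrix.det_one] at this
      exact zero_ne_one this
    refine ⟨⟨Matrix.GeneralLinearGroup.mkOfDetNeZero h hdet, (hO _).2 hh⟩, ?_⟩
    apply Subtype.ext
    apply Units.ext
    exact hhk
  exact ⟨MulEquiv.ofBijective φ ⟨hi, hs⟩⟩

end

/-! ### the form `Qhat` -/

section
variable {F : Type*} [Field F]

theorem count_lt (n : ℕ) :
    (∑ i : Fin n, ∑ j : Fin n, if i < j then (1 : ℕ) else 0) = n * (n - 1) / 2 := by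
  have h1 : ∀ i : Fin n, (∑ j : Fin n, if i < j then (1 : ℕ) else 0) = n - 1 - i := by
    intro i
    rw [Finset.sum_boole, Finset.filter_lt_eq_Ioi, Fin.card_Ioi]
    rfl
  simp_rw [h1]
  rw [Fin.sum_univ_eq_sum_range (fun i => n - 1 - i) n, Finset.sum_range_reflect (fun i => i) n,
    Finset.sum_range_id]

theorem Qhat_one1 (h20 : (2 : F) = 0) (m : ℕ) : Qhat m F (one1 (2 * m + 1) F) = 1 := by
  unfold Qhat one1
  have e1 : (∑ i : Fin (2 * m + 1), ∑ j : Fin (2 * m + 1), if i < j then (1 : F) * 1 else 0) =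
      (((2 * m + 1) * m : ℕ) : F) := by
    have h := count_lt (2 * m + 1)
    have h2 : (2 * m + 1) * (2 * m + 1 - 1) / 2 = (2 * m + 1) * m := by
      have : 2 * m + 1 - 1 = m * 2 := by omega
      rw [this, ← Nat.mul_assoc, Nat.mul_div_cancel _ (by norm_num : 0 < 2)]
    rw [h2] at h
    rw [← h]
    push_cast
    simp
  rw [e1]
  simp only [one_pow, Finset.sum_const, Finset.card_univ, Fintype.card_fin, nsmul_eq_mul, mul_one]
  push_cast
  have : (2 * (m : F) + 1) * m + ((m : F) + 1) * (2 * m + 1) = 1 + 2 * (2 * m ^ 2 + 2 * m) := by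
    ring
  rw [this, h20, zero_mul, add_zero]

theorem Qhat_polar (h20 : (2 : F) = 0) (m : ℕ) (u v : Fin (2 * m + 1) → F) :
    Qhat m F (u + v) = Qhat m F u + Qhat m F v + lam u * lam v + u ⬝ᵥ v := by
  classical
  -- the mixed terms
  have key : (∑ i : Fin (2 * m + 1), ∑ j : Fin (2 * m + 1), if i < j then u i * v j else 0) +
      (∑ i : Fin (2 * m + 1), ∑ j : Fin (2 * m + 1), if i < j then v i * u j else 0) + u ⬝ᵥ v =
      lam u * lam v := by
    have e1 : (∑ i : Fin (2 * m + 1), ∑ j : Fin (2 * m + 1), if i < j then v i * u j else 0) =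
        ∑ i : Fin (2 * m + 1), ∑ j : Fin (2 * m + 1), if j < i then u i * v j else 0 := by
      rw [Finset.sum_comm]
      apply Finset.sum_congr rfl
      intro i _
      apply Finset.sum_congr rfl
      intro j _
      split_ifs
      · ring
      · rfl
    have e2 : u ⬝ᵥ v = ∑ i : Fin (2 * m + 1), ∑ j : Fin (2 * m + 1),
        if i = j then u i * v j else 0 := by
      unfold dotProduct
      apply Finset.sum_congr rfl
      intro i _
      rw [Finset.sum_ite_eq]
      simp
    have e3 : lam u * lam v = ∑ i : Fin (2 * m + 1), ∑ j : Fin (2 * m + 1), u i * v j := by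
      unfold lam
      rw [Finset.sum_mul]
      apply Finset.sum_congr rfl
      intro i _
      rw [Finset.mul_sum]
    rw [e1, e2, e3, ← Finset.sum_add_distrib, ← Finset.sum_add_distrib]
    apply Finset.sum_congr rfl
    intro i _
    rw [← Finset.sum_add_distrib, ← Finset.sum_add_distrib]
    apply Finset.sum_congr rfl
    intro j _
    rcases lt_trichotomy i j with h | h | h
    · simp [h, h.ne, not_lt.2 h.le]
    · simp [h]
    · simp [h, h.ne', not_lt.2 h.le]
  unfold Qhat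
  have e4 : (∑ i : Fin (2 * m + 1), ∑ j : Fin (2 * m + 1),
      if i < j then (u + v) i * (u + v) j else 0) =
      (∑ i : Fin (2 * m + 1), ∑ j : Fin (2 * m + 1), if i < j then u i * u j else 0) +
      (∑ i : Fin (2 * m + 1), ∑ j : Fin (2 * m + 1), if i < j then v i * v j else 0) +
      ((∑ i : Fin (2 * m + 1), ∑ j : Fin (2 * m + 1), if i < j then u i * v j else 0) +
      (∑ i : Fin (2 * m + 1), ∑ j : Fin (2 * m + 1), if i < j then v i * u j else 0)) := by
    simp only [← Finset.sum_add_distrib]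
    apply Finset.sum_congr rfl
    intro i _
    apply Finset.sum_congr rfl
    intro j _
    split_ifs
    · simp only [Pi.add_apply]
      ring
    · simp
  have e5 : (∑ i : Fin (2 * m + 1), (u + v) i ^ 2) =
      (∑ i : Fin (2 * m + 1), u i ^ 2) + (∑ i : Fin (2 * m + 1), v i ^ 2) +
        2 * ∑ i : Fin (2 * m + 1), u i * v i := by
    rw [Finset.mul_sum, ← Finset.sum_add_distrib, ← Finset.sum_add_distrib]
    apply Finset.sum_congr rfl
    intro i _
    simp only [Pi.add_apply]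
    ring
  rw [e4, e5, h20, zero_mul, add_zero]
  have hd := add_self' h20 (u ⬝ᵥ v)
  linear_combination key - hd

theorem qdata_Qhat (h20 : (2 : F) = 0) (m : ℕ) : QData F (2 * m + 1) (Qhat m F) where
  h20 := h20
  hn1 := by
    push_cast
    rw [h20, zero_mul, zero_add]
  hQs := Qhat_smul m F
  hQp := Qhat_polar h20 m
  hQ1 := Qhat_one1 h20 m

end

/-- GT5-OISO -/
theorem orth_odd_iso {F : Type*} [Field F] [Fintype F] (h20 : (2 : F) = 0) (m : ℕ)
    (O : Subgroup (GL (Fin (2 * m + 1)) F))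
    (hO : ∀ h : GL (Fin (2 * m + 1)) F, h ∈ O ↔
      (h : Matrix (Fin (2 * m + 1)) (Fin (2 * m + 1)) F) *
        (h : Matrix (Fin (2 * m + 1)) (Fin (2 * m + 1)) F).transpose = 1) :
    Nonempty (↥O ≃* ↥(Cfsg.isometryGroup F (Qhat m F))) :=
  orth_iso_abs (qdata_Qhat h20 m) (by omega) O hO

end Cfsg.Agent.Lib.Helper53.GT5OISO
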