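import Mathlib
import Cfsg.Agent.Lib.Helper53.GT2Main
import Cfsg.Agent.Lib.Helper53.GTALT
import Cfsg.Agent.Lib.Helper53.GT5Def
import Cfsg.Agent.Lib.Helper21.MFABS
import Cfsg.Agent.Lib.Helper31.GT4ALBERT
import Cfsg.Agent.Lib.Helper53.GT4ORTHQ
import Cfsg.Agent.Lib.Helper51.GT5FODD
import Cfsg.Agent.Lib.Helper53.GT5OISO
import Cfsg.Agent.Lib.Helper51.GT5QHAT

set_option autoImplicit false

namespace Cfsg.Agent.Lib.Helper53.GT5Main

open Matrix Cfsg.Agent.Lib.Helper53.AutPSL Cfsg.Agent.Lib.Helper53.GT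
  Cfsg.Agent.Lib.Helper53.GT2Main Cfsg.Agent.Lib.Helper53.GT5Def

/-! # PIECES -/







/-! # ASSEMBLY -/

/-- the orthogonal group of the dot product -/
def orthSub (n : ℕ) (F : Type*) [Field F] : Subgroup (GL (Fin n) F) where
  carrier := {h | (h : Matrix (Fin n) (Fin n) F) * (h : Matrix (Fin n) (Fin n) F).transpose = 1}
  mul_mem' := by
    intro a b ha hb
    show ((a * b : GL (Fin n) F) : Matrix (Fin n) (Fin n) F) *
      ((a * b : GL (Fin n) F) : Matrix (Fin n) (Fin n) F).transpose = 1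
    have ha' : (a : Matrix (Fin n) (Fin n) F) * (a : Matrix (Fin n) (Fin n) F).transpose = 1 := ha
    have hb' : (b : Matrix (Fin n) (Fin n) F) * (b : Matrix (Fin n) (Fin n) F).transpose = 1 := hb
    rw [Units.val_mul, Matrix.transpose_mul]
    calc (a : Matrix (Fin n) (Fin n) F) * (b : Matrix (Fin n) (Fin n) F) *
          ((b : Matrix (Fin n) (Fin n) F).transpose * (a : Matrix (Fin n) (Fin n) F).transpose)
        = (a : Matrix (Fin n) (Fin n) F) * ((b : Matrix (Fin n) (Fin n) F) *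
          (b : Matrix (Fin n) (Fin n) F).transpose) * (a : Matrix (Fin n) (Fin n) F).transpose := by
          simp only [Matrix.mul_assoc]
      _ = 1 := by rw [hb', Matrix.mul_one, ha']
  one_mem' := by
    show ((1 : GL (Fin n) F) : Matrix (Fin n) (Fin n) F) *
      ((1 : GL (Fin n) F) : Matrix (Fin n) (Fin n) F).transpose = 1
    rw [Units.val_one, Matrix.transpose_one, Matrix.mul_one]
  inv_mem' := by
    intro a ha
    have ha' : (a : Matrix (Fin n) (Fin n) F) * (a : Matrix (Fin n) (Fin n) F).transpose = 1 := ha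
    show ((a⁻¹ : GL (Fin n) F) : Matrix (Fin n) (Fin n) F) *
      ((a⁻¹ : GL (Fin n) F) : Matrix (Fin n) (Fin n) F).transpose = 1
    have e1 : ((a⁻¹ : GL (Fin n) F) : Matrix (Fin n) (Fin n) F) =
        (a : Matrix (Fin n) (Fin n) F).transpose := by
      calc ((a⁻¹ : GL (Fin n) F) : Matrix (Fin n) (Fin n) F)
          = ((a⁻¹ : GL (Fin n) F) : Matrix (Fin n) (Fin n) F) *
            ((a : Matrix (Fin n) (Fin n) F) * (a : Matrix (Fin n) (Fin n) F).transpose) := by
            rw [ha', Matrix.mul_one]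
        _ = _ := by rw [← Matrix.mul_assoc, gl_inv_mul, Matrix.one_mul]
    rw [e1, Matrix.transpose_transpose]
    exact (Matrix.mul_eq_one_comm_of_card_eq (Fin n) (Fin n) F rfl).mp ha'

theorem mem_orthSub {n : ℕ} {F : Type*} [Field F] (h : GL (Fin n) F) :
    h ∈ orthSub n F ↔ (h : Matrix (Fin n) (Fin n) F) *
      (h : Matrix (Fin n) (Fin n) F).transpose = 1 := Iff.rfl

/-- conjugation by an element of a subgroup preserves the subgroup -/
theorem map_conj_eq {X : Type*} [Group X] (H : Subgroup X) (a : X) (ha : a ∈ H) :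
    H.map (MulAut.conj a).toMonoidHom = H := by
  ext x
  constructor
  · rintro ⟨y, hy, rfl⟩
    show a * y * a⁻¹ ∈ H
    exact H.mul_mem (H.mul_mem ha hy) (H.inv_mem ha)
  · intro hx
    refine ⟨a⁻¹ * x * a, H.mul_mem (H.mul_mem (H.inv_mem ha) hx) ha, ?_⟩
    show a * (a⁻¹ * x * a) * a⁻¹ = x
    group

/-- congruent matrices give isomorphic centralisers -/
theorem cent_congr {n : ℕ} {F : Type*} [Field F] (g g' h : GL (Fin n) F)
    (hh : (h : Matrix (Fin n) (Fin n) F) * (g : Matrix (Fin n) (Fin n) F) *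
      (h : Matrix (Fin n) (Fin n) F).transpose = (g' : Matrix (Fin n) (Fin n) F)) :
    Nonempty (↥(Cfsg.inndiagPSL n F ⊓ Subgroup.centralizer {iota g * Gam}) ≃*
      ↥(Cfsg.inndiagPSL n F ⊓ Subgroup.centralizer {iota g' * Gam})) := by
  have ha : iota h ∈ Cfsg.inndiagPSL n F := (mem_inndiag _).2 ⟨h, rfl⟩
  obtain ⟨E0⟩ := Cfsg.Agent.Lib.Helper21.MFABS.cent_map (MulAut.conj (iota h))
    (Cfsg.inndiagPSL n F) (iota g * Gam)
  rw [map_conj_eq _ _ ha] at E0
  have e2 : (MulAut.conj (iota h)) (iota g * Gam) = iota g' * Gam := by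
    rw [MulAut.conj_apply, conj_iota_Gam]
    have e3 : h * g * (gti h)⁻¹ = g' := by
      apply Units.ext
      rw [conj_coe]
      exact hh
    rw [e3]
  rw [e2] at E0
  exact ⟨E0⟩

theorem sim_scale {ι : Type} [Fintype ι] [DecidableEq ι] {F : Type*} [Field F]
    (Q : (ι → F) → F) (c : F) (hc : c ≠ 0) :
    Cfsg.Geo.quadSimilarityGroup (F := F) (fun v => c * Q v) =
      Cfsg.Geo.quadSimilarityGroup (F := F) Q := by
  ext g
  constructor
  · rintro ⟨d, hd⟩
    refine ⟨d, fun v => ?_⟩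
    have h1 : c * Q ((g : Matrix ι ι F) *ᵥ v) = (d : F) * (c * Q v) := hd v
    apply mul_left_cancel₀ hc
    rw [h1]
    ring
  · rintro ⟨d, hd⟩
    refine ⟨d, fun v => ?_⟩
    show c * Q ((g : Matrix ι ι F) *ᵥ v) = (d : F) * (c * Q v)
    rw [hd v]
    ring

theorem main_gt5 {F : Type*} [Field F] [Fintype F] {n : ℕ} (hn : 3 ≤ n) {m : ℕ}
    (hnm : n = 2 * m + 1) (γ γ' : MulAut (Matrix.ProjectiveSpecialLinearGroup (Fin n) F))
    (hγ : Cfsg.IsGraphAutClassPSL γ) (hγ2 : orderOf γ = 2) (hγ' : Cfsg.IsGraphAutClassPSL γ')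
    (hγ'2 : orderOf γ' = 2) :
    Nonempty (↥(Cfsg.inndiagPSL n F ⊓ Subgroup.centralizer {γ}) ≃*
      Cfsg.PGO F (Cfsg.quadFormOdd m F)) ∧
    Cfsg.IsConjUnder (Cfsg.inndiagPSL n F) γ γ' := by
  classical
  subst hnm
  obtain ⟨-, g, rfl⟩ := (graph_iff γ).1 hγ
  obtain ⟨-, g', rfl⟩ := (graph_iff γ').1 hγ'
  have hn2 : 2 ≤ 2 * m + 1 := by omega
  have hsq : (iota g * Gam) ^ 2 = 1 := by
    have := pow_orderOf_eq_one (iota g * Gam)
    rwa [hγ2] at this
  have hsq' : (iota g' * Gam) ^ 2 = 1 := by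
    have := pow_orderOf_eq_one (iota g' * Gam)
    rwa [hγ'2] at this
  have hdet := gl_det_ne_zero g
  have hdet' := gl_det_ne_zero g'
  by_cases h2 : (2 : F) = 0
  · -- characteristic two
    have hneg : ∀ M : Matrix (Fin (2 * m + 1)) (Fin (2 * m + 1)) F, -M = M := by
      intro M
      have : M + M = 0 := by rw [← two_smul F M, h2, zero_smul]
      exact neg_eq_of_add_eq_zero_left this
    have hsym : (g : Matrix (Fin (2 * m + 1)) (Fin (2 * m + 1)) F).transpose =
        (g : Matrix (Fin (2 * m + 1)) (Fin (2 * m + 1)) F) := by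
      rcases sym_of_sq hn2 g hsq with hsym | hskw
      · exact hsym
      · rw [hskw, hneg]
    have hsym' : (g' : Matrix (Fin (2 * m + 1)) (Fin (2 * m + 1)) F).transpose =
        (g' : Matrix (Fin (2 * m + 1)) (Fin (2 * m + 1)) F) := by
      rcases sym_of_sq hn2 g' hsq' with hsym | hskw
      · exact hsym
      · rw [hskw, hneg]
    obtain ⟨h, hh⟩ := Cfsg.Agent.Lib.Helper31.GT4ALBERT.albert h2 (g : Matrix (Fin (2 * m + 1)) (Fin (2 * m + 1)) F) hsym hdet
      (Cfsg.Agent.Lib.Helper53.GTALT.diag_ne_zero h2 m _ hsym hdet)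
    obtain ⟨h', hh'⟩ := Cfsg.Agent.Lib.Helper31.GT4ALBERT.albert h2 (g' : Matrix (Fin (2 * m + 1)) (Fin (2 * m + 1)) F) hsym'
      hdet' (Cfsg.Agent.Lib.Helper53.GTALT.diag_ne_zero h2 m _ hsym' hdet')
    constructor
    · obtain ⟨E0⟩ := cent_congr g 1 h (by rw [hh, Units.val_one])
      obtain ⟨E1⟩ := nonempty_centEquivX hn2 (iota (1 : GL (Fin (2 * m + 1)) F) * Gam)
      obtain ⟨E2⟩ := Cfsg.Agent.Lib.Helper53.GT4ORTHQ.orth_quot h2 (by omega : 1 ≤ 2 * m + 1)
        (Ctil (iota (1 : GL (Fin (2 * m + 1)) F) * Gam)) (orthSub (2 * m + 1) F)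
        (fun h => by
          rw [mem_Ctil_iota_Gam hn2, Units.val_one, Matrix.mul_one])
        (fun h => mem_orthSub h)
      obtain ⟨E3⟩ := Cfsg.Agent.Lib.Helper53.GT5OISO.orth_odd_iso h2 m (orthSub (2 * m + 1) F) (fun h => mem_orthSub h)
      obtain ⟨e, he⟩ := Cfsg.Agent.Lib.Helper51.GT5QHAT.qhat_equiv (F := F) h2 m
      have hne : ∃ v, Qhat m F v ≠ 0 := by
        refine ⟨e (Pi.single (Sum.inl ()) 1), ?_⟩
        rw [he]
        simp [Cfsg.quadFormOdd]
      obtain ⟨E4⟩ := Cfsg.Agent.Lib.Helper53.GT4ORTHQ.pgo_char_two h2 (Qhat m F) (Qhat_smul m F) hne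
      obtain ⟨E5⟩ := Cfsg.Agent.Lib.Helper54.GTPGO.pgo_congr (Qhat m F) (Cfsg.quadFormOdd m F) e he
      exact ⟨E0.trans (E1.trans (E2.trans (E3.trans (E4.symm.trans E5))))⟩
    · rw [conj_iff hn2]
      refine ⟨h'⁻¹ * h, 1, ?_⟩
      rw [Units.val_one, one_smul, Units.val_mul, Matrix.transpose_mul]
      have e1 : (h' : Matrix (Fin (2 * m + 1)) (Fin (2 * m + 1)) F).transpose *
          ((h'⁻¹ : GL (Fin (2 * m + 1)) F) : Matrix (Fin (2 * m + 1)) (Fin (2 * m + 1)) F).transpose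
            = 1 := by
        rw [← Matrix.transpose_mul, gl_inv_mul, Matrix.transpose_one]
      calc ((h'⁻¹ : GL (Fin (2 * m + 1)) F) : Matrix (Fin (2 * m + 1)) (Fin (2 * m + 1)) F) *
            (h : Matrix (Fin (2 * m + 1)) (Fin (2 * m + 1)) F) *
            (g : Matrix (Fin (2 * m + 1)) (Fin (2 * m + 1)) F) *
            ((h : Matrix (Fin (2 * m + 1)) (Fin (2 * m + 1)) F).transpose *
            ((h'⁻¹ : GL (Fin (2 * m + 1)) F) :
              Matrix (Fin (2 * m + 1)) (Fin (2 * m + 1)) F).transpose)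
          = ((h'⁻¹ : GL (Fin (2 * m + 1)) F) : Matrix (Fin (2 * m + 1)) (Fin (2 * m + 1)) F) *
            ((h : Matrix (Fin (2 * m + 1)) (Fin (2 * m + 1)) F) *
            (g : Matrix (Fin (2 * m + 1)) (Fin (2 * m + 1)) F) *
            (h : Matrix (Fin (2 * m + 1)) (Fin (2 * m + 1)) F).transpose) *
            ((h'⁻¹ : GL (Fin (2 * m + 1)) F) :
              Matrix (Fin (2 * m + 1)) (Fin (2 * m + 1)) F).transpose := by
            simp only [Matrix.mul_assoc]
        _ = ((h'⁻¹ : GL (Fin (2 * m + 1)) F) : Matrix (Fin (2 * m + 1)) (Fin (2 * m + 1)) F) *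
            ((h' : Matrix (Fin (2 * m + 1)) (Fin (2 * m + 1)) F) *
            (g' : Matrix (Fin (2 * m + 1)) (Fin (2 * m + 1)) F) *
            (h' : Matrix (Fin (2 * m + 1)) (Fin (2 * m + 1)) F).transpose) *
            ((h'⁻¹ : GL (Fin (2 * m + 1)) F) :
              Matrix (Fin (2 * m + 1)) (Fin (2 * m + 1)) F).transpose := by
            rw [hh, hh']
        _ = (((h'⁻¹ : GL (Fin (2 * m + 1)) F) : Matrix (Fin (2 * m + 1)) (Fin (2 * m + 1)) F) *
            (h' : Matrix (Fin (2 * m + 1)) (Fin (2 * m + 1)) F)) *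
            (g' : Matrix (Fin (2 * m + 1)) (Fin (2 * m + 1)) F) *
            ((h' : Matrix (Fin (2 * m + 1)) (Fin (2 * m + 1)) F).transpose *
            ((h'⁻¹ : GL (Fin (2 * m + 1)) F) :
              Matrix (Fin (2 * m + 1)) (Fin (2 * m + 1)) F).transpose) := by
            simp only [Matrix.mul_assoc]
        _ = _ := by rw [e1, gl_inv_mul, Matrix.one_mul, Matrix.mul_one]
  · -- odd characteristic
    have hsymOf : ∀ k : GL (Fin (2 * m + 1)) F, (iota k * Gam) ^ 2 = 1 →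
        (k : Matrix (Fin (2 * m + 1)) (Fin (2 * m + 1)) F).transpose =
          (k : Matrix (Fin (2 * m + 1)) (Fin (2 * m + 1)) F) := by
      intro k hk
      rcases sym_of_sq hn2 k hk with hsym | hskw
      · exact hsym
      · exfalso
        have e1 := congrArg Matrix.det hskw
        rw [Matrix.det_transpose, Matrix.det_neg, Fintype.card_fin, pow_succ, pow_mul] at e1
        have e2 : (2 : F) * (k : Matrix (Fin (2 * m + 1)) (Fin (2 * m + 1)) F).det = 0 := by
          have : ((-1 : F) ^ 2) ^ m = 1 := by simp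
          rw [this] at e1
          linear_combination e1
        rcases mul_eq_zero.1 e2 with h | h
        · exact h2 h
        · exact gl_det_ne_zero k h
    have hsym := hsymOf g hsq
    have hsym' := hsymOf g' hsq'
    constructor
    · obtain ⟨E⟩ := nonempty_centEquivX hn2 (iota g * Gam)
      rw [Ctil_eq_sim h2 hn2 g hsym] at E
      have hNs := inv_transpose_symm g hsym
      have hNd : ((g⁻¹ : GL (Fin (2 * m + 1)) F) :
          Matrix (Fin (2 * m + 1)) (Fin (2 * m + 1)) F).det ≠ 0 := gl_det_ne_zero g⁻¹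
      obtain ⟨c, e, hc0, he⟩ := Cfsg.Agent.Lib.Helper51.GT5FODD.form_odd h2 m _ hNs hNd
      obtain ⟨E2⟩ := Cfsg.Agent.Lib.Helper54.GTPGO.pgo_congr
        (matQ ((g⁻¹ : GL (Fin (2 * m + 1)) F) :
          Matrix (Fin (2 * m + 1)) (Fin (2 * m + 1)) F))
        (fun v => c * Cfsg.quadFormOdd m F v) e he
      have E3 : Cfsg.PGO F (matQ ((g⁻¹ : GL (Fin (2 * m + 1)) F) :
          Matrix (Fin (2 * m + 1)) (Fin (2 * m + 1)) F)) ≃*
          Cfsg.projQuot (Cfsg.Geo.quadSimilarityGroup (F := F)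
            (fun v => c * Cfsg.quadFormOdd m F v)) := E2
      rw [sim_scale _ c hc0] at E3
      exact ⟨E.trans E3⟩
    · rw [conj_iff hn2]
      set c : F := (g : Matrix (Fin (2 * m + 1)) (Fin (2 * m + 1)) F).det *
        (g' : Matrix (Fin (2 * m + 1)) (Fin (2 * m + 1)) F).det with hc
      have hc0 : c ≠ 0 := mul_ne_zero hdet hdet'
      have hdc : (c • (g' : Matrix (Fin (2 * m + 1)) (Fin (2 * m + 1)) F)).det =
          c ^ (2 * m + 1) * (g' : Matrix (Fin (2 * m + 1)) (Fin (2 * m + 1)) F).det := by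
        rw [Matrix.det_smul, Fintype.card_fin]
      obtain ⟨h, hh⟩ := Cfsg.Agent.Lib.Helper78.GTSYM.sym_congr h2
        (g : Matrix (Fin (2 * m + 1)) (Fin (2 * m + 1)) F)
        (c • (g' : Matrix (Fin (2 * m + 1)) (Fin (2 * m + 1)) F)) hsym
        (by rw [Matrix.transpose_smul, hsym']) hdet
        (by rw [hdc]; exact mul_ne_zero (pow_ne_zero _ hc0) hdet')
        (by
          rw [hdc]
          refine ⟨c ^ (m + 1), ?_⟩
          rw [hc]
          ring)
      exact ⟨h, Units.mk0 c hc0, hh⟩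

end Cfsg.Agent.Lib.Helper53.GT5Main
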