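import Mathlib
import Cfsg.Agent.Lib.Helper53.GT6Def
import Cfsg.Agent.Lib.Helper53.SUConj

/-!
# Graph involutions of `PSU_n(q)`: normal form and conjugation (helper53)
-/

set_option autoImplicit false
set_option linter.unusedSectionVars false
set_option linter.unusedVariables false

namespace Cfsg.Agent.Lib.Helper53.GT6

open Matrix Cfsg.Agent.Lib.Helper53.AutPSU Cfsg.Agent.Lib.Helper53.SUGO

variable {F : Type*} [Field F] [Fintype F] {q n : ℕ}

/-- the matrix of an element of `GU` -/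
abbrev mt (A : ↥(Cfsg.GU n F q)) : Matrix (Fin n) (Fin n) F :=
  ((A.1 : GL (Fin n) F) : Matrix (Fin n) (Fin n) F)

theorem mt_mul (A A' : ↥(Cfsg.GU n F q)) : mt (A * A') = mt A * mt A' := rfl

theorem mt_gmapU (σ : F ≃+* F) (A : ↥(Cfsg.GU n F q)) : mt (gmapU σ A) = (mt A).map σ := rfl

theorem mt_mul_inv (A : ↥(Cfsg.GU n F q)) : mt A * mt A⁻¹ = 1 := by
  rw [← mt_mul, mul_inv_cancel]
  rfl

theorem mt_inv_mul (A : ↥(Cfsg.GU n F q)) : mt A⁻¹ * mt A = 1 := by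
  rw [← mt_mul, inv_mul_cancel]
  rfl

theorem mt_unitary (hF : Fintype.card F = q ^ 2) (σ : F ≃+* F) (hσ : ∀ a, σ a = a ^ q)
    (A : ↥(Cfsg.GU n F q)) : (mt A).transpose * (mt A).map σ = 1 := by
  have := (mem_GU_mat hF A.1).1 A.2
  rwa [map_pow_q σ hσ] at this

/-- a unitary matrix is the matrix of an element of `GU` -/
theorem exists_GU (hF : Fintype.card F = q ^ 2) (σ : F ≃+* F) (hσ : ∀ a, σ a = a ^ q)
    (h : Matrix (Fin n) (Fin n) F) (hU : h.transpose * h.map σ = 1) :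
    ∃ A : ↥(Cfsg.GU n F q), mt A = h := by
  have hdet : h.det ≠ 0 := by
    intro h0
    have := congrArg Matrix.det hU
    rw [Matrix.det_mul, Matrix.det_transpose, h0, zero_mul, Matrix.det_one] at this
    exact zero_ne_one this
  refine ⟨⟨GeneralLinearGroup.mkOfDetNeZero h hdet, ?_⟩, rfl⟩
  rw [mem_GU_mat hF, map_pow_q σ hσ]
  exact hU

theorem iotaU_eq_iff (hF : Fintype.card F = q ^ 2) (hn : 3 ≤ n) (A A' : ↥(Cfsg.GU n F q)) :
    (iotaU A : MulAut (Cfsg.PSU n F q)) = iotaU A' ↔ ∃ c : F, c ≠ 0 ∧ mt A = c • mt A' := by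
  constructor
  · intro h
    have h1 : (iotaU (A'⁻¹ * A) : MulAut (Cfsg.PSU n F q)) = 1 := by
      rw [map_mul, map_inv, inv_mul_eq_one, h]
    obtain ⟨c, hc⟩ := (iotaU_eq_one_iff hF hn _).1 h1
    obtain ⟨hc0, -⟩ := scalar_norm_one hF hn _ c hc
    refine ⟨c, hc0, ?_⟩
    have e1 : mt A = mt A' * mt (A'⁻¹ * A) := by
      rw [← mt_mul, mul_inv_cancel_left]
    rw [e1]
    show mt A' * mt (A'⁻¹ * A) = c • mt A'
    have hc' : mt (A'⁻¹ * A) = c • (1 : Matrix (Fin n) (Fin n) F) := hc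
    rw [hc', Matrix.mul_smul, Matrix.mul_one]
  · rintro ⟨c, hc0, hc⟩
    exact iotaU_eq_of_smul A A' c hc0 hc

/-- conjugating `iotaU g * PhiU σ` by `iotaU h` -/
theorem conjU (σ : F ≃+* F) (h g : ↥(Cfsg.GU n F q)) :
    (iotaU h * (iotaU g * PhiU σ) * (iotaU h)⁻¹ : MulAut (Cfsg.PSU n F q)) =
      iotaU (h * g * (gmapU σ h)⁻¹) * PhiU σ := by
  have e : (PhiU σ * (iotaU h)⁻¹ : MulAut (Cfsg.PSU n F q)) =
      (iotaU (gmapU σ h))⁻¹ * PhiU σ := by
    rw [eq_inv_mul_iff_mul_eq, ← mul_assoc, ← PhiU_mul_iotaU, mul_assoc, mul_inv_cancel, mul_one]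
  calc (iotaU h * (iotaU g * PhiU σ) * (iotaU h)⁻¹ : MulAut (Cfsg.PSU n F q))
      = iotaU h * iotaU g * (PhiU σ * (iotaU h)⁻¹) := by group
    _ = iotaU h * iotaU g * ((iotaU (gmapU σ h))⁻¹ * PhiU σ) := by rw [e]
    _ = _ := by
        rw [map_mul, map_mul, map_inv]
        group

/-- when the conjugate of `iotaU g * PhiU σ` by `iotaU h` is `iotaU g' * PhiU σ` -/
theorem conjU_eq_iff (hF : Fintype.card F = q ^ 2) (hn : 3 ≤ n) (σ : F ≃+* F)
    (h g g' : ↥(Cfsg.GU n F q)) :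
    (iotaU h * (iotaU g * PhiU σ) * (iotaU h)⁻¹ : MulAut (Cfsg.PSU n F q)) = iotaU g' * PhiU σ ↔
      ∃ c : F, c ≠ 0 ∧ mt h * mt g = c • (mt g' * (mt h).map σ) := by
  rw [conjU, mul_left_inj, iotaU_eq_iff hF hn]
  have key : mt (h * g * (gmapU σ h)⁻¹) * (mt h).map σ = mt h * mt g := by
    rw [← mt_gmapU, mt_mul, Matrix.mul_assoc, mt_inv_mul, Matrix.mul_one, mt_mul]
  have key2 : mt (h * g * (gmapU σ h)⁻¹) = mt h * mt g * mt (gmapU σ h)⁻¹ := by
    rw [mt_mul, mt_mul]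
  constructor
  · rintro ⟨c, hc0, hc⟩
    refine ⟨c, hc0, ?_⟩
    rw [← key, hc, Matrix.smul_mul]
  · rintro ⟨c, hc0, hc⟩
    refine ⟨c, hc0, ?_⟩
    rw [key2, hc, Matrix.smul_mul, ← mt_gmapU, Matrix.mul_assoc, mt_mul_inv, Matrix.mul_one]

/-- `Inndiag`-conjugacy of two graph involutions in normal form -/
theorem conj_iffU (hF : Fintype.card F = q ^ 2) (hn : 3 ≤ n) (σ : F ≃+* F)
    (g g' : ↥(Cfsg.GU n F q)) :
    Cfsg.IsConjUnder (Cfsg.inndiagPSU n F q) (iotaU g * PhiU σ) (iotaU g' * PhiU σ) ↔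
      ∃ (h : ↥(Cfsg.GU n F q)) (c : F), c ≠ 0 ∧ mt h * mt g = c • (mt g' * (mt h).map σ) := by
  constructor
  · rintro ⟨a, ha, he⟩
    obtain ⟨h, rfl⟩ := (mem_inndiagU a).1 ha
    exact ⟨h, (conjU_eq_iff hF hn σ h g g').1 he.symm⟩
  · rintro ⟨h, hc⟩
    exact ⟨iotaU h, (mem_inndiagU _).2 ⟨h, rfl⟩, ((conjU_eq_iff hF hn σ h g g').2 hc).symm⟩

/-- commuting with a graph involution in normal form -/
theorem comm_iffU (hF : Fintype.card F = q ^ 2) (hn : 3 ≤ n) (σ : F ≃+* F)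
    (g A : ↥(Cfsg.GU n F q)) :
    (iotaU g * PhiU σ * iotaU A : MulAut (Cfsg.PSU n F q)) = iotaU A * (iotaU g * PhiU σ) ↔
      ∃ c : F, c ≠ 0 ∧ mt A * mt g = c • (mt g * (mt A).map σ) := by
  rw [← conjU_eq_iff hF hn σ A g g, mul_inv_eq_iff_eq_mul, eq_comm]

/-- normal form of an involutory graph automorphism of `PSU_n(q)` -/
theorem graph_normal (hF : Fintype.card F = q ^ 2) (hn : 3 ≤ n) (σ : F ≃+* F)
    (hord : orderOf σ = 2) (hcyc : IsCyclic (F ≃+* F)) (γ : MulAut (Cfsg.PSU n F q))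
    (hγ : Cfsg.IsGraphAutClassPSU γ) (hγ2 : orderOf γ = 2) :
    ∃ (g : ↥(Cfsg.GU n F q)) (c : F), c ≠ 0 ∧ γ = iotaU g * PhiU σ ∧
      mt g * (mt g).map σ = c • (1 : Matrix (Fin n) (Fin n) F) := by
  classical
  obtain ⟨-, δ, φ, τ, hev, hδ, hφ, rfl⟩ := hγ
  obtain ⟨g, rfl⟩ := (innerDiagU_iff δ).1 hδ
  rw [stdFieldU_iff] at hφ
  subst hφ
  have hsq : (iotaU g * PhiU τ : MulAut (Cfsg.PSU n F q)) ^ 2 = 1 := by
    rw [← hγ2]
    exact pow_orderOf_eq_one _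
  rw [pow_iotaU_PhiU, ← map_pow] at hsq
  have hsq' : (iotaU (NkU τ 2 g) * PhiU (τ ^ 2) : MulAut (Cfsg.PSU n F q)) =
      iotaU 1 * PhiU 1 := by
    rw [hsq, map_one, map_one, one_mul]
  obtain ⟨hτ2, hN⟩ := iotaU_PhiU_inj hF hn hsq'
  -- `τ = σ`
  have hτ1 : τ ≠ 1 := by
    rintro rfl
    rw [orderOf_one] at hev
    exact absurd hev (by decide)
  have hσ1 : σ ≠ 1 := by
    rintro rfl
    rw [orderOf_one] at hord
    omega
  have hσ2 : σ ^ 2 = 1 := by
    rw [← hord]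
    exact pow_orderOf_eq_one σ
  have hτσ : τ = σ := by
    by_contra hne
    haveI := Fix.finite_ringAut (F := F)
    let _ : Fintype (F ≃+* F) := Fintype.ofFinite _
    have hle := IsCyclic.card_pow_eq_one_le (α := F ≃+* F) (n := 2) (by norm_num)
    have hsub : ({1, σ, τ} : Finset (F ≃+* F)) ⊆
        Finset.univ.filter (fun a : F ≃+* F => a ^ 2 = 1) := by
      intro x hx
      simp only [Finset.mem_insert, Finset.mem_singleton] at hx
      simp only [Finset.mem_filter, Finset.mem_univ, true_and]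
      rcases hx with rfl | rfl | rfl
      · exact one_pow 2
      · exact hσ2
      · exact hτ2
    have hcard : ({1, σ, τ} : Finset (F ≃+* F)).card = 3 := by
      rw [Finset.card_insert_of_notMem, Finset.card_insert_of_notMem, Finset.card_singleton]
      · simpa using Ne.symm hne
      · simp only [Finset.mem_insert, Finset.mem_singleton, not_or]
        exact ⟨Ne.symm hσ1, Ne.symm hτ1⟩
    have := Finset.card_le_card hsub
    omega
  subst hτσ
  rw [map_one] at hN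
  obtain ⟨c, hc⟩ := (iotaU_eq_one_iff hF hn _).1 hN
  obtain ⟨hc0, -⟩ := scalar_norm_one hF hn _ c hc
  refine ⟨g, c, hc0, rfl, ?_⟩
  have e : NkU τ 2 g = g * gmapU τ g := by
    rw [NkU_succ, NkU_succ, NkU_zero, map_one, mul_one]
  rw [e] at hc
  exact hc

/-- a graph involution in normal form is an involutory graph automorphism -/
theorem graph_of_normal (hF : Fintype.card F = q ^ 2) (hn : 3 ≤ n) (σ : F ≃+* F)
    (hord : orderOf σ = 2) (g : ↥(Cfsg.GU n F q)) (c : F)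
    (hg : mt g * (mt g).map σ = c • (1 : Matrix (Fin n) (Fin n) F)) :
    Cfsg.IsGraphAutClassPSU (iotaU g * PhiU σ : MulAut (Cfsg.PSU n F q)) ∧
      orderOf (iotaU g * PhiU σ : MulAut (Cfsg.PSU n F q)) = 2 := by
  refine ⟨⟨hn, iotaU g, PhiU σ, σ, by rw [hord]; decide, (innerDiagU_iff _).2 ⟨g, rfl⟩,
    (stdFieldU_iff _ _).2 rfl, rfl⟩, ?_⟩
  have hσ1 : σ ≠ 1 := by
    rintro rfl
    rw [orderOf_one] at hord
    omega
  have hσ2 : σ ^ 2 = 1 := by
    rw [← hord]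
    exact pow_orderOf_eq_one σ
  apply orderOf_eq_prime
  · rw [pow_iotaU_PhiU, ← map_pow, hσ2, map_one, mul_one]
    have e : NkU σ 2 g = g * gmapU σ g := by
      rw [NkU_succ, NkU_succ, NkU_zero, map_one, mul_one]
    rw [e]
    exact iotaU_scalar _ c hg
  · intro h1
    have h2 : (iotaU g * PhiU σ : MulAut (Cfsg.PSU n F q)) = iotaU 1 * PhiU 1 := by
      rw [h1, map_one, map_one, one_mul]
    exact hσ1 (iotaU_PhiU_inj hF hn h2).1

end Cfsg.Agent.Lib.Helper53.GT6
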