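import Mathlib
import Cfsg.Agent.Lib.Helper53.GT6A
import Cfsg.Agent.Lib.Helper53.GTGraph
import Cfsg.Agent.Lib.Helper1.GT6M1
import Cfsg.Agent.Lib.Helper47.GT6M4
import Cfsg.Agent.Lib.Helper33.GT6M3A
import Cfsg.Agent.Lib.Helper42.GT6M3B

/-!
# The centraliser of a graph involution of `PSU_n(q)` via descent to `PSL_n(F₀)` (helper53)
-/

set_option autoImplicit false
set_option linter.unusedSectionVars false
set_option linter.unusedVariables false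

namespace Cfsg.Agent.Lib.Helper53.GT6

open Matrix Cfsg.Agent.Lib.Helper53.AutPSU Cfsg.Agent.Lib.Helper53.SUGO
  Cfsg.Agent.Lib.Helper53.AutPSL Cfsg.Agent.Lib.Helper53.GT

variable {F : Type*} [Field F] [Fintype F] {q n : ℕ} {F₀ : Type*} [Field F₀] [Fintype F₀]

theorem cancel_right (B : Matrix (Fin n) (Fin n) F) (hB : B.det ≠ 0)
    {X Y : Matrix (Fin n) (Fin n) F} (h : X * B = Y * B) : X = Y := by
  have hBu : IsUnit B.det := isUnit_iff_ne_zero.2 hB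
  have h3 := congrArg (fun M : Matrix (Fin n) (Fin n) F => M * B⁻¹) h
  simp only [Matrix.mul_assoc, Matrix.mul_nonsing_inv _ hBu, Matrix.mul_one] at h3
  exact h3

theorem cancel_left (B : Matrix (Fin n) (Fin n) F) (hB : B.det ≠ 0)
    {X Y : Matrix (Fin n) (Fin n) F} (h : B * X = B * Y) : X = Y := by
  have hBu : IsUnit B.det := isUnit_iff_ne_zero.2 hB
  have h3 := congrArg (fun M : Matrix (Fin n) (Fin n) F => B⁻¹ * M) h
  simp only [← Matrix.mul_assoc, Matrix.nonsing_inv_mul _ hBu, Matrix.one_mul] at h3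
  exact h3

theorem det_map_sigma (σ : F ≃+* F) (B : Matrix (Fin n) (Fin n) F) (hB : B.det ≠ 0) :
    (B.map σ).det ≠ 0 := by
  have h : (B.map σ).det = σ B.det := by
    have := RingHom.map_det (σ : F →+* F) B
    exact this.symm
  rw [h]
  exact (map_ne_zero σ).2 hB

/-- M2c: a twisted real matrix intertwines `g` and `g'` up to a scalar -/
theorem rel_of_twist (σ : F ≃+* F) (j : F₀ →+* F) (hj : ∀ a : F, σ a = a ↔ a ∈ Set.range j)
    (g B g' B' : Matrix (Fin n) (Fin n) F) (g₀ g₀' : Matrix (Fin n) (Fin n) F₀)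
    (hD : Desc σ j g B g₀) (hD' : Desc σ j g' B' g₀') (h : Matrix (Fin n) (Fin n) F) (d : F)
    (hd : d ≠ 0) (k₀ : Matrix (Fin n) (Fin n) F₀) (hh : h * B = d • (B' * k₀.map j)) :
    ∃ c : F, c ≠ 0 ∧ h * g = c • (g' * h.map σ) := by
  obtain ⟨hB, ⟨c₁, hc₁0, hc₁⟩, -⟩ := hD
  obtain ⟨hB', ⟨c₂, hc₂0, hc₂⟩, -⟩ := hD'
  have hσd : σ d ≠ 0 := (map_ne_zero σ).2 hd
  refine ⟨c₁ * d / (σ d * c₂), div_ne_zero (mul_ne_zero hc₁0 hd) (mul_ne_zero hσd hc₂0), ?_⟩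
  apply cancel_right (B.map σ) (det_map_sigma σ B hB)
  have e1 : h * g * B.map σ = (c₁ * d) • (B' * k₀.map j) := by
    rw [Matrix.mul_assoc, hc₁, Matrix.mul_smul, hh, smul_smul]
  have e2 : g' * h.map σ * B.map σ = (σ d * c₂) • (B' * k₀.map j) := by
    rw [Matrix.mul_assoc, ← map_sigma_mul, hh, map_sigma_smul, map_sigma_mul, map_sigma_j σ j hj,
      Matrix.mul_smul, ← Matrix.mul_assoc, hc₂, Matrix.smul_mul, smul_smul]
  rw [e1, Matrix.smul_mul, e2, smul_smul, div_mul_cancel₀ _ (mul_ne_zero hσd hc₂0)]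

section Theta

/-- existence of the twisted unitary matrix of an element of `Ctil (iota g₀ * Gam)` -/
theorem exists_tw (hF : Fintype.card F = q ^ 2) (hn : 3 ≤ n) (σ : F ≃+* F)
    (hσ : ∀ a, σ a = a ^ q) (hord : orderOf σ = 2) (j : F₀ →+* F)
    (hj : ∀ a : F, σ a = a ↔ a ∈ Set.range j) (g : ↥(Cfsg.GU n F q))
    (B : Matrix (Fin n) (Fin n) F) (g₀ : GL (Fin n) F₀)
    (hD : Desc σ j (mt g) B (g₀ : Matrix (Fin n) (Fin n) F₀))
    (k : ↥(Ctil (iota g₀ * Gam))) :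
    ∃ (A : ↥(Cfsg.GU n F q)) (d : F), d ≠ 0 ∧
      mt A * B = d • (B * ((k : GL (Fin n) F₀) : Matrix (Fin n) (Fin n) F₀).map j) := by
  obtain ⟨c, hc⟩ := (mem_Ctil_iota_Gam (by omega) g₀ k.1).1 k.2
  obtain ⟨h, d, hd, hU, hh⟩ := Cfsg.Agent.Lib.Helper42.GT6M3B.congr_twist σ hord j hj (by omega) (mt g) B (mt g) B
    (g₀ : Matrix (Fin n) (Fin n) F₀) (g₀ : Matrix (Fin n) (Fin n) F₀) hD hD
    (gl_det_ne_zero g₀) (gl_det_ne_zero g₀) ((k : GL (Fin n) F₀) : Matrix (Fin n) (Fin n) F₀)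
    (c : F₀) c.ne_zero (gl_det_ne_zero _) hc
  obtain ⟨A, hA⟩ := exists_GU hF σ hσ h hU
  exact ⟨A, d, hd, by rw [hA]; exact hh⟩

/-- the chosen twist -/
noncomputable def tw (hF : Fintype.card F = q ^ 2) (hn : 3 ≤ n) (σ : F ≃+* F)
    (hσ : ∀ a, σ a = a ^ q) (hord : orderOf σ = 2) (j : F₀ →+* F)
    (hj : ∀ a : F, σ a = a ↔ a ∈ Set.range j) (g : ↥(Cfsg.GU n F q))
    (B : Matrix (Fin n) (Fin n) F) (g₀ : GL (Fin n) F₀)
    (hD : Desc σ j (mt g) B (g₀ : Matrix (Fin n) (Fin n) F₀))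
    (k : ↥(Ctil (iota g₀ * Gam))) : ↥(Cfsg.GU n F q) :=
  Classical.choose (exists_tw hF hn σ hσ hord j hj g B g₀ hD k)

theorem tw_spec (hF : Fintype.card F = q ^ 2) (hn : 3 ≤ n) (σ : F ≃+* F)
    (hσ : ∀ a, σ a = a ^ q) (hord : orderOf σ = 2) (j : F₀ →+* F)
    (hj : ∀ a : F, σ a = a ↔ a ∈ Set.range j) (g : ↥(Cfsg.GU n F q))
    (B : Matrix (Fin n) (Fin n) F) (g₀ : GL (Fin n) F₀)
    (hD : Desc σ j (mt g) B (g₀ : Matrix (Fin n) (Fin n) F₀))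
    (k : ↥(Ctil (iota g₀ * Gam))) :
    ∃ d : F, d ≠ 0 ∧ mt (tw hF hn σ hσ hord j hj g B g₀ hD k) * B =
      d • (B * ((k : GL (Fin n) F₀) : Matrix (Fin n) (Fin n) F₀).map j) :=
  Classical.choose_spec (exists_tw hF hn σ hσ hord j hj g B g₀ hD k)

theorem iotaU_tw_eq (hF : Fintype.card F = q ^ 2) (hn : 3 ≤ n) (σ : F ≃+* F)
    (hσ : ∀ a, σ a = a ^ q) (hord : orderOf σ = 2) (j : F₀ →+* F)
    (hj : ∀ a : F, σ a = a ↔ a ∈ Set.range j) (g : ↥(Cfsg.GU n F q))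
    (B : Matrix (Fin n) (Fin n) F) (g₀ : GL (Fin n) F₀)
    (hD : Desc σ j (mt g) B (g₀ : Matrix (Fin n) (Fin n) F₀))
    (k : ↥(Ctil (iota g₀ * Gam))) (A : ↥(Cfsg.GU n F q)) (d : F) (hd : d ≠ 0)
    (hA : mt A * B = d • (B * ((k : GL (Fin n) F₀) : Matrix (Fin n) (Fin n) F₀).map j)) :
    (iotaU A : MulAut (Cfsg.PSU n F q)) = iotaU (tw hF hn σ hσ hord j hj g B g₀ hD k) := by
  obtain ⟨d', hd', hT⟩ := tw_spec hF hn σ hσ hord j hj g B g₀ hD k
  apply iotaU_eq_of_smul A _ (d / d') (div_ne_zero hd hd')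
  apply cancel_right B hD.1
  show mt A * B = (d / d') • mt (tw hF hn σ hσ hord j hj g B g₀ hD k) * B
  rw [Matrix.smul_mul, hT, hA, smul_smul, div_mul_cancel₀ _ hd']

/-- the map `Ctil (iota g₀ * Gam) → Aut(PSU_n(F))` -/
noncomputable def ThetaD (hF : Fintype.card F = q ^ 2) (hn : 3 ≤ n) (σ : F ≃+* F)
    (hσ : ∀ a, σ a = a ^ q) (hord : orderOf σ = 2) (j : F₀ →+* F)
    (hj : ∀ a : F, σ a = a ↔ a ∈ Set.range j) (g : ↥(Cfsg.GU n F q))
    (B : Matrix (Fin n) (Fin n) F) (g₀ : GL (Fin n) F₀)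
    (hD : Desc σ j (mt g) B (g₀ : Matrix (Fin n) (Fin n) F₀)) :
    ↥(Ctil (iota g₀ * Gam)) →* MulAut (Cfsg.PSU n F q) :=
  MonoidHom.mk' (fun k => iotaU (tw hF hn σ hσ hord j hj g B g₀ hD k)) (by
    intro k k'
    obtain ⟨d, hd, hT⟩ := tw_spec hF hn σ hσ hord j hj g B g₀ hD k
    obtain ⟨d', hd', hT'⟩ := tw_spec hF hn σ hσ hord j hj g B g₀ hD k'
    rw [← map_mul]
    symm
    apply iotaU_tw_eq hF hn σ hσ hord j hj g B g₀ hD (k * k') _ (d * d') (mul_ne_zero hd hd')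
    have e : (((k * k' : ↥(Ctil (iota g₀ * Gam))) : GL (Fin n) F₀) :
        Matrix (Fin n) (Fin n) F₀).map j =
        ((k : GL (Fin n) F₀) : Matrix (Fin n) (Fin n) F₀).map j *
          ((k' : GL (Fin n) F₀) : Matrix (Fin n) (Fin n) F₀).map j := by
      rw [← Matrix.map_mul]
      rfl
    rw [mt_mul, Matrix.mul_assoc, hT', Matrix.mul_smul, ← Matrix.mul_assoc, hT, Matrix.smul_mul,
      smul_smul, e, Matrix.mul_assoc, mul_comm])

theorem ThetaD_apply (hF : Fintype.card F = q ^ 2) (hn : 3 ≤ n) (σ : F ≃+* F)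
    (hσ : ∀ a, σ a = a ^ q) (hord : orderOf σ = 2) (j : F₀ →+* F)
    (hj : ∀ a : F, σ a = a ↔ a ∈ Set.range j) (g : ↥(Cfsg.GU n F q))
    (B : Matrix (Fin n) (Fin n) F) (g₀ : GL (Fin n) F₀)
    (hD : Desc σ j (mt g) B (g₀ : Matrix (Fin n) (Fin n) F₀))
    (k : ↥(Ctil (iota g₀ * Gam))) :
    ThetaD hF hn σ hσ hord j hj g B g₀ hD k =
      iotaU (tw hF hn σ hσ hord j hj g B g₀ hD k) := rfl

theorem ThetaD_range (hF : Fintype.card F = q ^ 2) (hn : 3 ≤ n) (σ : F ≃+* F)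
    (hσ : ∀ a, σ a = a ^ q) (hord : orderOf σ = 2) (j : F₀ →+* F)
    (hj : ∀ a : F, σ a = a ↔ a ∈ Set.range j) (g : ↥(Cfsg.GU n F q))
    (B : Matrix (Fin n) (Fin n) F) (g₀ : GL (Fin n) F₀)
    (hD : Desc σ j (mt g) B (g₀ : Matrix (Fin n) (Fin n) F₀)) :
    (ThetaD hF hn σ hσ hord j hj g B g₀ hD).range =
      Cfsg.inndiagPSU n F q ⊓ Subgroup.centralizer {(iotaU g * PhiU σ : MulAut (Cfsg.PSU n F q))} := by
  apply le_antisymm
  · rintro _ ⟨k, rfl⟩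
    rw [ThetaD_apply]
    refine ⟨(mem_inndiagU _).2 ⟨_, rfl⟩, ?_⟩
    refine (mem_centU_iff _ _).2 ?_
    obtain ⟨d, hd, hT⟩ := tw_spec hF hn σ hσ hord j hj g B g₀ hD k
    rw [comm_iffU hF hn]
    exact rel_of_twist σ j hj (mt g) B (mt g) B _ _ hD hD _ d hd _ hT
  · rintro β ⟨hβD, hβC⟩
    obtain ⟨A, rfl⟩ := (mem_inndiagU β).1 hβD
    have hA := (mem_centU_iff _ _).1 hβC
    rw [comm_iffU hF hn] at hA
    obtain ⟨c, hc0, hc⟩ := hA
    obtain ⟨d, k₀, μ, hd, hμ, hk₀, hAB, hk⟩ := Cfsg.Agent.Lib.Helper33.GT6M3A.conj_param σ hord j hj (by omega) (mt g) B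
      (mt g) B (g₀ : Matrix (Fin n) (Fin n) F₀) (g₀ : Matrix (Fin n) (Fin n) F₀) hD hD
      (gl_det_ne_zero g₀) (gl_det_ne_zero g₀) (mt A) (mt_unitary hF σ hσ A) c hc0 hc
    let K : GL (Fin n) F₀ := GeneralLinearGroup.mkOfDetNeZero k₀ hk₀
    have hK : K ∈ Ctil (iota g₀ * Gam) :=
      (mem_Ctil_iota_Gam (by omega) g₀ K).2 ⟨Units.mk0 μ hμ, hk⟩
    refine ⟨⟨K, hK⟩, ?_⟩
    rw [ThetaD_apply]
    symm
    exact iotaU_tw_eq hF hn σ hσ hord j hj g B g₀ hD ⟨K, hK⟩ A d hd hAB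

theorem ThetaD_ker (hF : Fintype.card F = q ^ 2) (hn : 3 ≤ n) (σ : F ≃+* F)
    (hσ : ∀ a, σ a = a ^ q) (hord : orderOf σ = 2) (j : F₀ →+* F)
    (hj : ∀ a : F, σ a = a ↔ a ∈ Set.range j) (g : ↥(Cfsg.GU n F q))
    (B : Matrix (Fin n) (Fin n) F) (g₀ : GL (Fin n) F₀)
    (hD : Desc σ j (mt g) B (g₀ : Matrix (Fin n) (Fin n) F₀)) :
    (ThetaD hF hn σ hσ hord j hj g B g₀ hD).ker =
      (Cfsg.Geo.scalars (Fin n) F₀).subgroupOf (Ctil (iota g₀ * Gam)) := by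
  ext k
  rw [MonoidHom.mem_ker, Subgroup.mem_subgroupOf, Cfsg.Geo.mem_scalars_iff, ThetaD_apply]
  obtain ⟨d, hd, hT⟩ := tw_spec hF hn σ hσ hord j hj g B g₀ hD k
  constructor
  · intro h
    obtain ⟨l, hl⟩ := (iotaU_eq_one_iff hF hn _).1 h
    have hl' : mt (tw hF hn σ hσ hord j hj g B g₀ hD k) = l • (1 : Matrix (Fin n) (Fin n) F) := hl
    rw [hl', Matrix.smul_mul, Matrix.one_mul] at hT
    have hkj : ((k : GL (Fin n) F₀) : Matrix (Fin n) (Fin n) F₀).map j =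
        (l / d) • (1 : Matrix (Fin n) (Fin n) F) := by
      apply cancel_left B hD.1
      rw [Matrix.mul_smul, Matrix.mul_one, div_eq_inv_mul, ← smul_smul, hT, smul_smul,
        inv_mul_cancel₀ hd, one_smul]
    have hc' : ∀ a b, j (((k : GL (Fin n) F₀) : Matrix (Fin n) (Fin n) F₀) a b) =
        if a = b then l / d else 0 := by
      intro a b
      have h2' := congrFun (congrFun hkj a) b
      simp only [Matrix.smul_apply, Matrix.map_apply, smul_eq_mul, Matrix.one_apply] at h2'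
      by_cases hab : a = b
      · rw [if_pos hab] at h2' ⊢
        rw [h2', mul_one]
      · rw [if_neg hab] at h2' ⊢
        rw [mul_zero] at h2'
        exact h2'
    obtain ⟨c₀, hc₀⟩ : ∃ c₀ : F₀, c₀ = ((k : GL (Fin n) F₀) : Matrix (Fin n) (Fin n) F₀)
        ⟨0, by omega⟩ ⟨0, by omega⟩ := ⟨_, rfl⟩
    have hjc : j c₀ = l / d := by
      rw [hc₀, hc', if_pos rfl]
    have hBeq : ((k : GL (Fin n) F₀) : Matrix (Fin n) (Fin n) F₀) =
        c₀ • (1 : Matrix (Fin n) (Fin n) F₀) := by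
      ext a b
      apply j.injective
      rw [hc' a b]
      by_cases hab : a = b
      · subst hab
        simp [hjc]
      · simp [Matrix.one_apply, hab]
    have hc₀0 : c₀ ≠ 0 := by
      rintro rfl
      rw [zero_smul] at hBeq
      have h1 := gl_det_ne_zero (k : GL (Fin n) F₀)
      haveI : Nonempty (Fin n) := ⟨⟨0, by omega⟩⟩
      rw [hBeq, Matrix.det_zero] at h1
      exact h1 rfl
    exact ⟨Units.mk0 c₀ hc₀0, hBeq⟩
  · rintro ⟨c, hc⟩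
    apply iotaU_scalar _ (d * j (c : F₀))
    apply cancel_right B hD.1
    show mt (tw hF hn σ hσ hord j hj g B g₀ hD k) * B = _
    rw [hT, hc, Matrix.smul_mul, Matrix.one_mul]
    have e2 : ((c : F₀) • (1 : Matrix (Fin n) (Fin n) F₀)).map j =
        j (c : F₀) • (1 : Matrix (Fin n) (Fin n) F) := by
      ext a b
      by_cases hab : a = b
      · subst hab
        simp
      · simp [Matrix.one_apply, hab]
    rw [e2, Matrix.mul_smul, Matrix.mul_one, smul_smul]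

/-- the centraliser of a graph involution of `PSU_n(q)` with a descent datum is the centraliser
of the corresponding graph involution of `PSL_n(F₀)` -/
theorem nonempty_centEquivD (hF : Fintype.card F = q ^ 2) (hn : 3 ≤ n) (σ : F ≃+* F)
    (hσ : ∀ a, σ a = a ^ q) (hord : orderOf σ = 2) (j : F₀ →+* F)
    (hj : ∀ a : F, σ a = a ↔ a ∈ Set.range j) (g : ↥(Cfsg.GU n F q))
    (B : Matrix (Fin n) (Fin n) F) (g₀ : GL (Fin n) F₀)
    (hD : Desc σ j (mt g) B (g₀ : Matrix (Fin n) (Fin n) F₀)) :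
    Nonempty (↥(Cfsg.inndiagPSU n F q ⊓
      Subgroup.centralizer {(iotaU g * PhiU σ : MulAut (Cfsg.PSU n F q))}) ≃*
        ↥(Cfsg.inndiagPSL n F₀ ⊓ Subgroup.centralizer
          {(iota g₀ * Gam : MulAut (ProjectiveSpecialLinearGroup (Fin n) F₀))})) := by
  have e1 := MulEquiv.subgroupCongr (ThetaD_range hF hn σ hσ hord j hj g B g₀ hD).symm
  have e2 := QuotientGroup.quotientKerEquivRange (ThetaD hF hn σ hσ hord j hj g B g₀ hD)
  have e3 : ↥(Ctil (iota g₀ * Gam)) ⧸ (ThetaD hF hn σ hσ hord j hj g B g₀ hD).ker ≃*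
      Cfsg.projQuot (Ctil (iota g₀ * Gam)) :=
    QuotientGroup.quotientMulEquivOfEq (ThetaD_ker hF hn σ hσ hord j hj g B g₀ hD)
  obtain ⟨E⟩ := nonempty_centEquivX (F := F₀) (by omega : 2 ≤ n) (iota g₀ * Gam)
  exact ⟨(e1.trans (e2.symm.trans e3)).trans E.symm⟩

end Theta

end Cfsg.Agent.Lib.Helper53.GT6
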