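import Mathlib
import Cfsg.Agent.Lib.Helper53.GT6B
import Cfsg.Agent.Lib.Helper53.GTGAM
import Cfsg.Agent.Lib.Helper53.GT2Main
import Cfsg.Agent.Lib.Helper53.GT4Main
import Cfsg.Agent.Lib.Helper53.GT5Main
import Cfsg.Agent.Lib.Helper1.GT6M1
import Cfsg.Agent.Lib.Helper47.GT6M4
import Cfsg.Agent.Lib.Helper33.GT6M3A
import Cfsg.Agent.Lib.Helper42.GT6M3B

/-!
# Involutory graph automorphisms of `PSU_n(q)` correspond to those of `PSL_n(F₀)` (helper53)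
-/

set_option autoImplicit false
set_option linter.unusedSectionVars false
set_option linter.unusedVariables false

namespace Cfsg.Agent.Lib.Helper53.GT6

open Matrix Cfsg.Agent.Lib.Helper53.AutPSU Cfsg.Agent.Lib.Helper53.SUGO
  Cfsg.Agent.Lib.Helper53.AutPSL Cfsg.Agent.Lib.Helper53.GT

variable {F : Type*} [Field F] [Fintype F] {q n : ℕ} {F₀ : Type*} [Field F₀] [Fintype F₀]

/-- the `q`-Frobenius of `F`, the cyclicity of `Aut F` and the embedding of `F₀` -/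
theorem setup (hF : Fintype.card F = q ^ 2) (F₀ : Type*) [Field F₀] [Fintype F₀]
    (hF₀ : Fintype.card F₀ = q) :
    ∃ σ : F ≃+* F, (∀ a, σ a = a ^ q) ∧ orderOf σ = 2 ∧ IsCyclic (F ≃+* F) ∧
      ∃ j : F₀ →+* F, ∀ a : F, σ a = a ↔ a ∈ Set.range j := by
  classical
  obtain ⟨k, hp, hk⟩ := FiniteField.card F₀ (ringChar F₀)
  haveI : Fact (ringChar F₀).Prime := ⟨hp⟩
  have hq : q = ringChar F₀ ^ (k : ℕ) := by rw [← hF₀, hk]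
  have hF' : Fintype.card F = ringChar F₀ ^ (2 * (k : ℕ)) := by
    rw [hF, hq, ← pow_mul, mul_comm]
  have hq2 : 2 ≤ q := by
    have := Fintype.one_lt_card (α := F₀)
    omega
  have hσ : ∀ a : F, frobE hF a = a ^ q := frobE_apply hF
  have hord : orderOf (frobE hF) = 2 := by
    apply orderOf_eq_prime
    · ext a
      show frobE hF (frobE hF a) = a
      rw [hσ, hσ, ← pow_mul, ← pow_two, ← hF, FiniteField.pow_card]
    · intro h1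
      have hall : ∀ x : Fˣ, x ^ (q - 1) = 1 := by
        intro x
        apply Units.ext
        have h2 : (x : F) ^ q = x := by
          rw [← hσ, h1]
          rfl
        have h3 : (x : F) ^ (q - 1) * x = x := by
          rw [← pow_succ, Nat.sub_add_cancel (by omega)]
          exact h2
        rw [Units.val_pow_eq_pow_val, Units.val_one]
        exact mul_right_cancel₀ x.ne_zero (by rw [h3, one_mul])
      have hdvd := (FiniteField.forall_pow_eq_one_iff F (q - 1)).1 hall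
      rw [hF] at hdvd
      have hle := Nat.le_of_dvd (by omega) hdvd
      have h5 : 2 * q ≤ q ^ 2 := by nlinarith
      omega
  obtain ⟨j, hj⟩ := Fix.exists_embedding hF' (frobE hF) hord F₀
    (by rw [hk, Nat.mul_div_cancel_left _ (by norm_num : 0 < 2)])
  haveI : CharP F (ringChar F₀) := charP_of_card' hF'
  exact ⟨frobE hF, hσ, hord, (ringAut_cyclic' hF').1, j, hj⟩

/-- the correspondence between graph involutions of `PSU_n(F)` and of `PSL_n(F₀)` -/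
def Rel (σ : F ≃+* F) (j : F₀ →+* F) (γ : MulAut (Cfsg.PSU n F q))
    (γ₀ : MulAut (ProjectiveSpecialLinearGroup (Fin n) F₀)) : Prop :=
  ∃ (g : ↥(Cfsg.GU n F q)) (B : Matrix (Fin n) (Fin n) F) (g₀ : GL (Fin n) F₀),
    γ = iotaU g * PhiU σ ∧ γ₀ = iota g₀ * Gam ∧
      Desc σ j (mt g) B (g₀ : Matrix (Fin n) (Fin n) F₀) ∧
      ((g₀ : Matrix (Fin n) (Fin n) F₀).transpose = (g₀ : Matrix (Fin n) (Fin n) F₀) ∨
        (g₀ : Matrix (Fin n) (Fin n) F₀).transpose = -(g₀ : Matrix (Fin n) (Fin n) F₀))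

theorem rel_left (hF : Fintype.card F = q ^ 2) (hn : 3 ≤ n) (σ : F ≃+* F)
    (hσ : ∀ a, σ a = a ^ q) (hord : orderOf σ = 2) (hcyc : IsCyclic (F ≃+* F)) (j : F₀ →+* F)
    (hj : ∀ a : F, σ a = a ↔ a ∈ Set.range j) (γ : MulAut (Cfsg.PSU n F q))
    (hγ : Cfsg.IsGraphAutClassPSU γ) (hγ2 : orderOf γ = 2) :
    ∃ γ₀ : MulAut (ProjectiveSpecialLinearGroup (Fin n) F₀), Rel σ j γ γ₀ := by
  obtain ⟨g, c, hc0, rfl, hg⟩ := graph_normal hF hn σ hord hcyc γ hγ hγ2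
  obtain ⟨B, g₀, hdet, hs, hD⟩ := Cfsg.Agent.Lib.Helper1.GT6M1.desc_exists σ hord j hj (by omega) (mt g)
    (mt_unitary hF σ hσ g) c hc0 hg
  exact ⟨iota (GeneralLinearGroup.mkOfDetNeZero g₀ hdet) * Gam, g, B,
    GeneralLinearGroup.mkOfDetNeZero g₀ hdet, rfl, rfl, hD, hs⟩

theorem rel_right (hF : Fintype.card F = q ^ 2) (hn : 3 ≤ n) (σ : F ≃+* F)
    (hσ : ∀ a, σ a = a ^ q) (hord : orderOf σ = 2) (j : F₀ →+* F)
    (hj : ∀ a : F, σ a = a ↔ a ∈ Set.range j)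
    (γ₀ : MulAut (ProjectiveSpecialLinearGroup (Fin n) F₀))
    (hγ₀ : Cfsg.IsGraphAutClassPSL γ₀) (hγ₀2 : orderOf γ₀ = 2) :
    ∃ γ : MulAut (Cfsg.PSU n F q), Rel σ j γ γ₀ := by
  obtain ⟨-, g₀, rfl⟩ := (graph_iff γ₀).1 hγ₀
  have hsq : (iota g₀ * Gam : MulAut (ProjectiveSpecialLinearGroup (Fin n) F₀)) ^ 2 = 1 := by
    rw [← hγ₀2]
    exact pow_orderOf_eq_one _
  have hs := sym_of_sq (by omega) g₀ hsq
  obtain ⟨g, B, hU, hD⟩ := Cfsg.Agent.Lib.Helper47.GT6M4.desc_surj σ hord j hj (by omega)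
    (g₀ : Matrix (Fin n) (Fin n) F₀) (gl_det_ne_zero g₀) hs
  obtain ⟨A, hA⟩ := exists_GU (q := q) hF σ hσ g hU
  exact ⟨iotaU A * PhiU σ, A, B, g₀, rfl, rfl, by rw [hA]; exact hD, hs⟩

theorem rel_props (hF : Fintype.card F = q ^ 2) (hn : 3 ≤ n) (σ : F ≃+* F)
    (hord : orderOf σ = 2) (j : F₀ →+* F) {γ : MulAut (Cfsg.PSU n F q)}
    {γ₀ : MulAut (ProjectiveSpecialLinearGroup (Fin n) F₀)} (h : Rel σ j γ γ₀) :
    Cfsg.IsGraphAutClassPSU γ ∧ orderOf γ = 2 ∧ Cfsg.IsGraphAutClassPSL γ₀ ∧ orderOf γ₀ = 2 := by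
  obtain ⟨g, B, g₀, rfl, rfl, hD, hs⟩ := h
  obtain ⟨c, hc0, hc⟩ := desc_sq σ (sigma_sigma σ hord) j (mt g) B _ hD
  have h1 := graph_of_normal hF hn σ hord g c hc
  exact ⟨h1.1, h1.2, (graph_iff _).2 ⟨hn, g₀, rfl⟩,
    order_two (by omega) (fun h => GTGAM.Gam_ne_iota hn h) g₀ hs⟩

theorem rel_conj (hF : Fintype.card F = q ^ 2) (hn : 3 ≤ n) (σ : F ≃+* F)
    (hσ : ∀ a, σ a = a ^ q) (hord : orderOf σ = 2) (j : F₀ →+* F)
    (hj : ∀ a : F, σ a = a ↔ a ∈ Set.range j) {γ γ' : MulAut (Cfsg.PSU n F q)}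
    {γ₀ γ₀' : MulAut (ProjectiveSpecialLinearGroup (Fin n) F₀)} (h : Rel σ j γ γ₀)
    (h' : Rel σ j γ' γ₀') :
    Cfsg.IsConjUnder (Cfsg.inndiagPSU n F q) γ γ' ↔
      Cfsg.IsConjUnder (Cfsg.inndiagPSL n F₀) γ₀ γ₀' := by
  obtain ⟨g, B, g₀, rfl, rfl, hD, hs⟩ := h
  obtain ⟨g', B', g₀', rfl, rfl, hD', hs'⟩ := h'
  rw [conj_iffU hF hn, conj_iff (by omega)]
  constructor
  · rintro ⟨h, c, hc0, hc⟩
    obtain ⟨d, k₀, μ, hd, hμ, hk₀, hAB, hk⟩ := Cfsg.Agent.Lib.Helper33.GT6M3A.conj_param σ hord j hj (by omega) (mt g) B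
      (mt g') B' (g₀ : Matrix (Fin n) (Fin n) F₀) (g₀' : Matrix (Fin n) (Fin n) F₀) hD hD'
      (gl_det_ne_zero g₀) (gl_det_ne_zero g₀') (mt h) (mt_unitary hF σ hσ h) c hc0 hc
    exact ⟨GeneralLinearGroup.mkOfDetNeZero k₀ hk₀, Units.mk0 μ hμ, hk⟩
  · rintro ⟨k, c, hk⟩
    obtain ⟨h, d, hd, hU, hh⟩ := Cfsg.Agent.Lib.Helper42.GT6M3B.congr_twist σ hord j hj (by omega) (mt g) B (mt g') B'
      (g₀ : Matrix (Fin n) (Fin n) F₀) (g₀' : Matrix (Fin n) (Fin n) F₀) hD hD'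
      (gl_det_ne_zero g₀) (gl_det_ne_zero g₀') (k : Matrix (Fin n) (Fin n) F₀) (c : F₀)
      c.ne_zero (gl_det_ne_zero k) hk
    obtain ⟨A, hA⟩ := exists_GU (q := q) hF σ hσ h hU
    obtain ⟨c', hc'0, hc'⟩ := rel_of_twist σ j hj (mt g) B (mt g') B' _ _ hD hD' h d hd _ hh
    exact ⟨A, c', hc'0, by rw [hA]; exact hc'⟩

theorem rel_cent (hF : Fintype.card F = q ^ 2) (hn : 3 ≤ n) (σ : F ≃+* F)
    (hσ : ∀ a, σ a = a ^ q) (hord : orderOf σ = 2) (j : F₀ →+* F)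
    (hj : ∀ a : F, σ a = a ↔ a ∈ Set.range j) {γ : MulAut (Cfsg.PSU n F q)}
    {γ₀ : MulAut (ProjectiveSpecialLinearGroup (Fin n) F₀)} (h : Rel σ j γ γ₀) :
    Nonempty (↥(Cfsg.inndiagPSU n F q ⊓ Subgroup.centralizer {γ}) ≃*
      ↥(Cfsg.inndiagPSL n F₀ ⊓ Subgroup.centralizer {γ₀})) := by
  obtain ⟨g, B, g₀, rfl, rfl, hD, hs⟩ := h
  exact nonempty_centEquivD hF hn σ hσ hord j hj g B g₀ hD

/-- S2707 -/
theorem main_2707 {F : Type*} [Field F] [Fintype F] {q : ℕ} (hodd : Odd q)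
    (hF : Fintype.card F = q ^ 2) {n m : ℕ} (hm : 2 ≤ m) (hnm : n = 2 * m) (F₀ : Type*)
    [Field F₀] [Fintype F₀] (hF₀ : Fintype.card F₀ = q) :
    ∃ (γ₁ γ₂ γ₃ : MulAut (Cfsg.PSU n F q)) (a b : F₀),
      (∀ z₁ z₂ : F₀, z₁ ^ 2 + a * z₁ * z₂ + b * z₂ ^ 2 = 0 → z₁ = 0 ∧ z₂ = 0) ∧
      Cfsg.IsGraphAutClassPSU γ₁ ∧ orderOf γ₁ = 2 ∧ Cfsg.IsGraphAutClassPSU γ₂ ∧ orderOf γ₂ = 2 ∧
      Cfsg.IsGraphAutClassPSU γ₃ ∧ orderOf γ₃ = 2 ∧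
      ¬ Cfsg.IsConjUnder (Cfsg.inndiagPSU n F q) γ₁ γ₂ ∧
      ¬ Cfsg.IsConjUnder (Cfsg.inndiagPSU n F q) γ₁ γ₃ ∧
      ¬ Cfsg.IsConjUnder (Cfsg.inndiagPSU n F q) γ₂ γ₃ ∧
      (∀ γ : MulAut (Cfsg.PSU n F q), Cfsg.IsGraphAutClassPSU γ → orderOf γ = 2 →
        Cfsg.IsConjUnder (Cfsg.inndiagPSU n F q) γ₁ γ ∨
        Cfsg.IsConjUnder (Cfsg.inndiagPSU n F q) γ₂ γ ∨
        Cfsg.IsConjUnder (Cfsg.inndiagPSU n F q) γ₃ γ) ∧
      Nonempty (↥(Cfsg.inndiagPSU n F q ⊓ Subgroup.centralizer {γ₁}) ≃* Cfsg.PGSp m F₀) ∧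
      Nonempty (↥(Cfsg.inndiagPSU n F q ⊓ Subgroup.centralizer {γ₂}) ≃*
        Cfsg.PGO F₀ (Cfsg.quadFormPlus m F₀)) ∧
      Nonempty (↥(Cfsg.inndiagPSU n F q ⊓ Subgroup.centralizer {γ₃}) ≃*
        Cfsg.PGO F₀ (Cfsg.quadFormMinus (m - 1) F₀ a b)) := by
  have hn : 3 ≤ n := by omega
  obtain ⟨σ, hσ, hord, hcyc, j, hj⟩ := setup hF F₀ hF₀
  obtain ⟨δ₁, δ₂, δ₃, a, b, hab, hg1, ho1, hg2, ho2, hg3, ho3, hn12, hn13, hn23, hall, hc1, hc2,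
    hc3⟩ := GT2Main.main_gt2 (F := F₀) (by rw [hF₀]; exact hodd) hm hnm
  obtain ⟨γ₁, hR1⟩ := rel_right hF hn σ hσ hord j hj δ₁ hg1 ho1
  obtain ⟨γ₂, hR2⟩ := rel_right hF hn σ hσ hord j hj δ₂ hg2 ho2
  obtain ⟨γ₃, hR3⟩ := rel_right hF hn σ hσ hord j hj δ₃ hg3 ho3
  have hP1 := rel_props hF hn σ hord j hR1
  have hP2 := rel_props hF hn σ hord j hR2
  have hP3 := rel_props hF hn σ hord j hR3
  refine ⟨γ₁, γ₂, γ₃, a, b, hab, hP1.1, hP1.2.1, hP2.1, hP2.2.1, hP3.1, hP3.2.1, ?_, ?_, ?_, ?_,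
    ?_, ?_, ?_⟩
  · exact fun h => hn12 ((rel_conj hF hn σ hσ hord j hj hR1 hR2).1 h)
  · exact fun h => hn13 ((rel_conj hF hn σ hσ hord j hj hR1 hR3).1 h)
  · exact fun h => hn23 ((rel_conj hF hn σ hσ hord j hj hR2 hR3).1 h)
  · intro γ hγ hγ2
    obtain ⟨δ, hR⟩ := rel_left hF hn σ hσ hord hcyc j hj γ hγ hγ2
    have hP := rel_props hF hn σ hord j hR
    rcases hall δ hP.2.2.1 hP.2.2.2 with h | h | h
    · exact Or.inl ((rel_conj hF hn σ hσ hord j hj hR1 hR).2 h)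
    · exact Or.inr (Or.inl ((rel_conj hF hn σ hσ hord j hj hR2 hR).2 h))
    · exact Or.inr (Or.inr ((rel_conj hF hn σ hσ hord j hj hR3 hR).2 h))
  · obtain ⟨E⟩ := rel_cent hF hn σ hσ hord j hj hR1
    obtain ⟨E'⟩ := hc1
    exact ⟨E.trans E'⟩
  · obtain ⟨E⟩ := rel_cent hF hn σ hσ hord j hj hR2
    obtain ⟨E'⟩ := hc2
    exact ⟨E.trans E'⟩
  · obtain ⟨E⟩ := rel_cent hF hn σ hσ hord j hj hR3
    obtain ⟨E'⟩ := hc3
    exact ⟨E.trans E'⟩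

/-- S2706 -/
theorem main_2706 {F : Type*} [Field F] [Fintype F] {q : ℕ} (hF : Fintype.card F = q ^ 2)
    {n : ℕ} (hn : 3 ≤ n) {m : ℕ} (hnm : n = 2 * m + 1) (F₀ : Type*) [Field F₀] [Fintype F₀]
    (hF₀ : Fintype.card F₀ = q) (γ γ' : MulAut (Cfsg.PSU n F q))
    (hγ : Cfsg.IsGraphAutClassPSU γ) (hγ2 : orderOf γ = 2) (hγ' : Cfsg.IsGraphAutClassPSU γ')
    (hγ'2 : orderOf γ' = 2) :
    Nonempty (↥(Cfsg.inndiagPSU n F q ⊓ Subgroup.centralizer {γ}) ≃*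
      Cfsg.PGO F₀ (Cfsg.quadFormOdd m F₀)) ∧ Cfsg.IsConjUnder (Cfsg.inndiagPSU n F q) γ γ' := by
  obtain ⟨σ, hσ, hord, hcyc, j, hj⟩ := setup hF F₀ hF₀
  obtain ⟨δ, hR⟩ := rel_left hF hn σ hσ hord hcyc j hj γ hγ hγ2
  obtain ⟨δ', hR'⟩ := rel_left hF hn σ hσ hord hcyc j hj γ' hγ' hγ'2
  have hP := rel_props hF hn σ hord j hR
  have hP' := rel_props hF hn σ hord j hR'
  obtain ⟨hc, hconj⟩ := GT5Main.main_gt5 (F := F₀) hn hnm δ δ' hP.2.2.1 hP.2.2.2 hP'.2.2.1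
    hP'.2.2.2
  refine ⟨?_, (rel_conj hF hn σ hσ hord j hj hR hR').2 hconj⟩
  obtain ⟨E⟩ := rel_cent hF hn σ hσ hord j hj hR
  obtain ⟨E'⟩ := hc
  exact ⟨E.trans E'⟩

/-- S2708 -/
theorem main_2708 {F : Type*} [Field F] [Fintype F] [CharP F 2] {q : ℕ}
    (hF : Fintype.card F = q ^ 2) {n m : ℕ} (hm : 2 ≤ m) (hnm : n = 2 * m) (F₀ : Type*)
    [Field F₀] [Fintype F₀] (hF₀ : Fintype.card F₀ = q) :
    ∃ (γ₁ γ₃ : MulAut (Cfsg.PSU n F q)) (t : ↥(Matrix.symplecticGroup (Fin m) F₀)),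
      Cfsg.IsTransvection (t : Matrix (Fin m ⊕ Fin m) (Fin m ⊕ Fin m) F₀) ∧
      Cfsg.IsGraphAutClassPSU γ₁ ∧ orderOf γ₁ = 2 ∧ Cfsg.IsGraphAutClassPSU γ₃ ∧ orderOf γ₃ = 2 ∧
      ¬ Cfsg.IsConjUnder (Cfsg.inndiagPSU n F q) γ₁ γ₃ ∧
      (∀ γ : MulAut (Cfsg.PSU n F q), Cfsg.IsGraphAutClassPSU γ → orderOf γ = 2 →
        Cfsg.IsConjUnder (Cfsg.inndiagPSU n F q) γ₁ γ ∨
        Cfsg.IsConjUnder (Cfsg.inndiagPSU n F q) γ₃ γ) ∧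
      Nonempty (↥(Cfsg.inndiagPSU n F q ⊓ Subgroup.centralizer {γ₁}) ≃*
        ↥(Matrix.symplecticGroup (Fin m) F₀)) ∧
      Nonempty (↥(Cfsg.inndiagPSU n F q ⊓ Subgroup.centralizer {γ₃}) ≃*
        ↥(Subgroup.centralizer ({t} : Set ↥(Matrix.symplecticGroup (Fin m) F₀)))) := by
  have hn : 3 ≤ n := by omega
  obtain ⟨σ, hσ, hord, hcyc, j, hj⟩ := setup hF F₀ hF₀
  -- `F₀` has characteristic two
  haveI : CharP F₀ 2 := by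
    have h1 : ringChar F = 2 := ringChar.eq F 2
    have h2 := FiniteField.even_card_of_char_two h1
    rw [hF] at h2
    have h3 : q % 2 = 0 := by
      rcases Nat.even_or_odd q with he | ho
      · exact Nat.even_iff.1 he
      · have := Nat.odd_iff.1 (ho.pow (n := 2))
        omega
    have h4 : ringChar F₀ = 2 := by
      rw [FiniteField.even_card_iff_char_two, hF₀]
      exact h3
    exact ringChar.of_eq h4
  obtain ⟨δ₁, δ₃, t, ht, hg1, ho1, hg3, ho3, hn13, hall, hc1, hc3⟩ :=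
    GT4Main.main_gt4 (F := F₀) hm hnm
  obtain ⟨γ₁, hR1⟩ := rel_right hF hn σ hσ hord j hj δ₁ hg1 ho1
  obtain ⟨γ₃, hR3⟩ := rel_right hF hn σ hσ hord j hj δ₃ hg3 ho3
  have hP1 := rel_props hF hn σ hord j hR1
  have hP3 := rel_props hF hn σ hord j hR3
  refine ⟨γ₁, γ₃, t, ht, hP1.1, hP1.2.1, hP3.1, hP3.2.1, ?_, ?_, ?_, ?_⟩
  · exact fun h => hn13 ((rel_conj hF hn σ hσ hord j hj hR1 hR3).1 h)
  · intro γ hγ hγ2
    obtain ⟨δ, hR⟩ := rel_left hF hn σ hσ hord hcyc j hj γ hγ hγ2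
    have hP := rel_props hF hn σ hord j hR
    rcases hall δ hP.2.2.1 hP.2.2.2 with h | h
    · exact Or.inl ((rel_conj hF hn σ hσ hord j hj hR1 hR).2 h)
    · exact Or.inr ((rel_conj hF hn σ hσ hord j hj hR3 hR).2 h)
  · obtain ⟨E⟩ := rel_cent hF hn σ hσ hord j hj hR1
    obtain ⟨E'⟩ := hc1
    exact ⟨E.trans E'⟩
  · obtain ⟨E⟩ := rel_cent hF hn σ hσ hord j hj hR3
    obtain ⟨E'⟩ := hc3
    exact ⟨E.trans E'⟩

end Cfsg.Agent.Lib.Helper53.GT6
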