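import Mathlib
import Cfsg.Agent.Lib.Helper53.GT6C
import Cfsg.Agent.Lib.Helper53.GT3Main

/-!
# Class splitting of the involutory graph automorphisms of `PSU_n(q)` (helper53)
-/

set_option autoImplicit false
set_option linter.unusedSectionVars false
set_option linter.unusedVariables false

namespace Cfsg.Agent.Lib.Helper53.GT6

open Matrix Cfsg.Agent.Lib.Helper53.AutPSU Cfsg.Agent.Lib.Helper53.SUGO
  Cfsg.Agent.Lib.Helper53.AutPSL Cfsg.Agent.Lib.Helper53.GT Cfsg.Agent.Lib.Helper7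

variable {F : Type*} [Field F] [Fintype F] {q n : ℕ} {F₀ : Type*} [Field F₀] [Fintype F₀]

/-- the general splitting formula for `PSU_n(q)` -/
theorem split_eqU (hF : Fintype.card F = q ^ 2) (hn : 3 ≤ n) (x : MulAut (Cfsg.PSU n F q)) :
    Cfsg.splitClassCount (Cfsg.inndiagPSU n F q) (Cfsg.Inn (Cfsg.PSU n F q)) x =
      (((Subgroup.centralizer {x}).comap iotaU).map (detU hF (by omega : 1 ≤ n)) ⊔
        (powMonoidHom n : ↥(UU F q) →* ↥(UU F q)).range).index := by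
  have hn1 : 1 ≤ n := by omega
  have hsplit := SplitAbs.split_abstract
    (A := ↥(UU F q) ⧸ (powMonoidHom n : ↥(UU F q) →* ↥(UU F q)).range)
    (iotaU : ↥(Cfsg.GU n F q) →* MulAut (Cfsg.PSU n F q))
    (tauU hF hn1) (tauU_surjective hF hn1) x
  rw [← inndiagU_eq_range] at hsplit
  have hInn : Cfsg.Inn (Cfsg.PSU n F q) = (tauU (n := n) hF hn1).ker.map iotaU := Inn_eqU hF hn
  rw [hInn]
  refine hsplit.trans ?_
  have h1 : ((Subgroup.centralizer {x}).comap iotaU).map (tauU hF hn1) =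
      (((Subgroup.centralizer {x}).comap iotaU).map (detU hF hn1)).map (QuotientGroup.mk' _) := by
    rw [Subgroup.map_map]
    rfl
  rw [h1, Subgroup.index_map, QuotientGroup.ker_mk', QuotientGroup.range_mk', Subgroup.index_top,
    mul_one]

theorem mem_UU (σ : F ≃+* F) (hσ : ∀ a, σ a = a ^ q) (v : Fˣ) :
    v ∈ UU F q ↔ (v : F) * σ (v : F) = 1 := by
  rw [MonoidHom.mem_ker, powMonoidHom_apply, Units.ext_iff, Units.val_pow_eq_pow_val,
    Units.val_one, hσ, pow_succ']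

theorem det_map_j (j : F₀ →+* F) (k₀ : Matrix (Fin n) (Fin n) F₀) :
    (k₀.map j).det = j k₀.det := by
  have := RingHom.map_det j k₀
  exact this.symm

/-- the norm relation of a twisted real similarity -/
theorem norm_of_twist (σ : F ≃+* F) (j : F₀ →+* F) (hj : ∀ a : F, σ a = a ↔ a ∈ Set.range j)
    (hn : 0 < n) (g B : Matrix (Fin n) (Fin n) F) (g₀ : Matrix (Fin n) (Fin n) F₀)
    (hD : Desc σ j g B g₀) (h : Matrix (Fin n) (Fin n) F) (hU : h.transpose * h.map σ = 1)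
    (d : F) (k₀ : Matrix (Fin n) (Fin n) F₀) (μ : F₀) (hk₀ : k₀.det ≠ 0)
    (hh : h * B = d • (B * k₀.map j)) (hk : k₀ * g₀ * k₀.transpose = μ • g₀) :
    d * σ d * j μ = 1 := by
  obtain ⟨hB, -, ω, hω0, hω⟩ := hD
  obtain ⟨K, hK⟩ : ∃ K : Matrix (Fin n) (Fin n) F, K = k₀.map j := ⟨_, rfl⟩
  obtain ⟨M, hM⟩ : ∃ M : Matrix (Fin n) (Fin n) F, M = B.transpose * B.map σ := ⟨_, rfl⟩
  rw [← hK] at hh
  rw [← hM] at hω
  have hKσ : K.map σ = K := by rw [hK]; exact map_sigma_j σ j hj k₀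
  have hKdet : K.transpose.det ≠ 0 := by
    rw [Matrix.det_transpose, hK, det_map_j]
    exact (map_ne_zero j).2 hk₀
  have e1 : (h * B).transpose * (h * B).map σ = M := by
    rw [Matrix.transpose_mul, map_sigma_mul, Matrix.mul_assoc, ← Matrix.mul_assoc h.transpose,
      hU, Matrix.one_mul, hM]
  have e2 : (d • (B * K)).transpose * (d • (B * K)).map σ =
      (d * σ d) • (K.transpose * M * K) := by
    rw [Matrix.transpose_smul, Matrix.transpose_mul, map_sigma_smul, map_sigma_mul, hKσ,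
      Matrix.smul_mul, Matrix.mul_smul, smul_smul, hM]
    simp only [Matrix.mul_assoc]
  rw [hh, e2] at e1
  have hkj : K * g₀.map j * K.transpose = j μ • g₀.map j := by
    have e := congrArg (fun X : Matrix (Fin n) (Fin n) F₀ => X.map j) hk
    have e' : (k₀ * g₀ * k₀.transpose).map j = (μ • g₀).map j := e
    rw [Matrix.map_mul, Matrix.map_mul, Matrix.transpose_map, ← hK] at e'
    rw [e']
    ext a b
    simp
  have e4 : ((d * σ d) • (K.transpose * M * K)) * g₀.map j * K.transpose =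
      (d * σ d * j μ * ω) • K.transpose := by
    have e5 : K.transpose * M * K * g₀.map j * K.transpose =
        K.transpose * (M * (K * g₀.map j * K.transpose)) := by
      simp only [Matrix.mul_assoc]
    rw [Matrix.smul_mul, Matrix.smul_mul, e5, hkj, Matrix.mul_smul, hω, Matrix.mul_smul,
      Matrix.mul_smul, Matrix.mul_one, smul_smul, smul_smul]
  rw [e1, hω, Matrix.smul_mul, Matrix.one_mul] at e4
  have e6 : (ω • (1 : Matrix (Fin n) (Fin n) F)) * K.transpose =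
      ((d * σ d * j μ * ω) • (1 : Matrix (Fin n) (Fin n) F)) * K.transpose := by
    rw [Matrix.smul_mul, Matrix.smul_mul, Matrix.one_mul, e4]
  have e7 := cancel_right K.transpose hKdet e6
  have e8 := congrFun (congrFun e7 ⟨0, hn⟩) ⟨0, hn⟩
  simp only [Matrix.smul_apply, Matrix.one_apply_eq, smul_eq_mul, mul_one] at e8
  have e9 : (d * σ d * j μ - 1) * ω = 0 := by linear_combination -e8
  rcases mul_eq_zero.1 e9 with h0 | h0
  · linear_combination h0
  · exact absurd h0 hω0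

/-- determinants of the unitary matrices commuting with a graph involution -/
theorem mem_DU (hF : Fintype.card F = q ^ 2) (hn : 3 ≤ n) (σ : F ≃+* F)
    (hσ : ∀ a, σ a = a ^ q) (hord : orderOf σ = 2) (j : F₀ →+* F)
    (hj : ∀ a : F, σ a = a ↔ a ∈ Set.range j) (g : ↥(Cfsg.GU n F q))
    (B : Matrix (Fin n) (Fin n) F) (g₀ : GL (Fin n) F₀)
    (hD : Desc σ j (mt g) B (g₀ : Matrix (Fin n) (Fin n) F₀)) (u : ↥(UU F q)) :
    u ∈ ((Subgroup.centralizer {(iotaU g * PhiU σ : MulAut (Cfsg.PSU n F q))}).comap iotaU).map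
        (detU hF (by omega : 1 ≤ n)) ↔
      ∃ (d : F) (k₀ : Matrix (Fin n) (Fin n) F₀) (μ : F₀), d ≠ 0 ∧ μ ≠ 0 ∧ k₀.det ≠ 0 ∧
        k₀ * (g₀ : Matrix (Fin n) (Fin n) F₀) * k₀.transpose =
          μ • (g₀ : Matrix (Fin n) (Fin n) F₀) ∧
        d * σ d * j μ = 1 ∧ ((u : Fˣ) : F) = d ^ n * j k₀.det := by
  have hdetAB : ∀ (X : Matrix (Fin n) (Fin n) F) (d : F) (k₀ : Matrix (Fin n) (Fin n) F₀),
      X * B = d • (B * k₀.map j) → X.det = d ^ n * j k₀.det := by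
    intro X d k₀ hX
    have e := congrArg Matrix.det hX
    rw [Matrix.det_mul, Matrix.det_smul, Matrix.det_mul, Fintype.card_fin, det_map_j] at e
    have : X.det * B.det = (d ^ n * j k₀.det) * B.det := by linear_combination e
    exact mul_right_cancel₀ hD.1 this
  constructor
  · rintro ⟨A, hA, rfl⟩
    have hA' := (mem_centU_iff _ A).1 hA
    rw [comm_iffU hF hn] at hA'
    obtain ⟨c, hc0, hc⟩ := hA'
    obtain ⟨d, k₀, μ, hd, hμ, hk₀, hAB, hk⟩ := Cfsg.Agent.Lib.Helper33.GT6M3A.conj_param σ hord j hj (by omega) (mt g) B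
      (mt g) B (g₀ : Matrix (Fin n) (Fin n) F₀) (g₀ : Matrix (Fin n) (Fin n) F₀) hD hD
      (gl_det_ne_zero g₀) (gl_det_ne_zero g₀) (mt A) (mt_unitary hF σ hσ A) c hc0 hc
    refine ⟨d, k₀, μ, hd, hμ, hk₀, hk, ?_, ?_⟩
    · exact norm_of_twist σ j hj (by omega) (mt g) B _ hD (mt A) (mt_unitary hF σ hσ A) d k₀ μ
        hk₀ hAB hk
    · exact hdetAB (mt A) d k₀ hAB
  · rintro ⟨d, k₀, μ, hd, hμ, hk₀, hk, hN, hu⟩
    obtain ⟨h', d', hd', hU', hh'⟩ := Cfsg.Agent.Lib.Helper42.GT6M3B.congr_twist σ hord j hj (by omega) (mt g) B (mt g) B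
      (g₀ : Matrix (Fin n) (Fin n) F₀) (g₀ : Matrix (Fin n) (Fin n) F₀) hD hD
      (gl_det_ne_zero g₀) (gl_det_ne_zero g₀) k₀ μ hμ hk₀ hk
    have hN' := norm_of_twist σ j hj (by omega) (mt g) B _ hD h' hU' d' k₀ μ hk₀ hh' hk
    have hσd' : σ d' ≠ 0 := (map_ne_zero σ).2 hd'
    have hjμ : j μ ≠ 0 := (map_ne_zero j).2 hμ
    have he : (d / d') * σ (d / d') = 1 := by
      rw [map_div₀]
      have e1 : d * σ d = d' * σ d' := by
        apply mul_right_cancel₀ hjμ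
        rw [hN, hN']
      field_simp
      linear_combination e1
    have hU : ((d / d') • h').transpose * ((d / d') • h').map σ = 1 := by
      rw [Matrix.transpose_smul, map_sigma_smul, Matrix.smul_mul, Matrix.mul_smul, smul_smul, hU',
        he, one_smul]

    have hh : ((d / d') • h') * B = d • (B * k₀.map j) := by
      rw [Matrix.smul_mul, hh', smul_smul, div_mul_cancel₀ _ hd']
    obtain ⟨A, hA⟩ := exists_GU (q := q) hF σ hσ _ hU
    refine ⟨A, ?_, ?_⟩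
    · refine (mem_centU_iff _ A).2 ?_
      rw [comm_iffU hF hn, hA]
      exact rel_of_twist σ j hj (mt g) B (mt g) B _ _ hD hD _ d hd _ hh
    · apply Subtype.ext
      apply Units.ext
      show (mt A).det = ((u : Fˣ) : F)
      rw [hu, hA]
      exact hdetAB _ d k₀ hh

/-- odd degree or characteristic two: the determinants are `n`-th powers -/
theorem DU_le_pow (hF : Fintype.card F = q ^ 2) (hn : 3 ≤ n) (σ : F ≃+* F)
    (hσ : ∀ a, σ a = a ^ q) (hord : orderOf σ = 2) (j : F₀ →+* F)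
    (hj : ∀ a : F, σ a = a ↔ a ∈ Set.range j) (g : ↥(Cfsg.GU n F q))
    (B : Matrix (Fin n) (Fin n) F) (g₀ : GL (Fin n) F₀)
    (hD : Desc σ j (mt g) B (g₀ : Matrix (Fin n) (Fin n) F₀))
    (hA : Odd n ∨ (2 : F₀) = 0) :
    ((Subgroup.centralizer {(iotaU g * PhiU σ : MulAut (Cfsg.PSU n F q))}).comap iotaU).map
        (detU hF (by omega : 1 ≤ n)) ≤ (powMonoidHom n : ↥(UU F q) →* ↥(UU F q)).range := by
  intro u hu
  obtain ⟨d, k₀, μ, hd, hμ, hk₀, hk, hN, hu⟩ := (mem_DU hF hn σ hσ hord j hj g B g₀ hD u).1 hu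
  have e1 := GT3Main.det_sq_of_sim g₀ k₀ μ hk
  obtain ⟨ν, hν2, hνn⟩ : ∃ ν : F₀, ν ^ 2 = μ ∧ ν ^ n = k₀.det := by
    rcases Nat.even_or_odd n with ⟨r, hr⟩ | ⟨k, hk'⟩
    · have h20 : (2 : F₀) = 0 := by
        rcases hA with ho | h
        · exact absurd ho (Nat.not_odd_iff_even.2 ⟨r, hr⟩)
        · exact h
      subst hr
      obtain ⟨ν, hν⟩ := GT4ORTHQ.sq_surj h20 μ
      refine ⟨ν, hν, ?_⟩
      have hμr : μ ^ r ≠ 0 := pow_ne_zero _ hμ
      have e0 : μ ^ (r + r) = (μ ^ r) ^ 2 := by rw [← pow_mul, mul_comm r 2, two_mul]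
      have e2 : (k₀.det / μ ^ r) ^ 2 = 1 := by
        rw [div_pow, e1, e0]
        exact div_self (pow_ne_zero _ hμr)
      have e3 := GT4ORTHQ.eq_one_of_sq h20 _ e2
      have e4 : ν ^ (r + r) = (ν ^ 2) ^ r := by rw [← pow_mul, two_mul]
      rw [e4, hν]
      rw [div_eq_one_iff_eq hμr] at e3
      exact e3.symm
    · subst hk'
      have hμk : μ ^ k ≠ 0 := pow_ne_zero _ hμ
      have e0 : μ ^ (2 * k + 1) = (μ ^ k) ^ 2 * μ := by rw [pow_succ, ← pow_mul, mul_comm k 2]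
      have e2 : (k₀.det / μ ^ k) ^ 2 = μ := by
        rw [div_pow, e1, e0]
        field_simp
      refine ⟨k₀.det / μ ^ k, e2, ?_⟩
      have e4 : (k₀.det / μ ^ k) ^ (2 * k + 1) =
          ((k₀.det / μ ^ k) ^ 2) ^ k * (k₀.det / μ ^ k) := by rw [pow_succ, pow_mul]
      rw [e4, e2]
      field_simp
  have hjν : σ (j ν) = j ν := (hj _).2 ⟨ν, rfl⟩
  have hv0 : d * j ν ≠ 0 := by
    apply mul_ne_zero hd
    apply (map_ne_zero j).2
    rintro rfl
    rw [zero_pow (by norm_num)] at hν2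
    exact hμ hν2.symm
  have hvN : (d * j ν) * σ (d * j ν) = 1 := by
    rw [map_mul, hjν, ← hN, ← hν2, map_pow]
    ring
  refine ⟨⟨Units.mk0 _ hv0, (mem_UU σ hσ _).2 hvN⟩, ?_⟩
  apply Subtype.ext
  apply Units.ext
  show (d * j ν) ^ n = ((u : Fˣ) : F)
  rw [hu, mul_pow, ← map_pow, hνn]

/-- `m`-th powers are determinants when all multipliers occur with determinant `μ ^ m` -/
theorem pow_le_DU (hF : Fintype.card F = q ^ 2) {m : ℕ} (hm : 2 ≤ m) (σ : F ≃+* F)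
    (hσ : ∀ a, σ a = a ^ q) (hord : orderOf σ = 2) (j : F₀ →+* F)
    (hj : ∀ a : F, σ a = a ↔ a ∈ Set.range j) (g : ↥(Cfsg.GU (2 * m) F q))
    (B : Matrix (Fin (2 * m)) (Fin (2 * m)) F) (g₀ : GL (Fin (2 * m)) F₀)
    (hD : Desc σ j (mt g) B (g₀ : Matrix (Fin (2 * m)) (Fin (2 * m)) F₀))
    (hB : ∀ c : F₀, c ≠ 0 → ∃ h : Matrix (Fin (2 * m)) (Fin (2 * m)) F₀,
      h * (g₀ : Matrix (Fin (2 * m)) (Fin (2 * m)) F₀) * h.transpose =
        c • (g₀ : Matrix (Fin (2 * m)) (Fin (2 * m)) F₀) ∧ h.det = c ^ m) :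
    (powMonoidHom m : ↥(UU F q) →* ↥(UU F q)).range ≤
      ((Subgroup.centralizer {(iotaU g * PhiU σ : MulAut (Cfsg.PSU (2 * m) F q))}).comap
        iotaU).map (detU hF (by omega : 1 ≤ 2 * m)) := by
  rintro _ ⟨w, rfl⟩
  have hw := (mem_UU σ hσ (w : Fˣ)).1 w.2
  obtain ⟨b, hb0, hb⟩ := H90.exists_fixed_scalar σ 2 (by norm_num) hord ((w : Fˣ) : F)
    (by rw [Herm.nrm_two]; exact hw)
  have hσσ := sigma_sigma σ hord
  have hσb : σ b ≠ 0 := (map_ne_zero σ).2 hb0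
  have hfix : σ (b * σ b) = b * σ b := by
    rw [map_mul, hσσ, mul_comm]
  obtain ⟨μ', hμ'⟩ := (hj _).1 hfix
  have hμ'0 : μ' ≠ 0 := by
    rintro rfl
    rw [map_zero] at hμ'
    exact mul_ne_zero hb0 hσb hμ'.symm
  obtain ⟨k₀, hk, hkdet⟩ := hB μ'⁻¹ (inv_ne_zero hμ'0)
  have hk₀ : k₀.det ≠ 0 := by
    rw [hkdet]
    exact pow_ne_zero _ (inv_ne_zero hμ'0)
  rw [mem_DU hF (by omega) σ hσ hord j hj g B g₀ hD]
  refine ⟨b, k₀, μ'⁻¹, hb0, inv_ne_zero hμ'0, hk₀, hk, ?_, ?_⟩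
  · rw [map_inv₀, hμ']
    exact mul_inv_cancel₀ (mul_ne_zero hb0 hσb)
  · show ((w : Fˣ) : F) ^ m = _
    rw [hkdet, map_pow, map_inv₀, hμ', pow_mul, ← mul_pow]
    congr 1
    have : ((w : Fˣ) : F) = b / σ b := by
      rw [eq_div_iff hσb]
      exact hb
    rw [this]
    field_simp

/-- skew type -/
theorem DU_skew (hF : Fintype.card F = q ^ 2) {m : ℕ} (hm : 2 ≤ m) (σ : F ≃+* F)
    (hσ : ∀ a, σ a = a ^ q) (hord : orderOf σ = 2) (j : F₀ →+* F)
    (hj : ∀ a : F, σ a = a ↔ a ∈ Set.range j) (h2 : (2 : F₀) ≠ 0)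
    (g : ↥(Cfsg.GU (2 * m) F q))
    (B : Matrix (Fin (2 * m)) (Fin (2 * m)) F) (g₀ : GL (Fin (2 * m)) F₀)
    (hD : Desc σ j (mt g) B (g₀ : Matrix (Fin (2 * m)) (Fin (2 * m)) F₀))
    (hs : (g₀ : Matrix (Fin (2 * m)) (Fin (2 * m)) F₀).transpose =
      -(g₀ : Matrix (Fin (2 * m)) (Fin (2 * m)) F₀)) :
    ((Subgroup.centralizer {(iotaU g * PhiU σ : MulAut (Cfsg.PSU (2 * m) F q))}).comap
        iotaU).map (detU hF (by omega : 1 ≤ 2 * m)) =
      (powMonoidHom m : ↥(UU F q) →* ↥(UU F q)).range := by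
  obtain ⟨hA, hB⟩ := Cfsg.Agent.Lib.Helper34.GT3SKD.skew_det h2 m
    (g₀ : Matrix (Fin (2 * m)) (Fin (2 * m)) F₀) hs (gl_det_ne_zero g₀)
  apply le_antisymm _ (pow_le_DU hF hm σ hσ hord j hj g B g₀ hD hB)
  intro u hu
  obtain ⟨d, k₀, μ, hd, hμ, hk₀, hk, hN, hu⟩ :=
    (mem_DU hF (by omega) σ hσ hord j hj g B g₀ hD u).1 hu
  have hdet := hA k₀ μ hμ hk
  have hjμ : σ (j μ) = j μ := (hj _).2 ⟨μ, rfl⟩
  have hv0 : d ^ 2 * j μ ≠ 0 := mul_ne_zero (pow_ne_zero _ hd) ((map_ne_zero j).2 hμ)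
  have hvN : (d ^ 2 * j μ) * σ (d ^ 2 * j μ) = 1 := by
    rw [map_mul, map_pow, hjμ]
    have : d ^ 2 * j μ * (σ d ^ 2 * j μ) = (d * σ d * j μ) ^ 2 := by ring
    rw [this, hN, one_pow]
  refine ⟨⟨Units.mk0 _ hv0, (mem_UU σ hσ _).2 hvN⟩, ?_⟩
  apply Subtype.ext
  apply Units.ext
  show (d ^ 2 * j μ) ^ m = ((u : Fˣ) : F)
  rw [hu, hdet, mul_pow, ← pow_mul, map_pow]

/-- symmetric type -/
theorem DU_sym (hF : Fintype.card F = q ^ 2) {m : ℕ} (hm : 2 ≤ m) (σ : F ≃+* F)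
    (hσ : ∀ a, σ a = a ^ q) (hord : orderOf σ = 2) (j : F₀ →+* F)
    (hj : ∀ a : F, σ a = a ↔ a ∈ Set.range j) (h2 : (2 : F₀) ≠ 0)
    (g : ↥(Cfsg.GU (2 * m) F q))
    (B : Matrix (Fin (2 * m)) (Fin (2 * m)) F) (g₀ : GL (Fin (2 * m)) F₀)
    (hD : Desc σ j (mt g) B (g₀ : Matrix (Fin (2 * m)) (Fin (2 * m)) F₀))
    (hs : (g₀ : Matrix (Fin (2 * m)) (Fin (2 * m)) F₀).transpose =
      (g₀ : Matrix (Fin (2 * m)) (Fin (2 * m)) F₀)) :
    ((Subgroup.centralizer {(iotaU g * PhiU σ : MulAut (Cfsg.PSU (2 * m) F q))}).comap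
        iotaU).map (detU hF (by omega : 1 ≤ 2 * m)) =
      (powMonoidHom m : ↥(UU F q) →* ↥(UU F q)).range ⊔
        (powMonoidHom 2 : ↥(UU F q) →* ↥(UU F q)).ker := by
  obtain ⟨⟨r, hr, hrdet⟩, hB⟩ := Cfsg.Agent.Lib.Helper29.GT3SYD.sym_det h2 m (by omega)
    (g₀ : Matrix (Fin (2 * m)) (Fin (2 * m)) F₀) hs (gl_det_ne_zero g₀)
  apply le_antisymm
  · intro u hu
    obtain ⟨d, k₀, μ, hd, hμ, hk₀, hk, hN, hu⟩ :=
      (mem_DU hF (by omega) σ hσ hord j hj g B g₀ hD u).1 hu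
    have e1 := GT3Main.det_sq_of_sim g₀ k₀ μ hk
    have hμm : μ ^ m ≠ 0 := pow_ne_zero _ hμ
    have hjμ : σ (j μ) = j μ := (hj _).2 ⟨μ, rfl⟩
    have hv0 : d ^ 2 * j μ ≠ 0 := mul_ne_zero (pow_ne_zero _ hd) ((map_ne_zero j).2 hμ)
    have hvN : (d ^ 2 * j μ) * σ (d ^ 2 * j μ) = 1 := by
      rw [map_mul, map_pow, hjμ]
      have : d ^ 2 * j μ * (σ d ^ 2 * j μ) = (d * σ d * j μ) ^ 2 := by ring
      rw [this, hN, one_pow]
    have he2 : (k₀.det / μ ^ m) ^ 2 = 1 := by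
      rw [div_pow, e1, ← pow_mul, mul_comm m 2]
      exact div_self (pow_ne_zero _ hμ)
    have hs0 : j (k₀.det / μ ^ m) ≠ 0 := (map_ne_zero j).2 (div_ne_zero hk₀ hμm)
    have hsN : j (k₀.det / μ ^ m) * σ (j (k₀.det / μ ^ m)) = 1 := by
      rw [(hj _).2 ⟨_, rfl⟩, ← map_mul, ← pow_two, he2, map_one]
    have e3 : u = (powMonoidHom m : ↥(UU F q) →* ↥(UU F q))
        ⟨Units.mk0 _ hv0, (mem_UU σ hσ _).2 hvN⟩ *
          ⟨Units.mk0 _ hs0, (mem_UU σ hσ _).2 hsN⟩ := by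
      apply Subtype.ext
      apply Units.ext
      show ((u : Fˣ) : F) = (d ^ 2 * j μ) ^ m * j (k₀.det / μ ^ m)
      rw [hu, mul_pow, ← pow_mul, map_div₀, map_pow]
      have : j μ ^ m ≠ 0 := pow_ne_zero _ ((map_ne_zero j).2 hμ)
      field_simp
    rw [e3]
    refine Subgroup.mul_mem_sup (MonoidHom.mem_range.2 ⟨_, rfl⟩) ?_
    rw [MonoidHom.mem_ker]
    apply Subtype.ext
    apply Units.ext
    show j (k₀.det / μ ^ m) ^ 2 = 1
    rw [← map_pow, he2, map_one]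
  · rw [sup_le_iff]
    refine ⟨pow_le_DU hF hm σ hσ hord j hj g B g₀ hD hB, ?_⟩
    intro s hs'
    rw [MonoidHom.mem_ker] at hs'
    have hs2 : ((s : Fˣ) : F) ^ 2 = 1 := by
      have := congrArg (fun u : ↥(UU F q) => ((u : Fˣ) : F)) hs'
      exact this
    have : (((s : Fˣ) : F) - 1) * (((s : Fˣ) : F) + 1) = 0 := by linear_combination hs2
    rcases mul_eq_zero.1 this with h | h
    · have : s = 1 := Subtype.ext (Units.ext (sub_eq_zero.1 h))
      rw [this]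
      exact Subgroup.one_mem _
    · rw [mem_DU hF (by omega) σ hσ hord j hj g B g₀ hD]
      refine ⟨1, r, 1, one_ne_zero, one_ne_zero, ?_, by rw [hr, one_smul], by simp, ?_⟩
      · rw [hrdet]
        exact neg_ne_zero.2 one_ne_zero
      · rw [hrdet, one_pow, one_mul, map_neg, map_one]
        linear_combination h

/-- S2709 -/
theorem main_2709 {F : Type*} [Field F] [Fintype F] {q : ℕ}
    (hF : Fintype.card F = q ^ 2) {n : ℕ} (hn : 3 ≤ n) (F₀ : Type*) [Field F₀] [Fintype F₀]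
    (hF₀ : Fintype.card F₀ = q) (γ : MulAut (Cfsg.PSU n F q))
    (hγ : Cfsg.IsGraphAutClassPSU γ) (hγ2 : orderOf γ = 2) :
    ((Even n ∧ Odd q ∧ Nonempty (↥(Cfsg.inndiagPSU n F q ⊓ Subgroup.centralizer {γ}) ≃*
        Cfsg.PGSp (n / 2) F₀)) →
      Cfsg.splitClassCount (Cfsg.inndiagPSU n F q) (Cfsg.Inn (Cfsg.PSU n F q)) γ =
        Nat.gcd (n / 2) (q + 1)) ∧
    ((Even n ∧ Odd q ∧ ¬ Nonempty (↥(Cfsg.inndiagPSU n F q ⊓ Subgroup.centralizer {γ}) ≃*
        Cfsg.PGSp (n / 2) F₀)) →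
      Cfsg.splitClassCount (Cfsg.inndiagPSU n F q) (Cfsg.Inn (Cfsg.PSU n F q)) γ =
        Nat.gcd n (q + 1) / 2) ∧
    (¬ (Even n ∧ Odd q) →
      Cfsg.splitClassCount (Cfsg.inndiagPSU n F q) (Cfsg.Inn (Cfsg.PSU n F q)) γ =
        Nat.gcd n (q + 1)) := by
  classical
  obtain ⟨σ, hσ, hord, hcyc, j, hj⟩ := setup hF F₀ hF₀
  obtain ⟨δ, hR⟩ := rel_left hF hn σ hσ hord hcyc j hj γ hγ hγ2
  have hcent := rel_cent hF hn σ hσ hord j hj hR
  obtain ⟨g, B, g₀, rfl, rfl, hD, hsym⟩ := hR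
  rw [split_eqU hF hn]
  have hcard : Nat.card ↥(UU F q) = q + 1 := card_UU hF
  have h2_of : Odd q → (2 : F₀) ≠ 0 := by
    intro hp h
    have hc : ringChar F₀ = 2 := by
      have : ringChar F₀ ∣ 2 := (ringChar.spec F₀ 2).1 (by exact_mod_cast h)
      exact (Nat.prime_dvd_prime_iff_eq (CharP.char_is_prime F₀ (ringChar F₀)) Nat.prime_two).1
        this
    have h3 := FiniteField.even_card_of_char_two hc
    rw [hF₀] at h3
    exact (Nat.not_even_iff_odd.2 hp) (Nat.even_iff.2 h3)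
  refine ⟨?_, ?_, ?_⟩
  · rintro ⟨⟨r, hr⟩, hp, hiso⟩
    obtain ⟨m, rfl⟩ : ∃ m, n = 2 * m := ⟨r, by omega⟩
    have hm : 2 ≤ m := by omega
    have hdiv : 2 * m / 2 = m := Nat.mul_div_cancel_left m (by norm_num)
    rw [hdiv] at hiso ⊢
    have h2 := h2_of hp
    rcases hsym with hsym | hskw
    · exfalso
      apply GT3Main.cent_sym_not (F := F₀) (by rw [hF₀]; exact hp) hm g₀ hsym
      obtain ⟨E⟩ := hcent
      obtain ⟨E'⟩ := hiso
      exact ⟨E.symm.trans E'⟩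
    · rw [DU_skew hF hm σ hσ hord j hj h2 g B g₀ hD hskw, Cyc.range_sup_range,
        Nat.gcd_eq_left (Dvd.intro_left 2 rfl), IsCyclic.index_powMonoidHom_range, hcard,
        Nat.gcd_comm]
  · rintro ⟨⟨r, hr⟩, hp, hniso⟩
    obtain ⟨m, rfl⟩ : ∃ m, n = 2 * m := ⟨r, by omega⟩
    have hm : 2 ≤ m := by omega
    have hdiv : 2 * m / 2 = m := Nat.mul_div_cancel_left m (by norm_num)
    rw [hdiv] at hniso
    have h2 := h2_of hp
    rcases hsym with hsym | hskw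
    · have hdvd : 2 ∣ Nat.card ↥(UU F q) := by
        rw [hcard]
        obtain ⟨t, ht⟩ := hp
        exact ⟨t + 1, by omega⟩
      have hle : (powMonoidHom (2 * m) : ↥(UU F q) →* ↥(UU F q)).range ≤
          (powMonoidHom m : ↥(UU F q) →* ↥(UU F q)).range ⊔
            (powMonoidHom 2 : ↥(UU F q) →* ↥(UU F q)).ker := by
        refine le_sup_of_le_left ?_
        rintro _ ⟨w, rfl⟩
        refine ⟨w ^ 2, ?_⟩
        show (w ^ 2) ^ m = w ^ (2 * m)
        rw [← pow_mul]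
      rw [DU_sym hF hm σ hσ hord j hj h2 g B g₀ hD hsym, sup_eq_left.2 hle,
        Cyc.index_range_sup_ker m 2 hdvd (by norm_num), hcard]
      rw [hcard] at hdvd
      obtain ⟨t, ht⟩ := hdvd
      rw [ht, Nat.mul_div_cancel_left t (by norm_num), Nat.gcd_mul_left,
        Nat.mul_div_cancel_left _ (by norm_num)]
    · exfalso
      apply hniso
      obtain ⟨E⟩ := hcent
      obtain ⟨E'⟩ := GT3Main.cent_skew h2 hm g₀ hskw
      exact ⟨E.trans E'⟩
  · intro hneg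
    have hA : Odd n ∨ (2 : F₀) = 0 := by
      by_cases he : Even n
      · right
        have hno : ¬ Odd q := fun hp => hneg ⟨he, hp⟩
        have h1 := Nat.cast_card_eq_zero F₀
        rw [hF₀] at h1
        obtain ⟨t, ht⟩ := Nat.not_odd_iff_even.1 hno
        rw [ht] at h1
        push_cast at h1
        have h3 : (2 : F₀) * (t : F₀) = 0 := by linear_combination h1
        rcases mul_eq_zero.1 h3 with h | h
        · exact h
        · -- `t = 0` in `F₀` with `q = 2t`: then the characteristic divides `t`, so `q` is even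
          have hc := CharP.char_is_prime F₀ (ringChar F₀)
          have hdvd : ringChar F₀ ∣ t := (ringChar.spec F₀ t).1 h
          obtain ⟨k, hp', hk⟩ := FiniteField.card F₀ (ringChar F₀)
          rw [hF₀] at hk
          have h2dvd : 2 ∣ ringChar F₀ ^ (k : ℕ) := by
            rw [← hk]
            exact ⟨t, by omega⟩
          have h2c : 2 ∣ ringChar F₀ := Nat.Prime.dvd_of_dvd_pow Nat.prime_two h2dvd
          have hc2 : ringChar F₀ = 2 :=
            ((Nat.prime_dvd_prime_iff_eq Nat.prime_two hp').1 h2c).symm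
          have := ringChar.spec F₀ 2
          exact_mod_cast (this.2 (by rw [hc2]))
      · left
        exact Nat.not_even_iff_odd.1 he
    rw [sup_eq_right.2 (DU_le_pow hF hn σ hσ hord j hj g B g₀ hD hA),
      IsCyclic.index_powMonoidHom_range, hcard, Nat.gcd_comm]

end Cfsg.Agent.Lib.Helper53.GT6
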