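import Mathlib
import Cfsg.Agent.Lib.Helper53.GTCent
import Cfsg.Agent.Lib.Helper30.GTSQ
import Cfsg.Agent.Lib.Helper30.GTEVEN
import Cfsg.Agent.Lib.Helper30.GTODD
import Cfsg.Agent.Lib.Helper54.GTPGO

set_option autoImplicit false

namespace Cfsg.Agent.Lib.Helper53.GTMain

open Matrix Cfsg.Agent.Lib.Helper53.AutPSL Cfsg.Agent.Lib.Helper53.GT

/-! # PIECES -/





/-! # ASSEMBLY -/

theorem main_gt {F : Type*} [Field F] [Fintype F] (hodd : Odd (Fintype.card F)) {n m : ℕ}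
    (hm : 2 ≤ m) (hnm : n = 2 * m)
    (ι : MulAut (Matrix.ProjectiveSpecialLinearGroup (Fin n) F))
    (hι : Cfsg.IsInverseTransposeAutPSL ι) :
    (Even (n * (Fintype.card F - 1) / 4) →
      Nonempty (↥(Cfsg.inndiagPSL n F ⊓ Subgroup.centralizer {ι}) ≃*
        Cfsg.PGO F (Cfsg.quadFormPlus m F))) ∧
    (¬ Even (n * (Fintype.card F - 1) / 4) → ∃ a b : F,
      (∀ z₁ z₂ : F, z₁ ^ 2 + a * z₁ * z₂ + b * z₂ ^ 2 = 0 → z₁ = 0 ∧ z₂ = 0) ∧
      Nonempty (↥(Cfsg.inndiagPSL n F ⊓ Subgroup.centralizer {ι}) ≃*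
        Cfsg.PGO F (Cfsg.quadFormMinus (m - 1) F a b))) := by
  subst hnm
  rw [invTransp_iff] at hι
  subst hι
  have h2 : (2 : F) ≠ 0 := by
    intro h
    have hc : ringChar F = 2 := by
      have : ringChar F ∣ 2 := (ringChar.spec F 2).1 (by exact_mod_cast h)
      exact (Nat.prime_dvd_prime_iff_eq (CharP.char_is_prime F (ringChar F)) Nat.prime_two).1 this
    have h3 := FiniteField.even_card_of_char_two hc
    exact (Nat.not_even_iff_odd.2 hodd) (Nat.even_iff.2 h3)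
  obtain ⟨E⟩ := nonempty_centEquivO (n := 2 * m) (F := F) h2 (by omega)
  obtain ⟨k, hk⟩ := hodd
  have harith : 2 * m * (Fintype.card F - 1) / 4 = m * k := by
    rw [hk, Nat.add_sub_cancel]
    have : 2 * m * (2 * k) = 4 * (m * k) := by ring
    rw [this, Nat.mul_div_cancel_left _ (by norm_num)]
  rw [harith]
  have hsq : IsSquare (-1 : F) ↔ Even k := by
    rw [FiniteField.isSquare_neg_one_iff, hk, Nat.even_iff]
    omega
  haveI : Fact (ringChar F).Prime := ⟨CharP.char_is_prime F (ringChar F)⟩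
  obtain ⟨α, β, hαβ⟩ := CharP.sq_add_sq F (ringChar F) (-1)
  have hαβ' : (α : F) ^ 2 + (β : F) ^ 2 = -1 := by
    rw [hαβ]
    push_cast
    rfl
  constructor
  · intro hev
    have hplus : ∃ e : (Fin m ⊕ Fin m → F) ≃ₗ[F] (Fin (2 * m) → F),
        ∀ v, e v ⬝ᵥ e v = Cfsg.quadFormPlus m F v := by
      rcases Nat.even_mul.1 hev with hme | hke
      · exact Cfsg.Agent.Lib.Helper30.GTEVEN.dot_plus_even h2 m hme _ _ hαβ'
      · obtain ⟨i, hi⟩ := hsq.2 hke
        exact Cfsg.Agent.Lib.Helper30.GTSQ.dot_plus_sq h2 m i (by rw [pow_two, ← hi])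
    obtain ⟨e, he⟩ := hplus
    obtain ⟨E2⟩ := Cfsg.Agent.Lib.Helper54.GTPGO.pgo_congr (dotQ (Fin (2 * m)) F) (Cfsg.quadFormPlus m F) e he
    exact ⟨E.trans E2⟩
  · intro hnev
    rw [Nat.even_mul, not_or] at hnev
    obtain ⟨hmo, hko⟩ := hnev
    have hns : ¬ IsSquare (-1 : F) := fun h => hko (hsq.1 h)
    obtain ⟨j, rfl⟩ : ∃ j, m = j + 1 := ⟨m - 1, by omega⟩
    have hje : Even j := by
      rcases Nat.even_or_odd j with h | h
      · exact h
      · exact absurd (Nat.even_add_one.2 (Nat.not_even_iff_odd.2 h)) hmo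
    refine ⟨0, 1, ?_, ?_⟩
    · intro z₁ z₂ hz
      by_contra hcon
      have hz2 : z₂ ≠ 0 := by
        rintro rfl
        apply hcon
        refine ⟨?_, rfl⟩
        have : z₁ ^ 2 = 0 := by linear_combination hz
        exact pow_eq_zero_iff (two_ne_zero) |>.1 this
      apply hns
      refine ⟨z₁ / z₂, ?_⟩
      field_simp
      linear_combination -hz
    · obtain ⟨e, he⟩ := Cfsg.Agent.Lib.Helper30.GTODD.dot_minus_of_plus (F := F) j
        (Cfsg.Agent.Lib.Helper30.GTEVEN.dot_plus_even h2 j hje _ _ hαβ')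
      obtain ⟨E2⟩ := Cfsg.Agent.Lib.Helper54.GTPGO.pgo_congr (dotQ (Fin (2 * (j + 1))) F)
        (Cfsg.quadFormMinus j F 0 1) e he
      exact ⟨E.trans E2⟩

end Cfsg.Agent.Lib.Helper53.GTMain
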