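import Cfsg.Agent.Lib.Helper60.H74C4of

/-!
# Project H74, batch 2 (S5990, helper98): piece CPXT (`cpx_typ`)

`g² = -1` with `-1` a nonsquare: a `g`-invariant nondegenerate subspace of dimension `2k + 2`
has type `(-1) ^ (k + 1)` (it is an orthogonal sum of `k + 1` invariant anisotropic planes).
-/

set_option autoImplicit false

namespace Cfsg.Agent.Lib.Helper98.H74

open Cfsg.Agent.Lib.Helper47 Cfsg.Agent.Lib.Helper98.T73 Module Polynomial

universe u

section cpxtAmb

variable {F : Type u} [Field F] [Fintype F]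

/-- ambient version of CPXT: induction on `k`, peeling off an invariant anisotropic plane -/
theorem cpxt_amb (hf : QFacts F) (h2 : (2 : F) ≠ 0) (hns : ¬ IsSquare (-1 : F)) :
    ∀ (k : ℕ) (V : Type u) [AddCommGroup V] [Module F V] [FiniteDimensional F V]
      (Q : V → F) (B : V → V → F), IsQuad Q B → Nondeg B → finrank F V = 2 * k + 2 →
      ∀ τ : ℤ, IsTyp Q k τ → ∀ g : Module.End F V, QI Q g → g * g = -1 →
      τ = (-1) ^ (k + 1) := by
  intro k
  induction k with
  | zero =>
    intro V _ _ _ Q B hQ hnd hdim τ hτ g hgQ hg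
    have htop : (⊤ : Submodule F V) ≠ ⊥ := by
      intro h
      have h1 : finrank F (⊤ : Submodule F V) = 0 := by rw [h]; exact finrank_bot F V
      rw [finrank_top, hdim] at h1
      omega
    have hndtop : Nondeg (resForm B (⊤ : Submodule F V)) := by
      intro x hx
      apply Subtype.ext
      exact hnd x.1 (fun y => hx ⟨y, Submodule.mem_top⟩)
    obtain ⟨P, -, hP, hPg⟩ := c4_plane hf h2 hns hQ hgQ hg ⊤ le_top hndtop htop
    have hPtop : P = ⊤ := by
      apply Submodule.eq_top_of_finrank_eq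
      rw [hP.2.1, hdim]
    have hall : ∀ v : V, v ∈ P := fun v => by rw [hPtop]; exact Submodule.mem_top
    have hT : IsTyp Q 0 (-1) :=
      IsTyp.of_equiv (Equiv.subtypeUnivEquiv hall) (fun v => rfl) hP.2.2
    rw [IsTyp.unique hτ hT]
    norm_num
  | succ j ih =>
    intro V _ _ _ Q B hQ hnd hdim τ hτ g hgQ hg
    haveI : Finite V := Module.finite_of_finite F
    have htop : (⊤ : Submodule F V) ≠ ⊥ := by
      intro h
      have h1 : finrank F (⊤ : Submodule F V) = 0 := by rw [h]; exact finrank_bot F V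
      rw [finrank_top, hdim] at h1
      omega
    have hndtop : Nondeg (resForm B (⊤ : Submodule F V)) := by
      intro x hx
      apply Subtype.ext
      exact hnd x.1 (fun y => hx ⟨y, Submodule.mem_top⟩)
    obtain ⟨P, -, hP, hPg⟩ := c4_plane hf h2 hns hQ hgQ hg ⊤ le_top hndtop htop
    have hc : IsCompl P (hQ.form.orth P) := isCompl_orth hQ.form hP.1
    have hYnd : Nondeg (resForm B (hQ.form.orth P)) := nondeg_orth hQ.form hnd hc
    have hYg : (hQ.form.orth P).map g ≤ hQ.form.orth P := by
      rintro _ ⟨y, hy, rfl⟩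
      intro x hx
      have hx' : -(g x) ∈ P := P.neg_mem (hPg (Submodule.mem_map_of_mem hx))
      have h1 : B (g (-(g x))) (g y) = B (-(g x)) y := hQ.isometry hQ g hgQ _ _
      rw [map_neg, c4_gg hg, neg_neg] at h1
      rw [h1]
      exact hy _ hx'
    have hdimY : finrank F (hQ.form.orth P) = 2 * j + 2 := by
      have h1 := Submodule.finrank_add_eq_of_isCompl hc
      rw [hP.2.1, hdim] at h1
      omega
    have hres : ∀ y ∈ hQ.form.orth P, g y ∈ hQ.form.orth P :=
      fun y hy => hYg (Submodule.mem_map_of_mem hy)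
    have hg' : g.restrict hres * g.restrict hres = -1 := by
      apply LinearMap.ext
      intro w
      apply Subtype.ext
      exact c4_gg hg w
    have hex : ∃ τ' : ℤ, IsTyp (fun w : hQ.form.orth P => Q (w : V)) j τ' := by
      rcases hf.typ_exists j (hQ.form.orth P) (fun w : hQ.form.orth P => Q (w : V))
        (resForm B (hQ.form.orth P)) (hQ.res _) hYnd hdimY with h | h
      · exact ⟨1, h⟩
      · exact ⟨-1, h⟩
    obtain ⟨τ', hτ'⟩ := hex
    have h1 : τ' = (-1) ^ (j + 1) :=
      ih (hQ.form.orth P) (fun w : hQ.form.orth P => Q (w : V))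
        (resForm B (hQ.form.orth P)) (hQ.res _) hYnd hdimY τ' hτ' (g.restrict hres)
        (fun w => hgQ w) hg'
    have hprod := hf.typ_prod (fun w : P => Q (w : V))
      (fun w : hQ.form.orth P => Q (w : V)) hP.2.2 hτ'
    have hT : IsTyp Q (0 + j + 1) ((-1) * τ') := by
      refine IsTyp.of_equiv (Submodule.prodEquivOfIsCompl P (hQ.form.orth P) hc).toEquiv
        (fun x => ?_) hprod
      show Q ((Submodule.prodEquivOfIsCompl P (hQ.form.orth P) hc) x) = Q x.1 + Q x.2
      rw [Submodule.coe_prodEquivOfIsCompl', hQ.polar, x.2.2 _ x.1.2, add_zero]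
    have e1 : 0 + j + 1 = j + 1 := by omega
    rw [e1] at hT
    rw [IsTyp.unique hτ hT, h1]
    ring

end cpxtAmb

variable {F : Type u} [Field F] [Fintype F] {V : Type u} [AddCommGroup V] [Module F V]
  [FiniteDimensional F V] {Q : V → F} {B : V → V → F}

/-- CPXT -/
theorem cpx_typ (hf : QFacts F) (h2 : (2 : F) ≠ 0) (hns : ¬ IsSquare (-1 : F))
    (hQ : IsQuad Q B) (hnd : Nondeg B) (p : ℕ) [Fact p.Prime] [CharP F p]
    (g : Module.End F V) (hgQ : QI Q g) (hg : g * g = -1) (k : ℕ) (τ : ℤ) (W : Submodule F V)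
    (hW : SubTyp Q B W k τ) (hWg : W.map g ≤ W) : τ = (-1) ^ (k + 1) := by
  have hres : ∀ y ∈ W, g y ∈ W := fun y hy => hWg (Submodule.mem_map_of_mem hy)
  have hg' : g.restrict hres * g.restrict hres = -1 := by
    apply LinearMap.ext
    intro w
    apply Subtype.ext
    exact c4_gg hg w
  exact cpxt_amb hf h2 hns k W (fun w : W => Q (w : V)) (resForm B W) (hQ.res W) hW.1 hW.2.1 τ
    hW.2.2 (g.restrict hres) (fun w => hgQ w) hg'

end Cfsg.Agent.Lib.Helper98.H74
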