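import Mathlib
import Cfsg.Agent.Lib.Helper78.JQDefs
import Cfsg.Agent.Lib.Helper55.Subn
import Cfsg.Agent.Lib.Helper82.JcOCPC

/-! JQ-SUB3 (project JQ = S2945, helper78): modulo `C_X(U)` the subnormal subgroup `K = O⟨y⟩`
lies in a normal 3-subgroup. -/

set_option autoImplicit false

namespace Cfsg.Agent.Lib.Helper53.JQ

open Cfsg.Agent.Lib.Helper78.JQ Cfsg.Agent.Lib.Helper78.Jc

universe u

theorem sub3 : Sub3Stmt.{u} := by
  intro X _ _ U K O y hU hK hO hyK hy3 hKO
  haveI : U.Normal := hU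
  haveI hCn : (Subgroup.centralizer (U : Set X)).Normal := Subgroup.normal_centralizer
  haveI : Fact (Nat.Prime 3) := ⟨Nat.prime_three⟩
  obtain ⟨π, hπ⟩ : ∃ π : X →* X ⧸ Subgroup.centralizer (U : Set X),
      π = QuotientGroup.mk' (Subgroup.centralizer (U : Set X)) := ⟨_, rfl⟩
  have hπs : Function.Surjective π := by
    rw [hπ]; exact QuotientGroup.mk'_surjective _
  have hker : ∀ x : X, π x = 1 ↔ x ∈ Subgroup.centralizer (U : Set X) := by
    intro x
    rw [hπ]
    exact QuotientGroup.eq_one_iff x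
  have hOC : ∀ o ∈ O, π o = 1 := by
    intro o ho
    rw [hker, Subgroup.mem_centralizer_iff]
    intro u hu
    exact (hO o ho u hu).symm
  have hy3' : π y ^ 3 = 1 := by rw [← map_pow, hy3, map_one]
  -- the image of `K` is a 3-group
  have hK3 : IsPGroup 3 ↥(K.map π) := by
    rintro ⟨g, hg⟩
    obtain ⟨k, hk, rfl⟩ := Subgroup.mem_map.mp hg
    refine ⟨1, ?_⟩
    apply Subtype.ext
    rw [Subgroup.coe_pow, Subgroup.coe_one, pow_one]
    change π k ^ 3 = 1
    obtain ⟨o, ho, h | h | h⟩ := hKO k hk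
    · rw [h, hOC o ho, one_pow]
    · rw [h, map_mul, hOC o ho, mul_one, hy3']
    · rw [h, map_mul, hOC o ho, mul_one, map_inv, inv_pow, hy3', inv_one]
  have hKs : (K.map π).IsSubnormal := Subgroup.IsSubnormal.map hπs hK
  have hle : K.map π ≤ Cfsg.pCore 3 (X ⧸ Subgroup.centralizer (U : Set X)) :=
    Cfsg.Agent.Lib.Helper55.subnormal_pgroup_le_pCore hKs hK3
  have hPn : (Cfsg.pCore 3 (X ⧸ Subgroup.centralizer (U : Set X))).Normal :=
    Cfsg.Agent.Lib.Helper82.Jc.pCore_normal_aux 3 _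
  have hP3 : IsPGroup 3 ↥(Cfsg.pCore 3 (X ⧸ Subgroup.centralizer (U : Set X))) :=
    Cfsg.Agent.Lib.Helper82.Jc.pCore_isPGroup_aux 3 _
  refine ⟨(Cfsg.pCore 3 (X ⧸ Subgroup.centralizer (U : Set X))).comap π, hPn.comap π, ?_, ?_⟩
  · rw [Subgroup.mem_comap]
    exact hle (Subgroup.mem_map_of_mem π hyK)
  · intro n hn
    rw [Subgroup.mem_comap] at hn
    obtain ⟨j, hj⟩ := hP3 ⟨π n, hn⟩
    refine ⟨j, ?_⟩
    have hj' : π (n ^ 3 ^ j) = 1 := by
      have := congrArg Subtype.val hj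
      rw [Subgroup.coe_pow, Subgroup.coe_one] at this
      rw [map_pow]
      exact this
    rw [hker, Subgroup.mem_centralizer_iff] at hj'
    intro u hu
    exact (hj' u hu).symm
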