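import Mathlib
import Cfsg.Agent.Lib.Helper53.OddFE

/-!
# Field automorphisms of `Ω_{2m+1}(q)` of prime order: the statement S2714 (helper53)
-/

set_option autoImplicit false
set_option linter.unusedSectionVars false

namespace Cfsg.Agent.Lib.Helper53.OddF

open Module QuadraticMap Matrix
open Cfsg Cfsg.Agent.Lib.Helper51 Cfsg.Agent.Lib.Helper51.GammaO Cfsg.Agent.Lib.Helper52
  Cfsg.Agent.Lib.Helper52.OA Cfsg.Agent.Lib.Helper51.OutSpin Cfsg.Agent.Lib.Helper51.OutOdd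
  Cfsg.Agent.Lib.Helper54

theorem orderOf_conj3 {G : Type*} [Group G] (a z : G) : orderOf (a * z * a⁻¹) = orderOf z :=
  orderOf_injective (MulAut.conj a).toMonoidHom (MulAut.conj a).injective z

/-- the statement S2714, for forms given as functions -/
theorem main_odd {F : Type*} [Field F] [Fintype F] {p f : ℕ} [Fact p.Prime]
    (hF : Fintype.card F = p ^ f) (hodd : Odd (Fintype.card F)) {m : ℕ} (hm : 3 ≤ m)
    (Q' : (Unit ⊕ (Fin m ⊕ Fin m) → F) → F) (hQ' : ⇑(QOdd m F) = Q')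
    (x : MulAut (POmega F Q')) (hx : IsFieldAutClassPOmega Q' x) {r : ℕ} (hr : r.Prime)
    (hxr : orderOf x = r) (F₀ : Type*) [Field F₀] [Fintype F₀]
    (hF₀ : Fintype.card F₀ = p ^ (f / r))
    (Q₀' : (Unit ⊕ (Fin m ⊕ Fin m) → F₀) → F₀) (hQ₀' : ⇑(QOdd m F₀) = Q₀') :
    r ∣ f ∧ Nonempty (↥(pgoAut F Q' ⊓ Subgroup.centralizer {x}) ≃* ↥(pgoAut F₀ Q₀')) ∧
      (Odd r → splitClassCount (pgoAut F Q') (Inn (POmega F Q')) x = 1) ∧
      (r = 2 → splitClassCount (pgoAut F Q') (Inn (POmega F Q')) x = 2) := by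
  subst hQ' hQ₀'
  have h2 : (2 : F) ≠ 0 := two_ne_zero_of_odd_card hodd
  obtain ⟨Q, hQc, hQ, hn, h8⟩ := OAF.odd_data hodd hm
  have hQeq : Q = QOdd m F := DFunLike.coe_injective (hQc.trans (coe_QOdd m F).symm)
  subst hQeq
  obtain ⟨α, φ, σ, hσne, hφ, hconj⟩ := hx
  have hφ' : φ = Theta ⇑(QOdd m F) (inrG (QOdd m F) (inr_mem m) σ) :=
    (field_iff (QOdd m F) (inr_mem m) σ φ).mp hφ
  have hφord : orderOf φ = r := by
    rw [← hconj, orderOf_conj3, hxr]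
  haveI : Fact r.Prime := ⟨hr⟩
  have hσr : (σ : RingAut F) ^ r = 1 := by
    have h1 : Theta ⇑(QOdd m F) (inrG (QOdd m F) (inr_mem m) ((σ : RingAut F) ^ r)) = 1 := by
      rw [inrG_pow, map_pow, ← hφ', ← hφord]
      exact pow_orderOf_eq_one φ
    exact ((ker_Theta (QOdd m F) hQ hn _).1 h1).1
  have hσne' : (σ : RingAut F) ≠ 1 := hσne
  have hσord : orderOf (σ : RingAut F) = r := orderOf_eq_prime hσr hσne'
  obtain ⟨hdvd, -⟩ := Fix.fixed_card hF σ hσord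
  obtain ⟨e, he⟩ := Fix.exists_embedding hF σ hσord F₀ hF₀
  have hH : ∀ h ∈ pgoAut F ⇑(QOdd m F), α * h * α⁻¹ ∈ pgoAut F ⇑(QOdd m F) :=
    pgo_conj (QOdd m F) hQ hn h8 α
  have hH' : ∀ h ∈ pgoAut F ⇑(QOdd m F), α⁻¹ * h * α ∈ pgoAut F ⇑(QOdd m F) := by
    intro h hh
    have := pgo_conj (QOdd m F) hQ hn h8 α⁻¹ h hh
    rwa [inv_inv] at this
  have hK : ∀ h ∈ Inn (POmega F ⇑(QOdd m F)), α * h * α⁻¹ ∈ Inn (POmega F ⇑(QOdd m F)) :=
    inn_conj α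
  have hK' : ∀ h ∈ Inn (POmega F ⇑(QOdd m F)), α⁻¹ * h * α ∈ Inn (POmega F ⇑(QOdd m F)) := by
    intro h hh
    have := inn_conj α⁻¹ h hh
    rwa [inv_inv] at this
  obtain ⟨lamb, hls, hlam⟩ := exists_lam (QOdd m F) h2 hQ (by omega) (negO_not_mem m h2)
  have hv : ∃ v, QOdd m F v ≠ 0 := by
    refine ⟨Pi.single (Sum.inl ()) 1, ?_⟩
    rw [QOdd_apply]
    simp
  have hdec := dec_odd (F := F) m h2
  have hθ : ∀ (γ : ↥(GO ⇑(QOdd m F))) (h : ↥(isometryGroup F ⇑(QOdd m F))) (d : F), d ≠ 0 →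
      ((γ.1.left : Matrix.GeneralLinearGroup (Unit ⊕ (Fin m ⊕ Fin m)) F) :
        Matrix (Unit ⊕ (Fin m ⊕ Fin m)) (Unit ⊕ (Fin m ⊕ Fin m)) F) =
        d • ((h : Matrix.GeneralLinearGroup (Unit ⊕ (Fin m ⊕ Fin m)) F) :
          Matrix (Unit ⊕ (Fin m ⊕ Fin m)) (Unit ⊕ (Fin m ⊕ Fin m)) F) →
      theta (QOdd m F) hv hdec lamb hlam (inr_mem m) γ = lamb h :=
    fun γ h d hd e => thetaFun_eq (QOdd m F) hv hdec lamb hlam γ h d hd e
  refine ⟨hdvd, ?_, ?_, ?_⟩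
  · have e1 := SplitAbs.centConj (pgoAut F ⇑(QOdd m F)) α hH hH' x
    rw [hconj, hφ'] at e1
    obtain ⟨e2⟩ := nonempty_cent e m h2 hQ hn σ r hr.pos hσord he
    exact ⟨e1.trans e2⟩
  · intro hrodd
    rw [← SplitAbs.split_conj _ _ α hH hH' hK hK' x, hconj, hφ']
    exact split_one (QOdd m F) hQ hn hdec lamb hls hlam _ hθ _
      (exists_comm_neg e m h2 hQ hn (by omega) σ r hrodd hσr he lamb hlam _ hθ)
  · intro hr2
    subst hr2
    rw [← SplitAbs.split_conj _ _ α hH hH' hK hK' x, hconj, hφ']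
    have hcard : Fintype.card F = Fintype.card F₀ ^ 2 := by
      rw [hF, hF₀, ← pow_mul]
      congr 1
      exact (Nat.div_mul_cancel hdvd).symm
    have hodd₀ : Odd (Fintype.card F₀) := by
      rw [hcard, pow_two] at hodd
      exact (Nat.odd_mul.1 hodd).1
    exact split_two (QOdd m F) hQ hn hdec lamb hls hlam _ hθ _
      (fun g hg => all_comm_one e m h2 hQ hn σ hσord he (isSquare_up e h2 hodd₀ hcard) lamb hlam
        _ hθ g hg)

end Cfsg.Agent.Lib.Helper53.OddF
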