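import Mathlib
import Cfsg.Prelude.Def_GeometricClasses
import Cfsg.Prelude.Def_LieClassical
import Cfsg.Agent.Lib.Helper18.Symp

/-! Project SPP (helper71), piece NS5: `Sp_{2m}` is not contained in a subfield group. -/

set_option autoImplicit false

namespace Cfsg.Agent.Lib.Helper53.SPPNS5

open Matrix Cfsg.Geo
open scoped Pointwise

variable {n : ℕ} {F : Type*} [Field F] [Fintype F]

/-- unpacking membership in a subfield group (any index type) -/
theorem ns5_unpack {ι : Type} [Fintype ι] [DecidableEq ι] (F₀ : Subfield F) (P g : GL ι F)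
    (hg : g ∈ subfieldSubgroup F₀ P) :
    ∃ (l : F) (b : Matrix ι ι F), l ≠ 0 ∧ (∀ i j, b i j ∈ F₀) ∧
      (P⁻¹ : GL ι F).1 * g.1 * P.1 = l • b := by
  unfold subfieldSubgroup at hg
  rw [Subgroup.mem_map] at hg
  obtain ⟨y, hy, hyg⟩ := hg
  have hy' : y ∈ (((Matrix.GeneralLinearGroup.map (F₀.subtype : F₀ →+* F)).range :
      Subgroup (GL ι F)) : Set (GL ι F)) *
      (scalars ι F : Set (GL ι F)) := by
    rw [← Subgroup.mul_normal]
    exact hy
  obtain ⟨b, hb, s, hs, hbs⟩ := Set.mem_mul.mp hy'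
  obtain ⟨b₀, hb₀⟩ := hb
  have hs' : s ∈ scalars ι F := hs
  rw [mem_scalars_iff] at hs'
  obtain ⟨l, hl⟩ := hs'
  have hbentry : ∀ i j, b.1 i j ∈ F₀ := by
    intro i j
    rw [← hb₀]
    have := Matrix.GeneralLinearGroup.map_apply (F₀.subtype : F₀ →+* F) i j b₀
    rw [show (Matrix.GeneralLinearGroup.map (F₀.subtype : F₀ →+* F) b₀).1 i j
      = (F₀.subtype : F₀ →+* F) (b₀.1 i j) from this]
    exact (b₀.1 i j).2
  refine ⟨(l : F), b.1, l.ne_zero, hbentry, ?_⟩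
  have h1 : g = P * y * P⁻¹ := hyg.symm
  have e1 : (P⁻¹ : GL ι F).1 * P.1 = 1 := Units.inv_mul P
  have h2 : (P⁻¹ : GL ι F).1 * g.1 * P.1 = y.1 := by
    rw [h1]
    simp only [Units.val_mul]
    calc (P⁻¹ : GL ι F).1 * (P.1 * y.1 * (P⁻¹ : GL ι F).1) * P.1
        = ((P⁻¹ : GL ι F).1 * P.1) * y.1 * ((P⁻¹ : GL ι F).1 * P.1) := by
          simp only [Matrix.mul_assoc]
      _ = y.1 := by rw [e1, Matrix.one_mul, Matrix.mul_one]
  rw [h2, ← hbs, Units.val_mul, hl, Matrix.mul_smul, Matrix.mul_one]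

/-- the symplectic transvections as elements of `spGL` -/
theorem ns5_transv (m : ℕ) (v : Fin m ⊕ Fin m → F) (c : F) :
    ∃ t : GL (Fin m ⊕ Fin m) F, t.1 = Cfsg.sympTransvection m v c ∧ t ∈ Cfsg.spGL m F := by
  have hmem := Cfsg.Agent.Lib.Helper18.sympTransvection_mem m v c
  have hdet : IsUnit (Cfsg.sympTransvection m v c).det :=
    SymplecticGroup.symplectic_det hmem
  have hu : IsUnit (Cfsg.sympTransvection m v c) := (Matrix.isUnit_iff_isUnit_det _).mpr hdet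
  refine ⟨hu.unit, rfl, ?_⟩
  intro x y
  have h := Cfsg.Agent.Lib.Helper18.symplectic_isometry m _ hmem x y
  rw [Cfsg.Agent.Lib.Helper18.sympB_eq_sympForm, Cfsg.Agent.Lib.Helper18.sympB_eq_sympForm,
    Matrix.toLin'_apply, Matrix.toLin'_apply] at h
  exact h

theorem NS5 (m : ℕ) (hm : 2 ≤ m) (F₀ : Subfield F) (hF₀ : F₀ ≠ ⊤) (P : GL (Fin m ⊕ Fin m) F) :
    ¬ Cfsg.spGL m F ≤ subfieldSubgroup F₀ P := by
  intro hle
  have e1 : (P⁻¹ : GL (Fin m ⊕ Fin m) F).1 * P.1 = 1 := Units.inv_mul P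
  have e2 : P.1 * (P⁻¹ : GL (Fin m ⊕ Fin m) F).1 = 1 := Units.mul_inv P
  let i₀ : Fin m ⊕ Fin m := Sum.inl ⟨0, by omega⟩
  obtain ⟨e, he⟩ : ∃ e : Fin m ⊕ Fin m → F, e = Pi.single i₀ 1 := ⟨_, rfl⟩
  obtain ⟨v, hv⟩ : ∃ v : Fin m ⊕ Fin m → F, v = P.1 *ᵥ e := ⟨_, rfl⟩
  obtain ⟨b, hb⟩ : ∃ b : Fin m ⊕ Fin m → F, b = (Matrix.J (Fin m) F *ᵥ v) ᵥ* P.1 := ⟨_, rfl⟩
  have hPv : (P⁻¹ : GL (Fin m ⊕ Fin m) F).1 *ᵥ v = e := by
    rw [hv, Matrix.mulVec_mulVec, e1, Matrix.one_mulVec]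
  have he0 : e ≠ 0 := by
    intro h0
    have h1 := congrFun h0 i₀
    rw [he, Pi.single_eq_same] at h1
    exact one_ne_zero h1
  have hv0 : v ≠ 0 := by
    intro h0
    apply he0
    rw [← hPv, h0, Matrix.mulVec_zero]
  -- the conjugated transvection
  have hform : ∀ c : F, (P⁻¹ : GL (Fin m ⊕ Fin m) F).1 * Cfsg.sympTransvection m v c * P.1 =
      1 + c • vecMulVec e b := by
    intro c
    unfold Cfsg.sympTransvection
    rw [Matrix.mul_add, Matrix.add_mul, Matrix.mul_one, e1, Matrix.mul_smul, Matrix.smul_mul,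
      mul_vecMulVec, vecMulVec_mul, hPv, hb]
  have hb0 : b i₀ = 0 := by
    have h1 : b i₀ = b ⬝ᵥ e := by
      rw [he, dotProduct_single, mul_one]
    rw [h1, hb, ← Matrix.dotProduct_mulVec, ← hv, dotProduct_comm]
    exact Cfsg.Agent.Lib.Helper18.J_dotProduct_self m v
  have hbne : b ≠ 0 := by
    intro h0
    apply hv0
    have h1 : Matrix.J (Fin m) F *ᵥ v = 0 := by
      have h2 : ((Matrix.J (Fin m) F *ᵥ v) ᵥ* P.1) ᵥ* (P⁻¹ : GL (Fin m ⊕ Fin m) F).1 = 0 := by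
        rw [← hb, h0, Matrix.zero_vecMul]
      rw [Matrix.vecMul_vecMul, e2, Matrix.vecMul_one] at h2
      exact h2
    have h3 : Matrix.J (Fin m) F *ᵥ (Matrix.J (Fin m) F *ᵥ v) = 0 := by
      rw [h1, Matrix.mulVec_zero]
    rw [Matrix.mulVec_mulVec, Matrix.J_squared, Matrix.neg_mulVec, Matrix.one_mulVec,
      neg_eq_zero] at h3
    exact h3
  obtain ⟨j₁, hj₁⟩ : ∃ j₁, b j₁ ≠ 0 := by
    by_contra h'
    push Not at h'
    exact hbne (funext h')
  have hji : j₁ ≠ i₀ := by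
    intro h
    rw [h] at hj₁
    exact hj₁ hb0
  have key : ∀ c : F, c * b j₁ ∈ F₀ := by
    intro c
    obtain ⟨t, ht, htS⟩ := ns5_transv m v c
    obtain ⟨l, y, hl, hy, hly⟩ := ns5_unpack F₀ P t (hle htS)
    rw [ht, hform c] at hly
    have hent : ∀ i j, (if i = j then (1 : F) else 0) + c * (e i * b j) = l * y i j := by
      intro i j
      have h1 := congrFun (congrFun hly i) j
      rw [Matrix.add_apply, Matrix.one_apply, Matrix.smul_apply, vecMulVec_apply,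
        Matrix.smul_apply, smul_eq_mul, smul_eq_mul] at h1
      exact h1
    have hej : e j₁ = 0 := by
      rw [he, Pi.single_eq_of_ne hji]
    have hei : e i₀ = 1 := by
      rw [he, Pi.single_eq_same]
    have h11 : l * y j₁ j₁ = 1 := by
      have h1 := hent j₁ j₁
      rw [if_pos rfl, hej, zero_mul, mul_zero, add_zero] at h1
      exact h1.symm
    have h12 : l * y i₀ j₁ = c * b j₁ := by
      have h1 := hent i₀ j₁
      rw [if_neg (Ne.symm hji), hei, one_mul, zero_add] at h1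
      exact h1.symm
    have hyne : y j₁ j₁ ≠ 0 := by
      intro h0
      rw [h0, mul_zero] at h11
      exact zero_ne_one h11
    have hlF : l ∈ F₀ := by
      have h1 : l = (y j₁ j₁)⁻¹ := eq_inv_of_mul_eq_one_left h11
      rw [h1]
      exact F₀.inv_mem (hy j₁ j₁)
    rw [← h12]
    exact F₀.mul_mem hlF (hy i₀ j₁)
  apply hF₀
  rw [eq_top_iff]
  intro x _
  have h1 := key (x * (b j₁)⁻¹)
  rw [mul_assoc, inv_mul_cancel₀ hj₁, mul_one] at h1
  exact h1

end Cfsg.Agent.Lib.Helper53.SPPNS5
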