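import Mathlib
import Cfsg.Agent.Lib.Helper53.SUGO
import Cfsg.Agent.Lib.Helper30.GTEVEN
import Cfsg.Agent.Lib.Helper54.GTPGO

/-!
# S2710: the centraliser of the `q`-Frobenius in `Inndiag(PSU_n(q))`, `4 ∣ n`, is `PGO⁺_n(q)`
-/

set_option autoImplicit false

namespace Cfsg.Agent.Lib.Helper53.SUGO

open Matrix Cfsg.Agent.Lib.Helper53.AutPSU Cfsg.Agent.Lib.Helper53.GT

theorem main_2710 {F : Type*} [Field F] [Fintype F] {q : ℕ} (hodd : Odd q)
    (hF : Fintype.card F = q ^ 2) {n m : ℕ} (hm : 2 ≤ m) (hnm : n = 2 * m) (h4 : 4 ∣ n)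
    (F₀ : Type*) [Field F₀] [Fintype F₀] (hF₀ : Fintype.card F₀ = q) (σ : F ≃+* F)
    (hσ : ∀ a : F, σ a = a ^ q) (φ : MulAut (Cfsg.PSU n F q))
    (hφ : Cfsg.IsFieldAutPSUOf σ φ) :
    Nonempty (↥(Cfsg.inndiagPSU n F q ⊓ Subgroup.centralizer {φ}) ≃*
      Cfsg.PGO F₀ (Cfsg.quadFormPlus m F₀)) := by
  classical
  subst hnm
  rw [stdFieldU_iff] at hφ
  subst hφ
  obtain ⟨k, hp, hk⟩ := FiniteField.card F₀ (ringChar F₀)
  haveI : Fact (ringChar F₀).Prime := ⟨hp⟩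
  have hq : q = ringChar F₀ ^ (k : ℕ) := by rw [← hF₀, hk]
  have hF' : Fintype.card F = ringChar F₀ ^ (2 * (k : ℕ)) := by
    rw [hF, hq, ← pow_mul, mul_comm]
  have hq2 : 2 ≤ q := by
    have := Fintype.one_lt_card (α := F₀)
    omega
  -- `σ` has order two
  have hord : orderOf σ = 2 := by
    apply orderOf_eq_prime
    · ext a
      show σ (σ a) = a
      rw [hσ, hσ, ← pow_mul, ← pow_two, ← hF, FiniteField.pow_card]
    · intro h1
      have hall : ∀ x : Fˣ, x ^ (q - 1) = 1 := by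
        intro x
        apply Units.ext
        have h2 : (x : F) ^ q = x := by
          rw [← hσ, h1]
          rfl
        have h3 : (x : F) ^ (q - 1) * x = x := by
          rw [← pow_succ, Nat.sub_add_cancel (by omega)]
          exact h2
        rw [Units.val_pow_eq_pow_val, Units.val_one]
        exact mul_right_cancel₀ x.ne_zero (by rw [h3, one_mul])
      have hdvd := (FiniteField.forall_pow_eq_one_iff F (q - 1)).1 hall
      rw [hF] at hdvd
      have hle := Nat.le_of_dvd (by omega) hdvd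
      have h5 : 2 * q ≤ q ^ 2 := by nlinarith
      omega
  obtain ⟨j, hj⟩ := Fix.exists_embedding hF' σ hord F₀
    (by rw [hk, Nat.mul_div_cancel_left _ (by norm_num : 0 < 2)])
  have h2 : (2 : F₀) ≠ 0 := by
    intro h
    have hc : ringChar F₀ = 2 := by
      have : ringChar F₀ ∣ 2 := (ringChar.spec F₀ 2).1 (by exact_mod_cast h)
      exact (Nat.prime_dvd_prime_iff_eq hp Nat.prime_two).1 this
    have h3 := FiniteField.even_card_of_char_two hc
    rw [hF₀] at h3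
    exact (Nat.not_even_iff_odd.2 hodd) (Nat.even_iff.2 h3)
  obtain ⟨E⟩ := nonempty_centEquivGO hF h2 (by omega : 3 ≤ 2 * m) σ hσ hord j hj
  have hme : Even m := by
    obtain ⟨t, ht⟩ := h4
    exact ⟨t, by omega⟩
  obtain ⟨α, β, hαβ⟩ := CharP.sq_add_sq F₀ (ringChar F₀) (-1)
  have hαβ' : (α : F₀) ^ 2 + (β : F₀) ^ 2 = -1 := by
    rw [hαβ]
    push_cast
    rfl
  obtain ⟨e, he⟩ := Cfsg.Agent.Lib.Helper30.GTEVEN.dot_plus_even h2 m hme _ _ hαβ'
  obtain ⟨E2⟩ := Cfsg.Agent.Lib.Helper54.GTPGO.pgo_congr (dotQ (Fin (2 * m)) F₀)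
    (Cfsg.quadFormPlus m F₀) e he
  exact ⟨E.trans E2⟩

end Cfsg.Agent.Lib.Helper53.SUGO
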