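import Cfsg.Agent.Lib.Helper22.W2Defs

/-! Project W2 (S4707, helper22), piece STABK: the stabilizer of `x` acts on the three neighbours
of `x` with kernel `Kx G x`, so its order divides `6 * |Kx G x|`. -/

set_option autoImplicit false

namespace Cfsg.Agent.Lib.Helper53.W2

open Cfsg Cfsg.Agent.Lib.Helper22.W2
open scoped ComplexConjugate

universe u

variable {α : Type*} [Fintype α] [DecidableEq α]

/-- PIECE STABK -/
theorem stabK (G : Subgroup (Equiv.Perm α)) (hnb : Nb G)
    (hsmul : ∀ (g : G) (x y : α), adj G x y → adj G (g • x) (g • y)) (x : α) :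
    Nat.card (MulAction.stabilizer G x) ∣ 6 * Nat.card (Kx G x) := by
  classical
  have hfix : ∀ h : MulAction.stabilizer G x, (h : G) • x = x := fun h => h.2
  letI act : MulAction (MulAction.stabilizer G x) {y : α // adj G x y} :=
    { smul := fun h y => ⟨(h : G) • (y : α), by
        have h1 := hsmul (h : G) x y y.2
        rwa [hfix h] at h1⟩
      one_smul := fun y => Subtype.ext (one_smul _ _)
      mul_smul := fun h h' y => Subtype.ext (mul_smul _ _ _) }
  obtain ⟨φ, hφ⟩ : ∃ φ : MulAction.stabilizer G x →* Equiv.Perm {y : α // adj G x y},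
      ∀ (h : MulAction.stabilizer G x) (y : {y : α // adj G x y}),
        ((φ h y : {y : α // adj G x y}) : α) = (h : G) • (y : α) :=
    ⟨MulAction.toPermHom (MulAction.stabilizer G x) {y : α // adj G x y}, fun h y => rfl⟩
  have hker : φ.ker = (Kx G x).subgroupOf (MulAction.stabilizer G x) := by
    ext k
    rw [MonoidHom.mem_ker, Subgroup.mem_subgroupOf]
    constructor
    · intro hk
      refine ⟨hfix k, fun y hy => ?_⟩
      have h1 := hφ k ⟨y, hy⟩
      rw [hk] at h1
      exact h1.symm
    · intro hk
      apply Equiv.ext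
      intro y
      apply Subtype.ext
      rw [hφ]
      exact hk.2 y y.2
  have hle : Kx G x ≤ MulAction.stabilizer G x := fun g hg => hg.1
  have hcardK : Nat.card φ.ker = Nat.card (Kx G x) := by
    rw [hker]; exact Nat.card_congr (Subgroup.subgroupOfEquivOfLe hle).toEquiv
  have hmul : Nat.card φ.ker * Nat.card φ.range = Nat.card (MulAction.stabilizer G x) := by
    rw [← Subgroup.index_ker]; exact Subgroup.card_mul_index _
  have hN : Nat.card {y : α // adj G x y} = 3 := (hnb x).1
  have hperm : Nat.card (Equiv.Perm {y : α // adj G x y}) = 6 := by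
    rw [Nat.card_perm, hN]; rfl
  have hrange : Nat.card φ.range ∣ 6 := hperm ▸ Subgroup.card_subgroup_dvd_card _
  rw [← hmul, hcardK]
  calc Nat.card (Kx G x) * Nat.card φ.range ∣ Nat.card (Kx G x) * 6 :=
        Nat.mul_dvd_mul_left _ hrange
    _ = 6 * Nat.card (Kx G x) := mul_comm _ _

end Cfsg.Agent.Lib.Helper53.W2
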